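import Mathlib
import Cfsg.Agent.ThreeTransp.SrgCount

/-!
An automorphism of a symmetric integral matrix with a quadratic equation modulo the all-one matrix:
a congruence for the trace of the twisted matrix.
-/

set_option autoImplicit false

namespace CfsgLib.FischerGQ

open Matrix Polynomial

variable {X : Type*} [Fintype X] [DecidableEq X]

theorem isIntegral_trace_of_pow_eq (Q : Matrix X X ℂ) (n : ℕ) (hQ : Q ^ (n + 2) = Q) :
    IsIntegral ℤ Q.trace := by
  rcases isEmpty_or_nonempty X with hX | hX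
  · simp [Matrix.trace, isIntegral_zero]
  rw [Matrix.trace_eq_sum_roots_charpoly]
  refine IsIntegral.multiset_sum fun μ hμ => ?_
  have hμ' : μ ∈ spectrum ℂ Q := by
    rw [Matrix.mem_spectrum_iff_isRoot_charpoly]
    exact (Polynomial.mem_roots (Matrix.charpoly_monic Q).ne_zero).1 hμ
  have h0 : aeval Q (Polynomial.X ^ (n + 2) - Polynomial.X : ℂ[X]) = 0 := by
    simp [hQ]
  have h1 := spectrum.subset_polynomial_aeval Q (Polynomial.X ^ (n + 2) - Polynomial.X : ℂ[X])
    ⟨μ, hμ', rfl⟩
  rw [h0, spectrum.zero_eq, Set.mem_singleton_iff] at h1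
  refine ⟨Polynomial.X ^ (n + 2) - Polynomial.X, monic_X_pow_sub ?_, ?_⟩
  · rw [degree_X]; exact_mod_cast (by omega : 1 < n + 2)
  · simpa [eval₂_sub, eval₂_X_pow] using h1

/-- The congruence. -/
theorem trace_congr (M : Matrix X X ℤ) (σ : Equiv.Perm X) (m c k : ℤ) (hm : m ≠ 0) [Nonempty X]
    (hrow : ∀ i, ∑ j, M i j = k) (hcol : ∀ j, ∑ i, M i j = k)
    (hinv : ∀ i j, M (σ i) (σ j) = M i j)
    (hsq : M * M = m • M + c • Matrix.of fun _ _ => (1 : ℤ)) :
    m ∣ (∑ i, M (σ i) i) - k := by
  classical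
  set v : ℂ := (Fintype.card X : ℂ) with hv
  have hv0 : v ≠ 0 := by rw [hv]; exact_mod_cast Fintype.card_ne_zero
  have hm' : (m : ℂ) ≠ 0 := by exact_mod_cast hm
  set N : Matrix X X ℂ := Matrix.of fun i j => ((M i j : ℂ) - k / v) / m with hN
  have hk : (k : ℂ) * k = m * k + c * v := by
    obtain ⟨i₀⟩ := ‹Nonempty X›
    have h := congrArg (fun A : Matrix X X ℤ => ∑ j, A i₀ j) hsq
    simp only [Matrix.add_apply, Matrix.smul_apply, Matrix.of_apply, Finset.sum_add_distrib,
      smul_eq_mul, ← Finset.mul_sum, hrow, Finset.sum_const, Finset.card_univ, nsmul_eq_mul,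
      Matrix.mul_apply, mul_one] at h
    rw [Finset.sum_comm] at h
    simp only [← Finset.mul_sum, hrow, ← Finset.sum_mul] at h
    rw [hv, mul_comm (c : ℂ)]; exact_mod_cast h
  have hN2 : ∀ i j, ∑ l, N i l * N l j = N i j := by
    intro i j
    have h := congrFun (congrFun hsq i) j
    simp only [Matrix.mul_apply, Matrix.add_apply, Matrix.smul_apply, Matrix.of_apply, smul_eq_mul,
      mul_one] at h
    have h' : (∑ l, (M i l : ℂ) * M l j) = m * M i j + c := by exact_mod_cast h
    have hr : (∑ l, (M i l : ℂ)) = k := by exact_mod_cast hrow i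
    have hc : (∑ l, (M l j : ℂ)) = k := by exact_mod_cast hcol j
    simp only [hN, Matrix.of_apply]
    simp only [div_mul_div_comm, ← Finset.sum_div, sub_mul, mul_sub, Finset.sum_sub_distrib,
      ← Finset.mul_sum, ← Finset.sum_mul, h', hr, hc, Finset.sum_const, Finset.card_univ,
      nsmul_eq_mul]
    rw [← hv]
    field_simp
    linear_combination -hk
  have hNσ : ∀ i j, N (σ i) (σ j) = N i j := fun i j => by simp only [hN, Matrix.of_apply, hinv]
  set Q : Matrix X X ℂ := Matrix.of fun i j => N (σ i) j with hQ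
  have hpow : ∀ n : ℕ, Q ^ (n + 1) = Matrix.of fun i j => N ((σ ^ (n + 1)) i) j := by
    intro n
    induction n with
    | zero => rw [pow_one, pow_one, hQ]
    | succ n ih =>
      rw [pow_succ, ih]
      ext i j
      simp only [Matrix.mul_apply, hQ, Matrix.of_apply]
      rw [← hN2 ((σ ^ (n + 1 + 1)) i) j]
      conv_rhs => rw [← Equiv.sum_comp σ]
      refine Finset.sum_congr rfl fun l _ => ?_
      rw [pow_succ' σ (n + 1), Equiv.Perm.mul_apply, hNσ]
  have hfix : Q ^ (orderOf σ - 1 + 2) = Q := by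
    rw [hpow]
    have : orderOf σ - 1 + 1 = orderOf σ := by have := orderOf_pos σ; omega
    rw [pow_succ', this, pow_orderOf_eq_one, mul_one, hQ]
  have hint := isIntegral_trace_of_pow_eq Q _ hfix
  have htr : Q.trace = (((∑ i, M (σ i) i) - k : ℤ) : ℂ) / m := by
    simp only [Matrix.trace, Matrix.diag, hQ, hN, Matrix.of_apply, ← Finset.sum_div,
      Finset.sum_sub_distrib, Finset.sum_const, Finset.card_univ, nsmul_eq_mul]
    rw [← hv]
    push_cast
    field_simp
  have hrat : Q.trace = algebraMap ℚ ℂ ((((∑ i, M (σ i) i) - k : ℤ) : ℚ) / m) := by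
    rw [htr]; push_cast; simp
  rw [hrat, isIntegral_algebraMap_iff (algebraMap ℚ ℂ).injective] at hint
  obtain ⟨z, hz⟩ := IsIntegrallyClosed.isIntegral_iff.1 hint
  refine ⟨z, ?_⟩
  have h1 : (z : ℚ) = (((∑ i, M (σ i) i) - k : ℤ) : ℚ) / m := by simpa using hz
  have hm'' : (m : ℚ) ≠ 0 := by exact_mod_cast hm
  rw [eq_div_iff hm''] at h1
  have h2 : ((z * m : ℤ) : ℚ) = (((∑ i, M (σ i) i) - k : ℤ) : ℚ) := by push_cast at h1 ⊢; exact h1
  rw [mul_comm]
  exact (Int.cast_injective h2).symm

/-- The congruence for a finite set of automorphisms closed under composition. -/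
theorem trace_congr_sum {I : Type*} [Fintype I] [Nonempty I] (op : I → I → I) (g : I → Equiv.Perm X)
    (hbij : ∀ i, Function.Bijective (op i)) (hop : ∀ i j, g (op i j) = g i * g j)
    (M : Matrix X X ℤ) (m c k : ℤ) (hm : m ≠ 0) [Nonempty X]
    (hrow : ∀ i, ∑ j, M i j = k) (hcol : ∀ j, ∑ i, M i j = k)
    (hinv : ∀ l i j, M (g l i) (g l j) = M i j)
    (hsq : M * M = m • M + c • Matrix.of fun _ _ => (1 : ℤ)) :
    m * Fintype.card I ∣ ∑ l : I, ((∑ i, M (g l i) i) - k) := by
  classical
  set v : ℝ := (Fintype.card X : ℝ) with hv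
  have hv0 : v ≠ 0 := by rw [hv]; exact_mod_cast Fintype.card_ne_zero
  have hm' : (m : ℝ) ≠ 0 := by exact_mod_cast hm
  set n : ℝ := (Fintype.card I : ℝ) with hn
  have hn0 : n ≠ 0 := by rw [hn]; exact_mod_cast Fintype.card_ne_zero
  set N : Matrix X X ℝ := Matrix.of fun i j => ((M i j : ℝ) - k / v) / m with hN
  have hk : (k : ℝ) * k = m * k + c * v := by
    obtain ⟨i₀⟩ := ‹Nonempty X›
    have h := congrArg (fun A : Matrix X X ℤ => ∑ j, A i₀ j) hsq
    simp only [Matrix.add_apply, Matrix.smul_apply, Matrix.of_apply, Finset.sum_add_distrib,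
      smul_eq_mul, ← Finset.mul_sum, hrow, Finset.sum_const, Finset.card_univ, nsmul_eq_mul,
      Matrix.mul_apply, mul_one] at h
    rw [Finset.sum_comm] at h
    simp only [← Finset.mul_sum, hrow, ← Finset.sum_mul] at h
    rw [hv, mul_comm (c : ℝ)]; exact_mod_cast h
  have hN2 : ∀ i j, ∑ l, N i l * N l j = N i j := by
    intro i j
    have h := congrFun (congrFun hsq i) j
    simp only [Matrix.mul_apply, Matrix.add_apply, Matrix.smul_apply, Matrix.of_apply, smul_eq_mul,
      mul_one] at h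
    have h' : (∑ l, (M i l : ℝ) * M l j) = m * M i j + c := by exact_mod_cast h
    have hr : (∑ l, (M i l : ℝ)) = k := by exact_mod_cast hrow i
    have hc : (∑ l, (M l j : ℝ)) = k := by exact_mod_cast hcol j
    simp only [hN, Matrix.of_apply]
    simp only [div_mul_div_comm, ← Finset.sum_div, sub_mul, mul_sub, Finset.sum_sub_distrib,
      ← Finset.mul_sum, ← Finset.sum_mul, h', hr, hc, Finset.sum_const, Finset.card_univ,
      nsmul_eq_mul]
    rw [← hv]
    field_simp
    linear_combination -hk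
  set R : Matrix X X ℝ := Matrix.of fun i j => (∑ l, N (g l i) j) / n with hR
  have hinner : ∀ a b i j, ∑ x, N (g a i) x * N (g b x) j = N (g (op b a) i) j := by
    intro a b i j
    rw [← hN2 (g (op b a) i) j]
    conv_rhs => rw [← Equiv.sum_comp (g b)]
    refine Finset.sum_congr rfl fun x _ => ?_
    rw [hop, Equiv.Perm.mul_apply]
    simp only [hN, Matrix.of_apply, hinv]
  have hRR : R * R = R := by
    ext i j
    simp only [Matrix.mul_apply, hR, Matrix.of_apply, div_mul_div_comm, Finset.sum_mul_sum,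
      ← Finset.sum_div]
    have h1 : ∑ x, ∑ a, ∑ b, N (g a i) x * N (g b x) j = n * ∑ l, N (g l i) j := by
      calc ∑ x, ∑ a, ∑ b, N (g a i) x * N (g b x) j
          = ∑ b, ∑ a, ∑ x, N (g a i) x * N (g b x) j := by
            rw [Finset.sum_comm, Finset.sum_congr rfl fun a _ => Finset.sum_comm]
            exact Finset.sum_comm
        _ = ∑ b, ∑ a, N (g (op b a) i) j := by simp only [hinner]
        _ = ∑ _b : I, ∑ l, N (g l i) j :=
            Finset.sum_congr rfl fun b _ => (hbij b).sum_comp (fun l => N (g l i) j)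
        _ = n * ∑ l, N (g l i) j := by
            rw [Finset.sum_const, Finset.card_univ, nsmul_eq_mul, hn]
    rw [h1]
    field_simp
  obtain ⟨r, hr⟩ := CfsgLib.ThreeTransp.Srg.trace_idempotent hRR
  refine ⟨r, ?_⟩
  have h2 : (r : ℝ) = ((∑ l : I, ((∑ i, M (g l i) i) - k) : ℤ) : ℝ) / (m * n) := by
    rw [← hr]
    simp only [Matrix.trace, Matrix.diag, hR, hN, Matrix.of_apply, ← Finset.sum_div]
    rw [Finset.sum_comm, div_div]
    congr 1
    push_cast
    refine Finset.sum_congr rfl fun l _ => ?_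
    rw [Finset.sum_sub_distrib, Finset.sum_const, Finset.card_univ, nsmul_eq_mul, ← hv]
    field_simp
  rw [eq_div_iff (mul_ne_zero hm' hn0), hn] at h2
  have h3 : ((r * (m * Fintype.card I) : ℤ) : ℝ) = ((∑ l : I, ((∑ i, M (g l i) i) - k) : ℤ) : ℝ) := by
    push_cast at h2 ⊢; exact h2
  rw [mul_comm (m * (Fintype.card I : ℤ))]
  exact (Int.cast_injective h3).symm

end CfsgLib.FischerGQ
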