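import Mathlib
import Cfsg.Agent.ThreeTransp.SU2.Five
import Cfsg.Agent.FischerGQ.Data

/-!
The facts about `SU_4(2)`, `SU_5(2)` and `S_6` used to name the groups of the quadrangles.
-/

set_option autoImplicit false
set_option maxRecDepth 100000

namespace CfsgLib.FischerGQ

open Cfsg CfsgLib.Unitary CfsgLib.TTUnitary
open CfsgLib.CosetEnum (gword gword_cons gword_nil gword_inverse allFrom RangeChecked)

/-- The word of one of the 45 members. -/
def W45 (p : ℕ) : List ℕ := Data.words45.getD p []

/-- Whether two of the 45 members commute. -/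
def cm45 (p q : ℕ) : Bool := (Data.mask45.getD p 0).testBit q

/-- The members commuting with two given ones. -/
def common45 (p q : ℕ) : List ℕ := (List.range 45).filter fun r => cm45 r p && cm45 r q

theorem gens4_ok : gensOK 4 Data.gens4 = true := by decide +kernel

theorem pts45_ok : gensOK 4 Data.pts45 = true := by decide +kernel

theorem gens5x_ok : gensOK 5 Data.gens5 = true := by decide +kernel

theorem W45_lt : ∀ p < 45, ∀ x ∈ W45 p, x < 6 := by decide +kernel

theorem W45_palindrome : ∀ p < 45, (W45 p).reverse = W45 p := by decide +kernel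

theorem rels4_rows :
    ∀ w ∈ Data.rels4, (∀ x ∈ w, x < 6) ∧ wordRows 4 Data.gens4 w = idRows 4 := by decide +kernel

theorem rels6_rows :
    ∀ w ∈ Data.rels6, (∀ x ∈ w, x < 6) ∧ wordRows 4 Data.gens4 w = idRows 4 := by decide +kernel

theorem rels6_rows_five :
    ∀ w ∈ Data.rels6, (∀ x ∈ w, x < 7) ∧ wordRows 5 Data.gens5 w = idRows 5 := by decide +kernel

theorem rels5_rows : ∀ w ∈ Data.rels4 ++ Data.relsPat ++ [Data.eqs5.getD 1 []],
    (∀ x ∈ w, x < 7) ∧ wordRows 5 Data.gens5 w = idRows 5 := by decide +kernel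

theorem pts45_rows : ∀ p < 45, wordRows 4 Data.gens4 (W45 p) = wordRows 4 Data.pts45 [p] := by
  decide +kernel

theorem next45_rows : ∀ x < 6, ∀ p < 45, (Data.next45.getD x []).getD p 0 < 45 ∧
    wordRows 4 Data.gens4 ([x] ++ W45 p ++ [x]) =
      wordRows 4 Data.gens4 (W45 ((Data.next45.getD x []).getD p 0)) := by decide +kernel

theorem cm45_rows : ∀ p < 45, ∀ q < 45,
    (bif cm45 p q then wordRows 4 Data.pts45 [p, q, p, q] == idRows 4
      else neId 4 (wordRows 4 Data.pts45 [p, q, p, q])) = true := by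
  decide +kernel

theorem distinct45 : ∀ p < 45, ∀ q < p,
    neId 4 (wordRows 4 Data.pts45 [p, q]) = true := by
  decide +kernel

theorem seq_rows : ∀ l ∈ Data.seq24 ++ Data.seq37, l.getD 0 0 < 45 ∧ l.getD 1 0 < 45 ∧
    l.getD 2 0 < 45 ∧ wordRows 4 Data.gens4 (W45 (l.getD 2 0)) =
      wordRows 4 Data.gens4 (W45 (l.getD 1 0) ++ W45 (l.getD 0 0) ++ W45 (l.getD 1 0)) := by
  decide +kernel

/-- The word of one of the 165 members. -/
def W165 (p : ℕ) : List ℕ := Data.words165.getD p []

theorem W165_cw : ∀ p < 165, (∀ x ∈ W165 p, x < 7) ∧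
    ∃ m ∈ List.range ((W165 p).length + 1), ∃ i ∈ List.range 7,
      W165 p = cw ((W165 p).take m) i := by decide +kernel

theorem W45_cw : ∀ p < 45, ∃ m ∈ List.range ((W45 p).length + 1), ∃ i ∈ List.range 6,
      W45 p = cw ((W45 p).take m) i := by decide +kernel

theorem distinct165 : ∀ p < 165, ∀ q < p,
    neId 5 (wordRows 5 Data.pts165 [p, q]) = true := by
  decide +kernel

theorem pts165_ok : gensOK 5 Data.pts165 = true := by decide +kernel

theorem pts165_rows : ∀ p < 165, wordRows 5 Data.gens5 (W165 p) = wordRows 5 Data.pts165 [p] := by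
  decide +kernel

theorem W165_palindrome : ∀ p < 165, (W165 p).reverse = W165 p := by decide +kernel

theorem std5_rows : ∀ x < 5, (∀ y ∈ Data.std5.getD x [], y < 7) ∧
    wordRows 5 TTUnitary.Data.gens5 [x] = wordRows 5 Data.gens5 (Data.std5.getD x []) := by
  decide +kernel

/-- Every isotropic vector is a multiple of one of the 45. -/
noncomputable def cover4OK (k : ℕ) : Bool :=
  (k == 0) || !(hermC (toVec 4 k) (toVec 4 k) 4 == 0) ||
    Data.pts45.any fun a => [1, 2, 3].any fun l => toVec 4 k == a.map (mulC l)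

theorem cover4 : allFrom cover4OK 0 256 = true := by decide +kernel

end CfsgLib.FischerGQ
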