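import Mathlib
import Cfsg.Agent.FischerGQ.Models
import Cfsg.Agent.Classical.Unitary.Simple
import Cfsg.Agent.Classical.Unitary.Center

/-!
The members of `SU_4(2)` and `SU_5(2)` named by words.
-/

set_option autoImplicit false

namespace CfsgLib.FischerGQ

open Cfsg CfsgLib.Unitary CfsgLib.TTUnitary
open CfsgLib.CosetEnum (gword gword_cons gword_nil gword_inverse allFrom RangeChecked)

variable {F : Type*} [Field F] [Fintype F] (hF : Fintype.card F = 2 ^ 2)

theorem gword_rows_eq {n : ℕ} {gens gens' : List (List ℕ)} (h : gensOK n gens = true)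
    (h' : gensOK n gens' = true) {w w' : List ℕ} (hw : ∀ x ∈ w, x < gens.length)
    (hw' : ∀ x ∈ w', x < gens'.length) (he : wordRows n gens w = wordRows n gens' w') :
    gword (genT (n := n) hF h) w = gword (genT hF h') w' := by
  have h1 := wordRows_spec hF h w hw
  have h2 := wordRows_spec hF h' w' hw'
  rw [he] at h1
  refine Subtype.ext (Subtype.ext ?_)
  ext i j
  have h3 : sv (gword (genT hF h) w) (Pi.single j 1) i =
      sv (gword (genT hF h') w') (Pi.single j 1) i := by rw [h1 i j, h2 i j]
  simpa [sv] using h3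

/-- The letters in `SU_4(2)`. -/
noncomputable def p4 (x : ℕ) : ↥(SU 4 F 2) := genT hF gens4_ok x

/-- The letters in `SU_5(2)`. -/
noncomputable def p5 (x : ℕ) : ↥(SU 5 F 2) := genT hF gens5x_ok x

/-- The 45 members in `SU_4(2)`. -/
noncomputable def P45 (p : ℕ) : ↥(SU 4 F 2) := gword (p4 hF) (W45 p)

/-- The 165 members in `SU_5(2)`. -/
noncomputable def P165 (p : ℕ) : ↥(SU 5 F 2) := gword (p5 hF) (W165 p)

theorem rels4_hold : ∀ w ∈ Data.rels4, gword (p4 hF) w = 1 := fun w hw =>
  gword_eq_one hF gens4_ok (fun x hx => (rels4_rows w hw).1 x hx) (rels4_rows w hw).2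

theorem rels6_in_four : ∀ w ∈ Data.rels6, gword (p4 hF) w = 1 := fun w hw =>
  gword_eq_one hF gens4_ok (fun x hx => (rels6_rows w hw).1 x hx) (rels6_rows w hw).2

theorem rels5_hold : ∀ w ∈ Data.rels4 ++ Data.relsPat ++ [Data.eqs5.getD 1 []],
    gword (p5 hF) w = 1 := fun w hw =>
  gword_eq_one hF gens5x_ok (fun x hx => (rels5_rows w hw).1 x hx) (rels5_rows w hw).2

theorem rels6_in_five : ∀ w ∈ Data.rels6, gword (p5 hF) w = 1 := fun w hw =>
  gword_eq_one hF gens5x_ok (fun x hx => (rels6_rows_five w hw).1 x hx) (rels6_rows_five w hw).2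

theorem P45_eq {p : ℕ} (hp : p < 45) : P45 hF p = genT hF pts45_ok p := by
  have e := gword_rows_eq hF gens4_ok pts45_ok (fun x hx => W45_lt p hp x hx)
    (w' := [p]) (fun x hx => by rw [List.mem_singleton.1 hx]; exact hp) (pts45_rows p hp)
  rw [gword_cons, gword_nil, mul_one] at e
  exact e

theorem P45_sq {p : ℕ} (hp : p < 45) : P45 hF p * P45 hF p = 1 := by
  have hlt : ∀ y ∈ W45 p, y < 6 := W45_lt p hp
  have hsq : ∀ x, p4 hF x * p4 hF x = 1 := by
    intro x
    by_cases hx : x < 6
    · have := rels4_hold hF [x, x] (by revert x; decide)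
      rwa [gword_cons, gword_cons, gword_nil, mul_one] at this
    · rw [p4, genT, dif_neg (by simpa [Data.gens4] using hx), one_mul]
  have h := gword_inverse (p4 hF) (fun x => x)
    (fun x => (inv_eq_of_mul_eq_one_right (hsq x)).symm) (W45 p)
  rw [List.map_id', W45_palindrome p hp] at h
  rw [P45]
  nth_rewrite 2 [h]
  exact mul_inv_cancel _

theorem P45_commute {p q : ℕ} (hp : p < 45) (hq : q < 45) :
    Commute (P45 hF p) (P45 hF q) ↔ cm45 p q = true := by
  have h := cm45_rows p hp q hq
  have hlt : ∀ x ∈ [p, q, p, q], x < Data.pts45.length := by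
    intro x hx
    simp only [List.mem_cons, List.not_mem_nil, or_false] at hx
    rcases hx with rfl | rfl | rfl | rfl <;> assumption
  have e : gword (genT hF pts45_ok) [p, q, p, q] = (P45 hF p * P45 hF q) * (P45 hF p * P45 hF q) := by
    simp only [gword_cons, gword_nil, mul_one, P45_eq hF hp, P45_eq hF hq, mul_assoc]
  cases hc : cm45 p q
  · rw [hc, cond_false] at h
    refine iff_of_false (fun hcm => ?_) (by simp)
    have := gword_ne_one hF pts45_ok hlt h
    rw [e, hcm.symm.mul_mul_mul_comm, P45_sq hF hp, P45_sq hF hq, one_mul] at this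
    exact this rfl
  · rw [hc, cond_true, beq_iff_eq] at h
    refine iff_of_true ?_ rfl
    have h1 := gword_eq_one hF pts45_ok hlt h
    rw [e] at h1
    have h2 := eq_inv_of_mul_eq_one_left h1
    rw [mul_inv_rev, inv_eq_of_mul_eq_one_right (P45_sq hF hp),
      inv_eq_of_mul_eq_one_right (P45_sq hF hq)] at h2
    exact h2

theorem P45_inj {p q : ℕ} (hp : p < 45) (hq : q < 45) (he : P45 hF p = P45 hF q) : p = q := by
  by_contra hne
  wlog hlt : q < p generalizing p q
  · exact this hq hp he.symm (Ne.symm hne) (lt_of_le_of_ne (not_lt.1 hlt) hne)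
  refine gword_ne_one hF pts45_ok (fun x hx => ?_) (distinct45 p hp q hlt) ?_
  · simp only [List.mem_cons, List.not_mem_nil, or_false] at hx
    rcases hx with rfl | rfl <;> assumption
  · rw [gword_cons, gword_cons, gword_nil, mul_one, ← P45_eq hF hp, ← P45_eq hF hq, ← he,
      P45_sq hF hp]

theorem P45_next {x p : ℕ} (hx : x < 6) (hp : p < 45) :
    p4 hF x * P45 hF p * p4 hF x = P45 hF ((Data.next45.getD x []).getD p 0) := by
  obtain ⟨hn, he⟩ := next45_rows x hx p hp
  have e := gword_rows_eq hF gens4_ok gens4_ok (fun y hy => ?_) (fun y hy => W45_lt _ hn y hy) he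
  · simp only [gword, List.map_append, List.map_cons, List.map_nil, List.prod_append,
      List.prod_cons, List.prod_nil, mul_one] at e
    exact e
  · simp only [List.mem_append, List.mem_singleton] at hy
    rcases hy with (rfl | hy) | rfl
    exacts [hx, W45_lt p hp y hy, hx]

theorem P45_seq {i j k : ℕ} (hl : [i, j, k] ∈ Data.seq24 ++ Data.seq37) :
    P45 hF k = P45 hF j * P45 hF i * P45 hF j := by
  obtain ⟨hi, hj, hk, he⟩ := seq_rows _ hl
  simp only [List.getD_cons_zero, List.getD_cons_succ] at hi hj hk he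
  have e := gword_rows_eq hF gens4_ok gens4_ok (fun y hy => W45_lt _ hk y hy) (fun y hy => ?_) he
  · simp only [gword, List.map_append, List.prod_append] at e
    exact e
  · simp only [List.mem_append] at hy
    rcases hy with (hy | hy) | hy
    exacts [W45_lt j hj y hy, W45_lt i hi y hy, W45_lt j hj y hy]

include hF in
theorem card_SU_four : Nat.card ↥(SU 4 F 2) = 25920 := by
  have h := card_SU hF 4 (by norm_num)
  simp only [Finset.prod_range_succ, Finset.prod_range_zero, Nat.even_iff] at h
  norm_num at h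
  omega

/-- A transvection of a multiple of a vector is that of the vector. -/
theorem tv_smul_code {n : ℕ} {v : Fin n → F} (hv : hermForm n F 2 v v = 0) {m : ℕ}
    (hm : m ∈ [1, 2, 3]) (hmv : hermForm n F 2 (code hF m • v) (code hF m • v) = 0) :
    tv hF (code hF m • v) hmv = tv hF v hv := by
  have hm0 : (code hF m : F) ^ (2 + 1) = 1 := by
    have ho := omega_sq hF
    have h1 := one_add_one hF
    simp only [List.mem_cons, List.not_mem_nil, or_false] at hm
    rcases hm with rfl | rfl | rfl
    · simp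
    · rw [code_two]; linear_combination (omega hF + 1) * ho + (omega hF) * h1
    · rw [code_three]; linear_combination (omega hF + 4) * ho + (4 * omega hF + 2) * h1
  refine transvSU_congr hF _ _ _ _ fun y => ?_
  rw [herm_smul_right, smul_smul]
  congr 1
  linear_combination hermForm n F 2 y v * hm0

theorem closure_p4 : Subgroup.closure {z | ∃ x < 6, p4 hF x = z} = ⊤ := by
  set K := Subgroup.closure {z | ∃ x < 6, p4 hF x = z}
  rw [eq_top_iff, ← transvGroup_eq_top (n := 4) hF (by norm_num), transvGroup, Subgroup.closure_le]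
  rintro A ⟨v, c, hv, hA⟩
  obtain ⟨c', hc', rfl, -⟩ := eq_transvSU_of_matrix_eq hF hv hA
  rcases mul_eq_zero.1 (show c' * (c' + 1) = 0 by linear_combination hc') with h | h
  · rw [transvSU_eq_one hF _ _ (Or.inl h)]; exact K.one_mem
  have hc1 : c' = 1 := by linear_combination h - one_add_one hF
  subst hc1
  by_cases hv0 : v = 0
  · rw [transvSU_eq_one hF _ _ (Or.inr hv0)]; exact K.one_mem
  obtain ⟨l, hll, hl, rfl⟩ := exists_vecC hF v
  set k := fromVec l with hk
  have hk4 : k < 256 := by
    have := fromVec_lt l hl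
    rw [hll] at this
    simpa using this
  have hlk : toVec 4 k = l := by
    have := toVec_fromVec l hl
    rwa [hll] at this
  have hcov := (RangeChecked.app 256 256 RangeChecked.zero cover4 rfl).all k hk4
  simp only [cover4OK, Bool.or_eq_true, beq_iff_eq, Bool.not_eq_true', beq_eq_false_iff_ne] at hcov
  rcases hcov with (h0 | hne) | hmem
  · refine absurd ?_ hv0
    have hl0 : l = toVec 4 0 := by rw [← hlk, h0]
    funext i
    rw [hl0, vecC, toVec, getD_map_range _ _ i.2]
    simp
  · exfalso
    rw [hlk] at hne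
    apply hne
    have hz : (code hF (hermC l l 4) : F) = code hF 0 := by
      rw [← herm_vecC hF hl hl, hv, code_zero]
    obtain ⟨e1, e2⟩ := bit_eq hF hz
    have hb := hermC_lt hl hl 4
    generalize hermC l l 4 = m at *
    interval_cases m <;> simp_all [Nat.testBit, Nat.shiftRight_eq_div_pow]
  simp only [List.any_eq_true, beq_iff_eq] at hmem
  obtain ⟨a, ha, m, hm, hlm⟩ := hmem
  rw [hlk] at hlm
  obtain ⟨p, hpl, rfl⟩ := List.getElem_of_mem ha
  obtain ⟨ha4, hiso, -⟩ := gen_isotropic (n := 4) hF pts45_ok ha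
  have hm4 : m < 4 := by
    simp only [List.mem_cons, List.not_mem_nil, or_false] at hm
    omega
  have hvec : (vecC hF l : Fin 4 → F) = code hF m • vecC hF Data.pts45[p] := by
    rw [hlm]
    funext i
    simp only [vecC, Pi.smul_apply, smul_eq_mul]
    by_cases hil : (i : ℕ) < Data.pts45[p].length
    · rw [List.getD_eq_getElem _ _ (by simpa using hil), List.getElem_map,
        code_mulC hF hm4 (ha4 _ (List.getElem_mem hil)), List.getD_eq_getElem _ _ hil]
    · rw [List.getD_eq_default _ _ (by simpa using hil), List.getD_eq_default _ _ (by simpa using hil),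
        code_zero, mul_zero]
  have hiso' : hermForm 4 F 2 (code hF m • vecC hF Data.pts45[p]) (code hF m • vecC hF Data.pts45[p]) = 0 := by
    rw [herm_smul_left, herm_smul_right, hiso, mul_zero, mul_zero]
  have hp45 : p < 45 := hpl
  show tv hF (vecC hF l) hv ∈ K
  rw [tv_congr hF hv hiso' hvec, tv_smul_code hF hiso hm hiso', ← genT_eq hF pts45_ok hpl,
    ← P45_eq hF hp45, P45, gword]
  refine Subgroup.list_prod_mem _ fun y hy => ?_
  obtain ⟨x, hx, rfl⟩ := List.mem_map.1 hy
  exact Subgroup.subset_closure ⟨x, W45_lt p hp45 x hx, rfl⟩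

theorem closure_p5 : Subgroup.closure {z | ∃ x < 7, p5 hF x = z} = ⊤ := by
  rw [eq_top_iff, ← closure_genT_five hF, Subgroup.closure_le]
  rintro _ ⟨x, hx, rfl⟩
  obtain ⟨hlt, he⟩ := std5_rows x hx
  have e := gword_rows_eq hF gens5_ok gens5x_ok (w := [x])
    (fun y hy => by rw [List.mem_singleton.1 hy]; exact hx) (fun y hy => hlt y hy) he
  rw [gword_cons, gword_nil, mul_one] at e
  rw [e, gword]
  refine Subgroup.list_prod_mem _ fun y hy => ?_
  obtain ⟨z, hz, rfl⟩ := List.mem_map.1 hy
  exact Subgroup.subset_closure ⟨z, hlt z hz, rfl⟩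

theorem P165_inj {p q : ℕ} (hp : p < 165) (hq : q < 165) (he : P165 hF p = P165 hF q) : p = q := by
  by_contra hne
  wlog hlt : q < p generalizing p q
  · exact this hq hp he.symm (Ne.symm hne) (lt_of_le_of_ne (not_lt.1 hlt) hne)
  have ev : ∀ r < 165, P165 hF r = genT hF pts165_ok r := by
    intro r hr
    have e := gword_rows_eq hF gens5x_ok pts165_ok (fun x hx => (W165_cw r hr).1 x hx)
      (w' := [r]) (fun x hx => by rw [List.mem_singleton.1 hx]; exact hr) (pts165_rows r hr)
    rw [gword_cons, gword_nil, mul_one] at e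
    exact e
  refine gword_ne_one hF pts165_ok (fun x hx => ?_) (distinct165 p hp q hlt) ?_
  · simp only [List.mem_cons, List.not_mem_nil, or_false] at hx
    rcases hx with rfl | rfl <;> assumption
  · rw [gword_cons, gword_cons, gword_nil, mul_one, ← ev p hp, ← ev q hq, ← he]
    have hsq : ∀ x, p5 hF x * p5 hF x = 1 := by
      intro x
      by_cases hx : x < 7
      · have := rels5_hold hF [x, x] (by revert x; decide)
        rwa [gword_cons, gword_cons, gword_nil, mul_one] at this
      · rw [p5, genT, dif_neg (by simpa [Data.gens5] using hx), one_mul]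
    have h := gword_inverse (p5 hF) (fun x => x)
      (fun x => (inv_eq_of_mul_eq_one_right (hsq x)).symm) (W165 p)
    rw [List.map_id', W165_palindrome p hp] at h
    rw [P165]
    nth_rewrite 2 [h]
    exact mul_inv_cancel _

include hF in
theorem injective_of_ne_bot {n : ℕ} (hn : n = 4 ∨ n = 5) {G : Type*} [Group G]
    (φ : ↥(SU n F 2) →* G) {u : ↥(SU n F 2)} (hu : φ u ≠ 1) : Function.Injective φ := by
  have h3 : 3 ≤ n := by omega
  have h32 : ¬ (n = 3 ∧ 2 = 2) := by omega
  rw [← MonoidHom.ker_eq_bot_iff]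
  rcases le_center_or_eq_top hF h3 h32 φ.ker with h | h
  · have hc : Nat.card (Subgroup.center ↥(SU n F 2)) = 1 := by
      rw [card_center_SU hF (by omega)]
      rcases hn with rfl | rfl <;> rfl
    rw [Subgroup.card_eq_one] at hc
    exact le_bot_iff.1 (hc ▸ h)
  · exact absurd (MonoidHom.mem_ker.1 (h ▸ Subgroup.mem_top u)) hu

include hF in
theorem center_eq_bot {n : ℕ} (hn : n = 4 ∨ n = 5) : Subgroup.center ↥(SU n F 2) = ⊥ := by
  rw [← Subgroup.card_eq_one, card_center_SU hF (by omega)]
  rcases hn with rfl | rfl <;> rfl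

/-- `PSU_n(2)` is `SU_n(2)` for `n` four or five. -/
noncomputable def quotientCenterEquiv {n : ℕ} (hn : n = 4 ∨ n = 5) :
    Cfsg.PSU n F 2 ≃* ↥(SU n F 2) :=
  (QuotientGroup.quotientMulEquivOfEq (center_eq_bot hF hn)).trans QuotientGroup.quotientBot

end CfsgLib.FischerGQ
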