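import Mathlib
import Cfsg.Prelude.Def_Solvable
import Cfsg.Agent.Eq.Def_Solvable
import Cfsg.Agent.LocalP.Basic

/-!
A non-abelian solvable finite group has a non-central normal subgroup of prime power order.
-/

set_option autoImplicit false
set_option linter.style.haveILetI false

namespace CfsgLib.FischerGQ

variable {K : Type*} [Group K] [Finite K]

/-- A normal nilpotent subgroup is central when all the cores of prime power order are. -/
theorem le_center_of_pCores {N : Subgroup K} [N.Normal] [Group.IsNilpotent ↥N]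
    (h : ∀ p : ℕ, p.Prime → Cfsg.pCore p K ≤ Subgroup.center K) : N ≤ Subgroup.center K := by
  set H : Subgroup ↥N := (Subgroup.center K).subgroupOf N with hH
  suffices hd : Nat.card ↥N ∣ Nat.card ↥H by
    have hle : Nat.card ↥H = Nat.card ↥N :=
      Nat.dvd_antisymm (Subgroup.card_subgroup_dvd_card H) hd
    rw [← Subgroup.subgroupOf_eq_top, ← hH]
    exact (Subgroup.card_eq_iff_eq_top H).1 hle
  refine (Nat.dvd_iff_prime_pow_dvd_dvd _ _).2 fun p k hp hk => ?_
  haveI : Fact p.Prime := ⟨hp⟩
  obtain ⟨P⟩ : Nonempty (Sylow p ↥N) := inferInstance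
  haveI hPn : (P : Subgroup ↥N).Normal := by
    have h03 : Group.IsNilpotent ↥N ↔ ∀ (q : ℕ) (_ : Fact q.Prime) (P : Sylow q ↥N), (P : Subgroup ↥N).Normal :=
      (Group.isNilpotent_of_finite_tfae (G := ↥N)).out 0 3
    exact h03.1 inferInstance p inferInstance P
  haveI := P.characteristic_of_normal hPn
  have hle : (P : Subgroup ↥N) ≤ H := by
    intro y hy
    rw [hH, Subgroup.mem_subgroupOf]
    refine h p hp (CfsgLib.LocalP.le_pCore
      (inferInstance : ((P : Subgroup ↥N).map N.subtype).Normal) (P.2.map _) ?_)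
    exact ⟨y, hy, rfl⟩
  refine dvd_trans ?_ (Subgroup.card_dvd_of_le hle)
  rw [P.card_eq_multiplicity]
  exact pow_dvd_pow p ((hp.pow_dvd_iff_le_factorization Nat.card_pos.ne').1 hk)

theorem exists_noncentral_pCore [Group.IsSolvable K] (h : ∃ a b : K, ¬ Commute a b) :
    ∃ p : ℕ, p.Prime ∧ ¬ Cfsg.pCore p K ≤ Subgroup.center K := by
  classical
  by_contra hcon
  push Not at hcon
  have hex : ∃ n, derivedSeries K n ≤ Subgroup.center K := by
    obtain ⟨n, hn⟩ := Group.IsSolvable.solvable (G := K)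
    exact ⟨n, hn ▸ bot_le⟩
  obtain ⟨a, b, hab⟩ := h
  have h0 : Nat.find hex ≠ 0 := by
    intro h0
    have := Nat.find_spec hex
    rw [h0, derivedSeries_zero, top_le_iff] at this
    have ha : a ∈ Subgroup.center K := this ▸ Subgroup.mem_top a
    exact hab ((Subgroup.mem_center_iff.1 ha b).symm)
  obtain ⟨m, hm⟩ := Nat.exists_eq_succ_of_ne_zero h0
  set N := derivedSeries K m with hN
  haveI : N.Normal := derivedSeries_normal K m
  have hc : ⁅N, N⁆ ≤ Subgroup.center K := by
    have := Nat.find_spec hex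
    rwa [hm, Nat.succ_eq_add_one, derivedSeries_succ] at this
  haveI : Group.IsNilpotent ↥N := by
    refine Subgroup.isNilpotent_of_ker_le_center (H := Abelianization ↥N) Abelianization.of ?_
    rw [Abelianization.ker_of]
    intro z hz
    rw [Subgroup.mem_center_iff]
    intro w
    apply Subtype.ext
    have hz' : (z : K) ∈ ⁅N, N⁆ := by
      rw [← Subgroup.map_subtype_commutator]
      exact ⟨z, hz, rfl⟩
    simpa using Subgroup.mem_center_iff.1 (hc hz') (w : K)
  exact Nat.find_min hex (hm ▸ Nat.lt_succ_self m) (le_center_of_pCores hcon)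

/-- The 2-core of the quotient by the 2-core is trivial. -/
theorem pCore_two_quotient :
    Cfsg.pCore 2 (K ⧸ Cfsg.pCore 2 K) = ⊥ := by
  haveI : Fact (Nat.Prime 2) := ⟨Nat.prime_two⟩
  set O := Cfsg.pCore 2 K with hO
  have h2 : IsPGroup 2 (Cfsg.pCore 2 (K ⧸ O)) := CfsgLib.LocalP.isPGroup_pCore
  have h1 : IsPGroup 2 (QuotientGroup.mk' O).ker := by
    rw [QuotientGroup.ker_mk', hO]; exact CfsgLib.LocalP.isPGroup_pCore
  have hle := CfsgLib.LocalP.le_pCore (G := K)
    (inferInstance : ((Cfsg.pCore 2 (K ⧸ O)).comap (QuotientGroup.mk' O)).Normal)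
    (h2.comap_of_ker_isPGroup _ h1)
  rw [eq_bot_iff]
  intro q hq
  obtain ⟨k, rfl⟩ := QuotientGroup.mk'_surjective O q
  exact (QuotientGroup.eq_one_iff k).2 (hle hq)

end CfsgLib.FischerGQ
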