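import Mathlib
import Cfsg.Agent.FischerCore.Main
import Cfsg.Agent.FischerGQ.Cores
import Cfsg.Agent.ThreeTransp.ClassBasic

/-!
Primitive 3-transposition groups with solvable local subgroups having central odd core: commuting is
an equivalence among the neighbours of a member, the classes are of even size and their number is a
power of three.
-/

set_option autoImplicit false
set_option linter.style.haveILetI false

namespace CfsgLib.FischerGQ

open Cfsg CfsgLib.ThreeTransp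

variable {G : Type*} [Group G] {D : Set G}

/-- The neighbours of `x` commuting with `e`. -/
def blk (D : Set G) (x e : G) : Set G := {f | f ∈ nbr D x ∧ Commute f e}

/-- Commuting of members gives a generalized quadrangle. -/
structure IsGQ (D : Set G) : Prop where
  ttg : IsThreeTranspositionGroup D
  prim : IsPrimitiveUnderConj D
  noncomm : ∃ a ∈ D, ∃ c ∈ D, ¬ Commute a c
  central : ∀ u : G, (∀ d ∈ D, Commute u d) → u = 1
  nonempty : ∀ x ∈ D, (nbr D x).Nonempty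
  trans : ∀ x ∈ D, ∀ a ∈ nbr D x, ∀ b ∈ nbr D x, ∀ f ∈ nbr D x,
    Commute a b → Commute f a → Commute f b
  even_blk : ∀ x ∈ D, ∀ e ∈ nbr D x, Even (blk D x e).ncard
  three_pow : ∀ x ∈ D, ∀ e ∈ nbr D x, ∃ b, (nbr D x).ncard = 3 ^ b * (blk D x e).ncard

/-- The standing hypotheses. -/
structure Hyp (D : Set G) : Prop where
  ttg : IsThreeTranspositionGroup D
  prim : IsPrimitiveUnderConj D
  noncomm : ∃ a ∈ D, ∃ c ∈ D, ¬ Commute a c
  central : ∀ u : G, (∀ d ∈ D, Commute u d) → u = 1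
  nonempty : ∀ x ∈ D, (nbr D x).Nonempty
  solv : ∀ x ∈ D, Group.IsSolvable ↥(Subgroup.closure (nbr D x))
  odd : ∀ x ∈ D, Cfsg.pPrimeCore 2 ↥(Subgroup.closure (nbr D x)) ≤
    Subgroup.center ↥(Subgroup.closure (nbr D x))

theorem blk_conj (hG : IsThreeTranspositionGroup D) (g x e : G) :
    blk D (g * x * g⁻¹) (g * e * g⁻¹) = conjImg g (blk D x e) := by
  ext f
  constructor
  · intro hf
    rw [blk, Set.mem_ofPred_eq, nbr_conjImg hG] at hf
    obtain ⟨⟨f', hf', rfl⟩, hc⟩ := hf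
    exact ⟨f', ⟨hf', commute_conj_iff'.1 hc⟩, rfl⟩
  · rintro ⟨f', ⟨h1, h2⟩, rfl⟩
    exact ⟨nbr_conj hG g h1, commute_conj_iff'.2 h2⟩

theorem ncard_blk_conj (hG : IsThreeTranspositionGroup D) (g x e : G) :
    (blk D (g * x * g⁻¹) (g * e * g⁻¹)).ncard = (blk D x e).ncard := by
  rw [blk_conj hG, FischerCore.ncard_conjImg]

theorem pairConj_edge [Finite G] (hG : IsThreeTranspositionGroup D)
    (hp : IsPrimitiveUnderConj D) (hnc : ∃ a ∈ D, ∃ c ∈ D, ¬ Commute a c) {x e x' e' : G}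
    (hx : x ∈ D) (hx' : x' ∈ D) (he : e ∈ nbr D x) (he' : e' ∈ nbr D x') :
    ∃ g : G, g * x * g⁻¹ = x' ∧ g * e * g⁻¹ = e' := by
  obtain ⟨a, ha, c, hc, hac⟩ := hnc
  obtain ⟨g, hg⟩ := hp.1 x hx x' hx'
  have h1 : g * e * g⁻¹ ∈ nbr D x' := hg ▸ nbr_conj hG g he
  obtain ⟨k, hk, hk'⟩ := nbr_singleClass hG hp ha hc hac hx' h1 he'
  refine ⟨k * g, ?_, ?_⟩
  · have hkx : Commute k x' := commute_of_mem_closure_nbr hk
    rw [show k * g * x * (k * g)⁻¹ = k * (g * x * g⁻¹) * k⁻¹ by group, hg, hkx.eq,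
      mul_inv_cancel_right]
  · rw [show k * g * e * (k * g)⁻¹ = k * (g * e * g⁻¹) * k⁻¹ by group, hk']

theorem commute_coe {S : Subgroup G} {a b : ↥S} : Commute (a : G) (b : G) ↔ Commute a b :=
  ⟨fun h => Subtype.ext h.eq, fun h => congrArg Subtype.val h.eq⟩

theorem twins_in_iff {x : G} {a b : ↥(Subgroup.closure (nbr D x))} :
    AreTwins (nbrIn D x) a b ↔ AreTwins (nbr D x) (a : G) (b : G) := by
  constructor
  · rintro ⟨ha, hb, hc, h⟩
    refine ⟨ha, hb, commute_coe.2 hc, fun e he => ?_⟩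
    simpa only [← commute_coe] using h ⟨e, Subgroup.subset_closure he⟩ he
  · rintro ⟨ha, hb, hc, h⟩
    exact ⟨ha, hb, commute_coe.1 hc, fun e he => by simpa only [← commute_coe] using h _ he⟩

/-- A member of a normal subgroup of odd order moves a member to a twin up to that subgroup. -/
theorem commute_of_odd_normal {K : Type*} [Group K] [Finite K] {C : Set K}
    (hC : IsThreeTranspositionGroup C) {p : ℕ} [Fact p.Prime] (hp2 : p ≠ 2) {n d : K}
    (hn : n ∈ Cfsg.pCore p K) (hd : d ∈ C) :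
    (n * d * n⁻¹ ≠ d → ¬ Commute d (n * d * n⁻¹)) ∧
      ∀ f ∈ C, f ≠ d → Commute f d → Commute f (n * d * n⁻¹) := by
  have hp : p.Prime := Fact.out
  set N := Cfsg.pCore p K
  haveI : N.Normal := inferInstance
  have hd' : n * d * n⁻¹ ∈ C := hC.2.1 n d hd
  have key : ∀ z ∈ N, z * z = 1 → z = 1 := by
    intro z hz h2
    refine CfsgLib.LocalP.eq_one_of_mem_of_coprime CfsgLib.LocalP.isPGroup_pCore hz ?_
    have : orderOf z ∣ 2 := orderOf_dvd_of_pow_eq_one (by rw [pow_two, h2])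
    exact Nat.Coprime.coprime_dvd_left this
      ((Nat.coprime_primes Nat.prime_two hp).2 (Ne.symm hp2))
  have hdd : d * (n * d * n⁻¹) ∈ N := by
    have h1 := N.mul_mem ((inferInstance : N.Normal).conj_mem n hn d) (N.inv_mem hn)
    rwa [tt_inv hC.1 hd, show d * n * d * n⁻¹ = d * (n * d * n⁻¹) by simp only [mul_assoc]] at h1
  refine ⟨fun hne hc => hne ?_, fun f hf hfd hfc => ?_⟩
  · have h := key _ hdd (by
      rw [mul_assoc, ← mul_assoc (n * d * n⁻¹) d, ← hc.eq, mul_assoc d (n * d * n⁻¹),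
        tt_mul_self hC.1 hd', mul_one, tt_mul_self hC.1 hd])
    exact (eq_inv_of_mul_eq_one_right h).trans (tt_inv hC.1 hd)
  · by_contra hnc
    have h3 : (f * (n * d * n⁻¹)) ^ 3 = 1 := by
      refine (hC.1.2 f hf _ hd').resolve_left fun h2 => hnc ?_
      rw [pow_two] at h2
      show f * (n * d * n⁻¹) = (n * d * n⁻¹) * f
      rw [eq_inv_of_mul_eq_one_left h2, mul_inv_rev, tt_inv hC.1 hf, tt_inv hC.1 hd']
    let π := QuotientGroup.mk' N
    have hπn : π n = 1 := (QuotientGroup.eq_one_iff n).2 hn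
    have h3' : (π f * π d) ^ 3 = 1 := by
      have := congrArg π h3
      simpa [hπn] using this
    have h2' : (π f * π d) ^ 2 = 1 := by
      rw [← map_mul, ← map_pow, hfc.mul_pow, pow_two, pow_two, tt_mul_self hC.1 hf,
        tt_mul_self hC.1 hd, one_mul, map_one]
    have h1 : π (f * d) = 1 := by
      rw [map_mul]
      calc π f * π d = (π f * π d) ^ 3 * ((π f * π d) ^ 2)⁻¹ := by group
        _ = 1 := by rw [h3', h2', inv_one, one_mul]
    have h4 := key _ ((QuotientGroup.eq_one_iff _).1 h1) (by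
      rw [← pow_two, hfc.mul_pow, pow_two, pow_two, tt_mul_self hC.1 hf, tt_mul_self hC.1 hd,
        one_mul])
    exact hfd ((eq_inv_of_mul_eq_one_left h4).trans (tt_inv hC.1 hd))

namespace Hyp

set_option linter.unusedSectionVars false

variable [Finite G] (h : Hyp D)

include h

theorem noTwins : NoTwins D := by
  obtain ⟨a, ha, c, hc, hac⟩ := h.noncomm
  exact primitive_noTwins h.ttg h.prim ha hc hac

theorem singleClass_in {x : G} (hx : x ∈ D) : SingleClass (nbrIn D x) := by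
  intro a ha b hb
  obtain ⟨p, hp, c, hc, hpc⟩ := h.noncomm
  obtain ⟨g, hg, hg'⟩ := nbr_singleClass h.ttg h.prim hp hc hpc hx ha hb
  exact ⟨⟨g, hg⟩, Subtype.ext (by simpa using hg')⟩

theorem not_comm {x : G} (hx : x ∈ D) :
    ∃ a ∈ nbr D x, ∃ b ∈ nbr D x, ¬ Commute a b := by
  by_contra hall
  push Not at hall
  obtain ⟨e, he⟩ := h.nonempty x hx
  have hone : nbr D x = {e} := by
    refine Set.eq_singleton_iff_unique_mem.2 ⟨he, fun b hb => ?_⟩
    obtain ⟨p, hp, c, hc, hpc⟩ := h.noncomm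
    obtain ⟨g, hg, hg'⟩ := nbr_singleClass h.ttg h.prim hp hc hpc hx he hb
    have hge : Commute g e := commute_closure_iff.2 (fun s hs => hall s hs e he) g hg
    rw [← hg', hge.eq, mul_inv_cancel_right]
  have hxe : x ∈ nbr D e := ⟨hx, fun eq => he.2.1 eq.symm, he.2.2.symm⟩
  have hone' : nbr D e = {x} := by
    obtain ⟨g, hg⟩ := h.prim.1 x hx e he.1
    have h1 : (nbr D e).ncard = 1 := by
      rw [← hg, nbr_conjImg h.ttg, FischerCore.ncard_conjImg, hone, Set.ncard_singleton]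
    obtain ⟨q, hq⟩ := Set.ncard_eq_one.1 h1
    rw [hq] at hxe ⊢
    rw [Set.mem_singleton_iff.1 hxe]
  have ht : AreTwins D x e := by
    refine ⟨hx, he.1, he.2.2, fun f hf => ⟨fun hfx => ?_, fun hfe => ?_⟩⟩
    · by_cases hne : f = x
      · rw [hne]; exact he.2.2
      · have : f ∈ nbr D x := ⟨hf, hne, hfx.symm⟩
        rw [hone] at this
        rw [Set.mem_singleton_iff.1 this]
    · by_cases hne : f = e
      · rw [hne]; exact he.2.2.symm
      · have : f ∈ nbr D e := ⟨hf, hne, hfe.symm⟩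
        rw [hone'] at this
        rw [Set.mem_singleton_iff.1 this]
  exact he.2.1 (h.noTwins x e ht).symm

theorem two_core {x : G} (hx : x ∈ D) :
    ¬ Cfsg.pCore 2 ↥(Subgroup.closure (nbr D x)) ≤
      Subgroup.center ↥(Subgroup.closure (nbr D x)) := by
  intro h2
  haveI := h.solv x hx
  obtain ⟨a, ha, b, hb, hab⟩ := h.not_comm hx
  obtain ⟨p, hp, hpc⟩ := exists_noncentral_pCore (K := ↥(Subgroup.closure (nbr D x)))
    ⟨⟨a, Subgroup.subset_closure ha⟩, ⟨b, Subgroup.subset_closure hb⟩,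
      fun hc => hab (commute_coe.2 hc)⟩
  haveI : Fact p.Prime := ⟨hp⟩
  by_cases hp2 : p = 2
  · exact hpc (hp2 ▸ h2)
  · refine hpc (le_trans ?_ (h.odd x hx))
    refine le_sSup ?_
    refine ⟨inferInstance, ?_⟩
    obtain ⟨k, hk⟩ := IsPGroup.iff_card.1
      (CfsgLib.LocalP.isPGroup_pCore (p := p) (G := ↥(Subgroup.closure (nbr D x))))
    rw [hk]
    exact Nat.Coprime.pow_left k ((Nat.coprime_primes hp Nat.prime_two).2 hp2)

theorem exists_moved {x : G} (hx : x ∈ D) {d : ↥(Subgroup.closure (nbr D x))}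
    (hd : d ∈ nbrIn D x) :
    ∃ u ∈ Cfsg.pCore 2 ↥(Subgroup.closure (nbr D x)), u * d * u⁻¹ ≠ d := by
  by_contra hall
  push Not at hall
  apply h.two_core hx
  intro u hu
  rw [mem_center_closure]
  intro s hs
  obtain ⟨g, hg⟩ := h.singleClass_in hx d hd ⟨s, Subgroup.subset_closure hs⟩ hs
  haveI : (Cfsg.pCore 2 ↥(Subgroup.closure (nbr D x))).Normal := inferInstance
  have h1 := hall (g⁻¹ * u * g) (by
    simpa using (inferInstance : (Cfsg.pCore 2 ↥(Subgroup.closure (nbr D x))).Normal).conj_mem u hu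
      g⁻¹)
  have h2 : Commute (g * d * g⁻¹) u := by
    have h3 : Commute (g⁻¹ * u * g) d := by
      show _ * _ = _ * _
      conv_rhs => rw [← h1]
      rw [inv_mul_cancel_right]
    have h4 := h3.map (MulAut.conj g).toMonoidHom
    simpa [mul_assoc] using h4.symm
  rw [hg] at h2
  exact commute_coe.2 h2

theorem exists_twin {x e : G} (hx : x ∈ D) (he : e ∈ nbr D x) :
    ∃ e', e' ≠ e ∧ AreTwins (nbr D x) e e' := by
  have hd : (⟨e, Subgroup.subset_closure he⟩ : ↥(Subgroup.closure (nbr D x))) ∈ nbrIn D x := he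
  obtain ⟨u, hu, hne⟩ := h.exists_moved hx hd
  have hC := nbrIn_ttg h.ttg x
  set d : ↥(Subgroup.closure (nbr D x)) := ⟨e, Subgroup.subset_closure he⟩
  refine ⟨(u * d * u⁻¹ : ↥(Subgroup.closure (nbr D x))), fun eq => hne (Subtype.ext eq),
    twins_in_iff.1 ((twins_iff_pCore hC hd (hC.2.1 u d hd)).2 ?_)⟩
  have h1 := (Cfsg.pCore 2 ↥(Subgroup.closure (nbr D x))).mul_mem
    ((inferInstance : (Cfsg.pCore 2 ↥(Subgroup.closure (nbr D x))).Normal).conj_mem u hu d⁻¹)
    (inv_mem hu)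
  simpa [mul_assoc] using h1

/-- A member commuting with two members of a line commutes with the third. -/
theorem three {x e e' f : G} (hx : x ∈ D) (ht : AreTwins (nbr D x) e e') (hne : e' ≠ e)
    (hf : f ∈ D) (hfe : f ≠ e) (hfe' : f ≠ e') (h1 : Commute f e) (h2 : Commute f e') :
    Commute f x := by
  classical
  by_cases hfx : f = x
  · rw [hfx]
  obtain ⟨he, he', hee, htw⟩ := ht
  have hxe : x ∈ nbr D e := ⟨hx, fun eq => he.2.1 eq.symm, he.2.2.symm⟩
  have hxe' : x ∈ nbr D e' := ⟨hx, fun eq => he'.2.1 eq.symm, he'.2.2.symm⟩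
  have hee' : e' ∈ nbr D e := ⟨he'.1, hne, hee⟩
  set A := (nbr D x ∩ nbr D e) \ {e'} with hA
  set B := (nbr D e ∩ nbr D e') \ {x} with hB
  have hsub : A ⊆ B := by
    rintro g ⟨⟨hg1, hg2⟩, hg3⟩
    refine ⟨⟨hg2, hg1.1, hg3, ((htw g hg1).1 hg2.2.2.symm).symm⟩, hg1.2.1⟩
  have hcard : A.ncard = B.ncard := by
    rw [hA, hB, Set.ncard_sdiff_singleton_of_mem (show e' ∈ nbr D x ∩ nbr D e from ⟨he', hee'⟩),
      Set.ncard_sdiff_singleton_of_mem (show x ∈ nbr D e ∩ nbr D e' from ⟨hxe, hxe'⟩)]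
    obtain ⟨g, g1, g2⟩ := pairConj_edge h.ttg h.prim h.noncomm hx he.1 he hee'
    have himg : nbr D e ∩ nbr D e' = conjImg g (nbr D x ∩ nbr D e) := by
      rw [FischerCore.conjImg_inter, ← nbr_conjImg h.ttg, ← nbr_conjImg h.ttg, g1, g2]
    rw [himg, FischerCore.ncard_conjImg]
  have hfB : f ∈ B := ⟨⟨⟨hf, hfe, h1.symm⟩, hf, hfe', h2.symm⟩, hfx⟩
  rw [← Set.eq_of_subset_of_ncard_le hsub hcard.ge (Set.toFinite _)] at hfB
  exact hfB.1.1.2.2.symm

theorem blk_card {x a y : G} (hx : x ∈ D) (ha : a ∈ nbr D x) (hy : y ∈ nbr D x) :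
    (blk D x a).ncard = (blk D x y).ncard := by
  obtain ⟨g, g1, g2⟩ := pairConj_edge h.ttg h.prim h.noncomm hx hx ha hy
  calc (blk D x a).ncard = (blk D (g * x * g⁻¹) (g * a * g⁻¹)).ncard := (ncard_blk_conj h.ttg g x a).symm
    _ = _ := by rw [g1, g2]

/-- If two commuting neighbours are no twins then some neighbour has a mate of odd type. -/
theorem exists_mate {x a₀ y₀ : G} (hx : x ∈ D) (ha₀ : a₀ ∈ nbr D x) (hy₀ : y₀ ∈ nbr D x)
    (hc : Commute a₀ y₀) (hnt : ¬ AreTwins (nbr D x) a₀ y₀) :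
    ∃ a a' y, a ∈ nbr D x ∧ a' ∈ nbr D x ∧ y ∈ nbr D x ∧ Commute a y ∧
      ¬ AreTwins (nbr D x) a y ∧ ¬ Commute a a' ∧
      ∀ f ∈ nbr D x, Commute f a → ¬ AreTwins (nbr D x) a f → Commute f a' := by
  classical
  haveI := h.solv x hx
  set K := Subgroup.closure (nbr D x) with hK
  set E := Cfsg.pCore 2 ↥K with hE
  have hC := nbrIn_ttg h.ttg x
  have hs := h.singleClass_in hx
  let π := QuotientGroup.mk' E
  have hiff : ∀ p ∈ nbrIn D x, ∀ q ∈ nbrIn D x, (π p = π q ↔ AreTwins (nbr D x) (p : G) q) := by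
    intro p hp q hq
    rw [← twins_in_iff, twins_iff_pCore hC hp hq]
    exact QuotientGroup.eq
  have hab : ∃ u v : ↥K ⧸ E, ¬ Commute u v := by
    by_contra hall
    push Not at hall
    apply hnt
    obtain ⟨g, hg⟩ := hs ⟨a₀, Subgroup.subset_closure ha₀⟩ ha₀ ⟨y₀, Subgroup.subset_closure hy₀⟩ hy₀
    refine (hiff ⟨a₀, Subgroup.subset_closure ha₀⟩ ha₀ ⟨y₀, Subgroup.subset_closure hy₀⟩ hy₀).1 ?_
    rw [← hg, map_mul, map_mul, map_inv, (hall (π g) _).eq, mul_inv_cancel_right]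
  obtain ⟨p, hp, hpc⟩ := exists_noncentral_pCore hab
  haveI : Fact p.Prime := ⟨hp⟩
  have hp2 : p ≠ 2 := by
    rintro rfl
    apply hpc
    exact pCore_two_quotient.le.trans bot_le
  obtain ⟨n, hn, hnc⟩ := SetLike.not_le_iff_exists.1 hpc
  obtain ⟨d, hd, hdn⟩ : ∃ d ∈ nbrIn D x, ¬ Commute (π d) n := by
    by_contra hall
    push Not at hall
    refine hnc (Subgroup.mem_center_iff.2 fun q => ?_)
    obtain ⟨k, rfl⟩ := QuotientGroup.mk'_surjective E q
    have hk : k ∈ Subgroup.closure (nbrIn D x) := hC.2.2 ▸ Subgroup.mem_top k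
    have : Commute (π k) n := by
      induction hk using Subgroup.closure_induction with
      | mem s hs => exact hall s hs
      | one => rw [map_one]; exact Commute.one_left n
      | mul u v _ _ hu hv => rw [map_mul]; exact hu.mul_left hv
      | inv u _ hu => rw [map_inv]; exact hu.inv_left
    exact this.eq
  obtain ⟨k, rfl⟩ := QuotientGroup.mk'_surjective E n
  have hC' : IsThreeTranspositionGroup (π '' nbrIn D x) := by
    refine ⟨⟨?_, ?_⟩, ?_, ?_⟩
    · rintro _ ⟨s, hs', rfl⟩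
      refine orderOf_eq_prime (by rw [← map_pow, pow_two, tt_mul_self hC.1 hs', map_one]) ?_
      intro h1
      obtain ⟨g, hg⟩ := hs s hs' d hd
      apply hdn
      rw [← hg, map_mul, map_mul, h1, mul_one, map_inv, mul_inv_cancel]
      exact Commute.one_left _
    · rintro _ ⟨s, hs', rfl⟩ _ ⟨r, hr, rfl⟩
      rcases hC.1.2 s hs' r hr with h' | h'
      · exact Or.inl (by rw [← map_mul, ← map_pow, h', map_one])
      · exact Or.inr (by rw [← map_mul, ← map_pow, h', map_one])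
    · rintro q _ ⟨s, hs', rfl⟩
      obtain ⟨r, rfl⟩ := QuotientGroup.mk'_surjective E q
      exact ⟨r * s * r⁻¹, hC.2.1 r s hs', by rw [map_mul, map_mul, map_inv]⟩
    · rw [← MonoidHom.map_closure, hC.2.2,
        Subgroup.map_top_of_surjective _ (QuotientGroup.mk'_surjective E)]
  obtain ⟨hA, hB⟩ := commute_of_odd_normal hC' hp2 hn ⟨d, hd, rfl⟩
  have hd' : k * d * k⁻¹ ∈ nbrIn D x := hC.2.1 k d hd
  have hne : π k * π d * (π k)⁻¹ ≠ π d := fun heq => hdn (by
    show _ * _ = _ * _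
    conv_lhs => rw [← heq]
    rw [inv_mul_cancel_right])
  obtain ⟨g, g1, g2⟩ := pairConj_edge h.ttg h.prim h.noncomm hx hx ha₀ hd
  refine ⟨(d : G), ((k * d * k⁻¹ : ↥K) : G), g * y₀ * g⁻¹, hd, hd', ?_, ?_, ?_, ?_, ?_⟩
  · have := nbr_conj h.ttg g hy₀; rwa [g1] at this
  · rw [← g2]; exact commute_conj_iff'.2 hc
  · intro ht
    apply hnt
    have h5 : AreTwins (nbr D x) (g * a₀ * g⁻¹) (g * y₀ * g⁻¹) := by rwa [g2]
    refine ⟨ha₀, hy₀, hc, fun f hf => ?_⟩
    have hgf : g * f * g⁻¹ ∈ nbr D x := by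
      have := nbr_conj h.ttg g hf; rwa [g1] at this
    simpa only [commute_conj_iff'] using h5.2.2.2 _ hgf
  · intro hcm
    refine hA hne ?_
    have := (commute_coe.1 hcm).map π
    rwa [map_mul, map_mul, map_inv] at this
  · intro f hf hfd hft
    have hfK : (⟨f, Subgroup.subset_closure hf⟩ : ↥K) ∈ nbrIn D x := hf
    set fK : ↥K := ⟨f, Subgroup.subset_closure hf⟩
    have hne' : π fK ≠ π d := fun heq => hft ((hiff d hd fK hfK).1 heq.symm)
    have h1 := hB (π fK) ⟨fK, hfK, rfl⟩ hne'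
      ((commute_coe.1 (show Commute (fK : G) (d : G) from hfd)).map π)
    by_contra hcm
    have h3 : (fK * (k * d * k⁻¹)) ^ 3 = 1 := by
      refine (hC.1.2 fK hfK _ hd').resolve_left fun h2 => hcm
        (show Commute ((fK : ↥K) : G) _ from commute_coe.2 ?_)
      rw [pow_two] at h2
      show fK * (k * d * k⁻¹) = (k * d * k⁻¹) * fK
      rw [eq_inv_of_mul_eq_one_left h2, mul_inv_rev, tt_inv hC.1 hfK, tt_inv hC.1 hd']
    have h4 : π (fK * (k * d * k⁻¹)) = 1 := by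
      have h5 := congrArg π h3
      rw [map_pow, map_one, map_mul π fK] at h5
      have h1' : Commute (π fK) (π (k * d * k⁻¹)) := by rw [map_mul, map_mul, map_inv]; exact h1
      have h6 : (π fK * π (k * d * k⁻¹)) ^ 2 = 1 := by
        rw [h1'.mul_pow, ← map_pow, ← map_pow, pow_two, pow_two, tt_mul_self hC.1 hfK,
          tt_mul_self hC.1 hd', map_one, one_mul]
      rw [map_mul π fK]
      calc π fK * π (k * d * k⁻¹)
          = (π fK * π (k * d * k⁻¹)) ^ 3 * ((π fK * π (k * d * k⁻¹)) ^ 2)⁻¹ := by group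
        _ = 1 := by rw [h5, h6, inv_one, one_mul]
    refine hcm ((hiff fK hfK _ hd').1 ?_).2.2.1
    rw [map_mul] at h4
    rw [eq_inv_of_mul_eq_one_left h4, ← map_inv, tt_inv hC.1 hd']

/-- Commuting neighbours are twins among the neighbours. -/
theorem twins_of_commute {x a₀ y₀ : G} (hx : x ∈ D) (ha₀ : a₀ ∈ nbr D x) (hy₀ : y₀ ∈ nbr D x)
    (hc : Commute a₀ y₀) : AreTwins (nbr D x) a₀ y₀ := by
  by_contra hnt₀
  obtain ⟨a, a', y, ha, ha', hy, hay, hnt, haa', hmate⟩ := h.exists_mate hx ha₀ hy₀ hc hnt₀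
  have hya' : Commute y a' := hmate y hy hay.symm hnt
  have hxa : x ∈ nbr D a := ⟨hx, fun eq => ha.2.1 eq.symm, ha.2.2.symm⟩
  have hyne : y ≠ a := by
    rintro rfl
    exact hnt ⟨ha, ha, Commute.refl _, fun _ _ => Iff.rfl⟩
  have hyA : y ∈ nbr D a := ⟨hy.1, hyne, hay⟩
  obtain ⟨y', hy'ne, ht⟩ := h.exists_twin ha.1 hyA
  have ha'y : a' ≠ y := fun eq => haa' (eq ▸ hay)
  by_cases hy'x : y' = x
  · subst hy'x
    exact haa' (h.three ha.1 ht hy'ne ha'.1 ha'y ha'.2.1 hya'.symm ha'.2.2.symm).symm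
  obtain ⟨-, hy', -, htw⟩ := ht
  have hxy' : Commute x y' := (htw x hxa).1 hy.2.2
  have hy'C : y' ∈ nbr D x := ⟨hy'.1, hy'x, hxy'⟩
  by_cases hat : AreTwins (nbr D x) a y'
  · apply hnt
    have hsub : blk D x a ⊆ blk D x y := by
      rintro f ⟨hf, hfa⟩
      refine ⟨hf, ?_⟩
      by_cases hfeq : f = a
      · rw [hfeq]; exact hay
      exact (htw f ⟨hf.1, hfeq, hfa.symm⟩).2 ((hat.2.2.2 f hf).1 hfa)
    have heq := Set.eq_of_subset_of_ncard_le hsub (h.blk_card hx ha hy).ge (Set.toFinite _)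
    refine ⟨ha, hy, hay, fun f hf => ⟨fun hfa => ?_, fun hfy => ?_⟩⟩
    · exact (hsub ⟨hf, hfa⟩).2
    · exact (show f ∈ blk D x a from heq ▸ ⟨hf, hfy⟩).2
  · have h1 : Commute y' a' := hmate y' hy'C hy'.2.2.symm hat
    exact haa' (h.three ha.1 ⟨hyA, hy', ((htw y hyA).1 (Commute.refl y)), htw⟩ hy'ne ha'.1 ha'y
      (fun eq => haa' (eq ▸ hy'.2.2)) hya'.symm h1.symm).symm

theorem commute_trans {x a b f : G} (hx : x ∈ D) (ha : a ∈ nbr D x) (hb : b ∈ nbr D x)
    (hf : f ∈ nbr D x) (hab : Commute a b) (hfa : Commute f a) : Commute f b :=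
  ((h.twins_of_commute hx ha hb hab).2.2.2 f hf).1 hfa

theorem blk_iff {x : G} (hx : x ∈ D) {e : G} (he : e ∈ nbr D x) {f : G} :
    f ∈ blk D x e ↔ AreTwins (nbr D x) e f :=
  ⟨fun hf => h.twins_of_commute hx he hf.1 hf.2.symm, fun hf => ⟨hf.2.1, hf.2.2.1.symm⟩⟩

theorem even_blk {x e : G} (hx : x ∈ D) (he : e ∈ nbr D x) : Even (blk D x e).ncard := by
  classical
  haveI : Fact (Nat.Prime 2) := ⟨Nat.prime_two⟩
  set K := Subgroup.closure (nbr D x) with hK
  set E := Cfsg.pCore 2 ↥K with hE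
  have hC := nbrIn_ttg h.ttg x
  set d : ↥K := ⟨e, Subgroup.subset_closure he⟩ with hd
  have hdC : d ∈ nbrIn D x := he
  let S : Type _ := {f : ↥K // (f : G) ∈ blk D x e}
  have hmem : ∀ (u : ↥E) (f : S),
      (((u : ↥K) * f.1 * (u : ↥K)⁻¹ : ↥K) : G) ∈ blk D x e := by
    intro u f
    rw [h.blk_iff hx he]
    have hf := (h.blk_iff hx he).1 f.2
    have hfC : f.1 ∈ nbrIn D x := f.2.1
    have h1 : d⁻¹ * f.1 ∈ E := (twins_iff_pCore hC hdC hfC).1 (twins_in_iff.2 hf)
    refine twins_in_iff.1 ((twins_iff_pCore hC hdC (hC.2.1 _ _ hfC)).2 ?_)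
    have h2 : E.Normal := inferInstance
    have h3 := E.mul_mem h1 (E.mul_mem (h2.conj_mem _ u.2 f.1⁻¹) (E.inv_mem u.2))
    simpa [mul_assoc] using h3
  letI : MulAction ↥E S :=
    { smul := fun u f => ⟨(u : ↥K) * f.1 * (u : ↥K)⁻¹, hmem u f⟩
      one_smul := fun f => Subtype.ext (by
        show ((1 : ↥E) : ↥K) * f.1 * ((1 : ↥E) : ↥K)⁻¹ = f.1
        simp)
      mul_smul := fun u v f => Subtype.ext (by
        show ((u * v : ↥E) : ↥K) * f.1 * ((u * v : ↥E) : ↥K)⁻¹ =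
          (u : ↥K) * ((v : ↥K) * f.1 * (v : ↥K)⁻¹) * (u : ↥K)⁻¹
        simp [mul_assoc]) }
  have hfix : MulAction.fixedPoints ↥E S = ∅ := by
    rw [Set.eq_empty_iff_forall_notMem]
    intro f hf
    obtain ⟨u, hu, hne⟩ := h.exists_moved hx (d := f.1) f.2.1
    exact hne (congrArg Subtype.val (hf ⟨u, hu⟩))
  have hmod := IsPGroup.card_modEq_card_fixedPoints
    (CfsgLib.LocalP.isPGroup_pCore (p := 2) (G := ↥K)) S
  rw [hfix, Nat.card_coe_set_eq, Set.ncard_empty] at hmod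
  have hcard : Nat.card S = (blk D x e).ncard := by
    rw [← Nat.card_coe_set_eq]
    exact Nat.card_congr
      { toFun := fun f => ⟨(f.1 : G), f.2⟩
        invFun := fun f => ⟨⟨f.1, Subgroup.subset_closure f.2.1⟩, f.2⟩
        left_inv := fun f => rfl
        right_inv := fun f => rfl }
  rw [hcard] at hmod
  exact Nat.even_iff.2 hmod

theorem three_pow {x e : G} (hx : x ∈ D) (he : e ∈ nbr D x) :
    ∃ b, (nbr D x).ncard = 3 ^ b * (blk D x e).ncard := by
  classical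
  haveI := h.solv x hx
  set K := Subgroup.closure (nbr D x) with hK
  set E := Cfsg.pCore 2 ↥K with hE
  have hC := nbrIn_ttg h.ttg x
  have hs := h.singleClass_in hx
  let π := QuotientGroup.mk' E
  have hnot : ∀ p ∈ nbrIn D x, π p ≠ 1 := by
    intro p hp h1
    obtain ⟨a, ha, b, hb, hab⟩ := h.not_comm hx
    apply hab
    have hm : ∀ q ∈ nbrIn D x, π q = 1 := by
      intro q hq
      obtain ⟨g, hg⟩ := hs p hp q hq
      rw [← hg, map_mul, map_mul, h1, mul_one, map_inv, mul_inv_cancel]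
    have ht : AreTwins (nbrIn D x) ⟨a, Subgroup.subset_closure ha⟩ ⟨b, Subgroup.subset_closure hb⟩ := by
      refine (twins_iff_pCore hC ha hb).2 ?_
      refine (QuotientGroup.eq_one_iff _).1 ?_
      show π (_⁻¹ * _) = 1
      rw [map_mul, map_inv, hm _ ha, hm _ hb, inv_one, one_mul]
    exact commute_coe.2 ht.2.2.1
  have hiff : ∀ p ∈ nbrIn D x, ∀ q ∈ nbrIn D x, (π p = π q ↔ Commute (p : G) q) := by
    intro p hp q hq
    refine ⟨fun hpq => commute_coe.2
      ((twins_iff_pCore hC hp hq).2 (QuotientGroup.eq.1 hpq)).2.2.1, fun hpq => ?_⟩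
    exact QuotientGroup.eq.2 ((twins_iff_pCore hC hp hq).1
      (twins_in_iff.2 (h.twins_of_commute hx hp hq hpq)))
  set W := π '' nbrIn D x with hW
  have hT : IsThreeTranspositionSet W := by
    refine ⟨?_, ?_⟩
    · rintro _ ⟨p, hp, rfl⟩
      exact orderOf_eq_prime (by rw [← map_pow, pow_two, tt_mul_self hC.1 hp, map_one]) (hnot p hp)
    · rintro _ ⟨p, hp, rfl⟩ _ ⟨q, hq, rfl⟩
      rcases hC.1.2 p hp q hq with h' | h'
      · exact Or.inl (by rw [← map_mul, ← map_pow, h', map_one])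
      · exact Or.inr (by rw [← map_mul, ← map_pow, h', map_one])
  obtain ⟨b, hb⟩ := FischerCore.ncard_widthOne hT subset_rfl
    ⟨_, ⟨e, Subgroup.subset_closure he⟩, he, rfl⟩
    (by
      rintro _ ⟨p, hp, rfl⟩ _ ⟨q, hq, rfl⟩
      exact ⟨p * q * p⁻¹, hC.2.1 p q hq, by rw [tt_inv hC.1 hp, map_mul, map_mul]⟩)
    (by
      rintro _ ⟨p, hp, rfl⟩ _ ⟨q, hq, rfl⟩ hcm
      by_contra hne
      have hnc : ¬ Commute (p : G) q := fun hc => hne ((hiff p hp q hq).2 hc)
      have h3 : (p * q) ^ 3 = 1 := by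
        refine (hC.1.2 p hp q hq).resolve_left fun h2 => hnc (commute_coe.2 ?_)
        rw [pow_two] at h2
        show p * q = q * p
        rw [eq_inv_of_mul_eq_one_left h2, mul_inv_rev, tt_inv hC.1 hp, tt_inv hC.1 hq]
      have h6 : (π p * π q) ^ 2 = 1 := by
        rw [hcm.mul_pow, ← map_pow, ← map_pow, pow_two, pow_two, tt_mul_self hC.1 hp,
          tt_mul_self hC.1 hq, map_one, one_mul]
      have h5 : (π p * π q) ^ 3 = 1 := by rw [← map_mul, ← map_pow, h3, map_one]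
      have h4 : π p * π q = 1 := by
        calc π p * π q = (π p * π q) ^ 3 * ((π p * π q) ^ 2)⁻¹ := by group
          _ = 1 := by rw [h5, h6, inv_one, one_mul]
      apply hne
      rw [eq_inv_of_mul_eq_one_left h4, ← map_inv, tt_inv hC.1 hq])
  refine ⟨b, ?_⟩
  haveI : Fintype G := Fintype.ofFinite G
  let φ : G → ↥K ⧸ E := fun f => if hf : f ∈ K then π ⟨f, hf⟩ else 1
  have hφ : ∀ f, ∀ hf : f ∈ nbr D x, φ f = π ⟨f, Subgroup.subset_closure hf⟩ :=
    fun f hf => dif_pos (Subgroup.subset_closure hf)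
  have himg : φ '' nbr D x = W := by
    ext q
    constructor
    · rintro ⟨f, hf, rfl⟩; exact ⟨_, hf, (hφ f hf).symm⟩
    · rintro ⟨p, hp, rfl⟩; exact ⟨p, hp, (hφ _ hp).trans rfl⟩
  rw [Set.ncard_eq_toFinset_card' (nbr D x), Finset.card_eq_sum_card_image φ,
    Finset.sum_const_nat (m := (blk D x e).ncard), ← Set.toFinset_image,
    ← Set.ncard_eq_toFinset_card', himg, hb]
  intro q hq
  obtain ⟨f, hf, rfl⟩ := Finset.mem_image.1 hq
  rw [Set.mem_toFinset] at hf
  rw [← h.blk_card hx hf he, Set.ncard_eq_toFinset_card']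
  congr 1
  ext g
  rw [Finset.mem_filter, Set.mem_toFinset, Set.mem_toFinset]
  refine and_congr_right fun hg => ?_
  rw [hφ g hg, hφ f hf, hiff _ hg _ hf]

theorem isGQ : IsGQ D where
  ttg := h.ttg
  prim := h.prim
  noncomm := h.noncomm
  central := h.central
  nonempty := h.nonempty
  trans := fun _ hx _ ha _ hb _ hf hab hfa => h.commute_trans hx ha hb hf hab hfa
  even_blk := fun _ hx _ he => h.even_blk hx he
  three_pow := fun _ hx _ he => h.three_pow hx he

end Hyp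

end CfsgLib.FischerGQ
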