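import Mathlib
import Cfsg.Agent.ThreeTransp.Basic

/-!
The star of a member and three commuting members not commuting with it: the reflection in the
highest root.
-/

set_option autoImplicit false

namespace CfsgLib.FischerGQ

variable {G : Type*} [Group G]

/-- The highest member of a star. -/
def star4 (z u : G) : G := z * u * z * u * z

/-- In a string of three the middle one commutes with the conjugate by the product of the ends. -/
theorem pair_commute {z e f : G} (he : e * e = 1) (hz : z * z = 1)
    (hef : Commute e f) (hze : z * e * z = e * z * e) (hzf : z * f * z = f * z * f) :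
    Commute z (e * f * z * (e * f)) := by
  have h1 : z * (e * f * z * (e * f)) * z = e * f * z * (e * f) := by
    calc z * (e * f * z * (e * f)) * z = z * (e * f * z * (f * e)) * z := by rw [hef.eq]
      _ = z * e * (f * z * f) * e * z := by simp only [mul_assoc]
      _ = z * e * (z * f * z) * e * z := by rw [hzf]
      _ = (z * e * z) * f * (z * e * z) := by simp only [mul_assoc]
      _ = (e * z * e) * f * (e * z * e) := by rw [hze]
      _ = e * z * (e * f * e) * z * e := by simp only [mul_assoc]
      _ = e * z * f * z * e := by
          rw [show e * f * e = f by rw [hef.eq, mul_assoc, he, mul_one]]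
      _ = e * (z * f * z) * e := by simp only [mul_assoc]
      _ = e * f * z * (f * e) := by rw [hzf]; simp only [mul_assoc]
      _ = e * f * z * (e * f) := by rw [hef.eq]
  show z * _ = _ * z
  calc z * (e * f * z * (e * f)) = z * (e * f * z * (e * f)) * z * z := by
        rw [mul_assoc _ z z, hz, mul_one]
    _ = _ := by rw [h1]

/-- The highest member of a star commutes with the ends. -/
theorem star_commute {z a b : G} (ha : a * a = 1) (hz : z * z = 1) (hab : Commute a b)
    (hza : z * a * z = a * z * a) (hzb : Commute z (b * z * b)) :
    Commute a (star4 z (a * b)) := by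
  have hw : star4 z (a * b) = z * (a * b) * z * (b * a) * z := by rw [star4, hab.eq]
  have h1 : a * star4 z (a * b) * a = star4 z (a * b) := by
    calc a * star4 z (a * b) * a = (a * z * a) * (b * z * b) * (a * z * a) := by
          rw [hw]; simp only [mul_assoc]
      _ = (z * a * z) * (b * z * b) * (z * a * z) := by rw [hza]
      _ = z * a * (z * (b * z * b) * z) * a * z := by simp only [mul_assoc]
      _ = z * a * (b * z * b) * a * z := by rw [hzb.eq, mul_assoc _ z z, hz, mul_one]
      _ = star4 z (a * b) := by rw [hw]; simp only [mul_assoc]
  show a * _ = _ * a
  calc a * star4 z (a * b) = a * star4 z (a * b) * a * a := by rw [mul_assoc _ a a, ha, mul_one]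
    _ = _ := by rw [h1]

end CfsgLib.FischerGQ
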