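import Mathlib
import Cfsg.Agent.FischerGQ.Local
import Cfsg.Agent.FischerGQ.Star
import Cfsg.Agent.ThreeTransp.Planes

/-!
The lines of commuting members: every member outside a line commutes with exactly one of its points.
-/

set_option autoImplicit false
set_option linter.unusedSectionVars false
set_option linter.style.haveILetI false

namespace CfsgLib.FischerGQ

open Cfsg CfsgLib.ThreeTransp

variable {G : Type*} [Group G] {D : Set G}

/-- The line through two commuting members. -/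
def ln (D : Set G) (a b : G) : Set G := {f | f ∈ D ∧ Commute f a ∧ Commute f b}

theorem ln_comm (a b : G) : ln D a b = ln D b a := by
  ext f; exact ⟨fun h => ⟨h.1, h.2.2, h.2.1⟩, fun h => ⟨h.1, h.2.2, h.2.1⟩⟩

theorem ln_conj (hG : IsThreeTranspositionGroup D) (g a b : G) :
    ln D (g * a * g⁻¹) (g * b * g⁻¹) = conjImg g (ln D a b) := by
  ext f
  constructor
  · rintro ⟨h1, h2, h3⟩
    have e : g * (g⁻¹ * f * g) * g⁻¹ = f := by simp [mul_assoc]
    refine ⟨g⁻¹ * f * g, ⟨by simpa using hG.2.1 g⁻¹ f h1, ?_, ?_⟩, e⟩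
    · rw [← commute_conj_iff' (g := g), e]; exact h2
    · rw [← commute_conj_iff' (g := g), e]; exact h3
  · rintro ⟨f', ⟨h1, h2, h3⟩, rfl⟩
    exact ⟨hG.2.1 g f' h1, commute_conj_iff'.2 h2, commute_conj_iff'.2 h3⟩

/-- The parameters of the quadrangle. -/
structure HasParams (D : Set G) (s t : ℕ) : Prop where
  line : ∀ a ∈ D, ∀ b ∈ nbr D a, (ln D a b).ncard = s + 1
  deg : ∀ x ∈ D, (nbr D x).ncard = s * (t + 1)
  common : ∀ x ∈ D, ∀ z ∈ D, ¬ Commute x z → (nbr D x ∩ nbr D z).ncard = t + 1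
  total : D.ncard = (s + 1) * (s * t + 1)
  even : Even s
  two_le : 2 ≤ s
  three : ∃ b, 1 ≤ b ∧ t + 1 = 3 ^ b

namespace IsGQ

variable [Finite G] (h : IsGQ D)

include h

theorem mul_self {d : G} (hd : d ∈ D) : d * d = 1 := tt_mul_self h.ttg.1 hd

theorem inv_eq {d : G} (hd : d ∈ D) : d⁻¹ = d := tt_inv h.ttg.1 hd

theorem braid {d e : G} (hd : d ∈ D) (he : e ∈ D) (hc : ¬ Commute d e) :
    d * e * d = e * d * e := tt_braid h.ttg.1 hd he hc

theorem conj_mem {x d : G} (hx : x ∈ D) (hd : d ∈ D) : x * d * x ∈ D :=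
  tt_conj_mem' h.ttg hx hd

theorem mem_nbr_comm {x y : G} (hx : x ∈ D) (hy : y ∈ nbr D x) : x ∈ nbr D y :=
  ⟨hx, fun e => hy.2.1 e.symm, hy.2.2.symm⟩

theorem clique {a b f g : G} (ha : a ∈ D) (hb : b ∈ nbr D a) (hf : f ∈ ln D a b)
    (hg : g ∈ ln D a b) : Commute f g := by
  by_cases hga : g = a
  · rw [hga]; exact hf.2.1
  by_cases hfa : f = a
  · rw [hfa]; exact hg.2.1.symm
  exact h.trans a ha b hb g ⟨hg.1, hga, hg.2.1.symm⟩ f ⟨hf.1, hfa, hf.2.1.symm⟩ hg.2.2.symm hf.2.2

theorem self_mem {a b : G} (ha : a ∈ D) (hb : b ∈ nbr D a) : a ∈ ln D a b ∧ b ∈ ln D a b :=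
  ⟨⟨ha, Commute.refl a, hb.2.2⟩, hb.1, hb.2.2.symm, Commute.refl b⟩

theorem ln_eq {a b c d : G} (ha : a ∈ D) (hb : b ∈ nbr D a) (hc : c ∈ ln D a b)
    (hd : d ∈ ln D a b) (hne : c ≠ d) : ln D c d = ln D a b := by
  have hdc : d ∈ nbr D c := ⟨hd.1, hne.symm, h.clique ha hb hc hd⟩
  have haL : a ∈ ln D c d := ⟨ha, hc.2.1.symm, hd.2.1.symm⟩
  have hbL : b ∈ ln D c d := ⟨hb.1, hc.2.2.symm, hd.2.2.symm⟩
  refine Set.Subset.antisymm (fun f hf => ?_) fun f hf => ?_
  · exact ⟨hf.1, h.clique hc.1 hdc hf haL, h.clique hc.1 hdc hf hbL⟩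
  · exact ⟨hf.1, h.clique ha hb hf hc, h.clique ha hb hf hd⟩

/-- Two members of a line commuting with a member put it on the line. -/
theorem mem_line {a b c d z : G} (ha : a ∈ D) (hb : b ∈ nbr D a) (hc : c ∈ ln D a b)
    (hd : d ∈ ln D a b) (hne : c ≠ d) (hz : z ∈ D) (h1 : Commute z c) (h2 : Commute z d) :
    z ∈ ln D a b := by
  rw [← h.ln_eq ha hb hc hd hne]; exact ⟨hz, h1, h2⟩

theorem unique_proj {a b c d z : G} (ha : a ∈ D) (hb : b ∈ nbr D a) (hc : c ∈ ln D a b)
    (hd : d ∈ ln D a b) (hz : z ∈ D) (hzL : z ∉ ln D a b) (h1 : Commute z c) (h2 : Commute z d) :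
    c = d := by
  by_contra hne
  exact hzL (h.mem_line ha hb hc hd hne hz h1 h2)

theorem ln_insert {a b : G} (ha : a ∈ D) (hb : b ∈ nbr D a) :
    ln D a b = insert a (blk D a b) ∧ a ∉ blk D a b := by
  refine ⟨?_, fun hmem => hmem.1.2.1 rfl⟩
  ext f
  constructor
  · intro hf
    by_cases hfa : f = a
    · exact Or.inl hfa
    · exact Or.inr ⟨⟨hf.1, hfa, hf.2.1.symm⟩, hf.2.2⟩
  · rintro (rfl | ⟨hf, hc⟩)
    · exact (h.self_mem ha hb).1
    · exact ⟨hf.1, hf.2.2.symm, hc⟩

theorem pair_transitive {x e x' e' : G} (hx : x ∈ D) (hx' : x' ∈ D) (he : e ∈ nbr D x)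
    (he' : e' ∈ nbr D x') : ∃ g : G, g * x * g⁻¹ = x' ∧ g * e * g⁻¹ = e' :=
  pairConj_edge h.ttg h.prim h.noncomm hx hx' he he'

theorem ncard_ln {a b c d : G} (ha : a ∈ D) (hb : b ∈ nbr D a) (hc : c ∈ D) (hd : d ∈ nbr D c) :
    (ln D c d).ncard = (ln D a b).ncard := by
  obtain ⟨g, rfl, rfl⟩ := h.pair_transitive ha hc hb hd
  rw [ln_conj h.ttg, FischerCore.ncard_conjImg]

theorem odd_ln {a b : G} (ha : a ∈ D) (hb : b ∈ nbr D a) : Odd (ln D a b).ncard := by
  obtain ⟨h1, h2⟩ := h.ln_insert ha hb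
  rw [h1, Set.ncard_insert_of_notMem h2]
  exact (h.even_blk a ha b hb).add_one

/-! ### The star of three points of a line -/

/-- Three different points of a line not commuting with `z` determine a further one. -/
theorem star_mem {a b e z : G} (ha : a ∈ D) (hb : b ∈ nbr D a) (he : e ∈ ln D a b) (hea : e ≠ a)
    (heb : e ≠ b) (hz : z ∈ D) (hza : ¬ Commute z a) (hzb : ¬ Commute z b)
    (hze : ¬ Commute z e) :
    star4 z (a * (b * e)) ∈ ln D a b ∧ star4 z (a * (b * e)) ≠ a ∧
      star4 z (a * (b * e)) ≠ b ∧ star4 z (a * (b * e)) ≠ e ∧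
      ¬ Commute z (star4 z (a * (b * e))) := by
  have key : ∀ p q r : G, p ∈ D → q ∈ D → r ∈ D → Commute p q → Commute p r → Commute q r →
      q ≠ r → ¬ Commute z p → ¬ Commute z q → ¬ Commute z r →
      Commute p (star4 z (p * (q * r))) ∧ star4 z (p * (q * r)) ≠ p ∧
        ¬ Commute z (star4 z (p * (q * r))) := by
    intro p q r hp hq hr hpq hpr hqr hne hzp hzq hzr
    have hc := pair_commute (h.mul_self hq) (h.mul_self hz) hqr (h.braid hz hq hzq)
      (h.braid hz hr hzr)
    have hb2 : (q * r) * (q * r) = 1 := by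
      rw [hqr.symm.mul_mul_mul_comm, h.mul_self hq, h.mul_self hr, one_mul]
    have hpb : Commute p (q * r) := hpq.mul_right hpr
    have e1 : z * star4 z (p * (q * r)) * z = p * (q * r * z * (q * r)) * p := by
      rw [star4]
      simp only [mul_assoc, tt_cancel_left h.ttg.1 hz, h.mul_self hz, mul_one]
      rw [show q * (r * p) = p * (q * r) by rw [hpb.eq, mul_assoc]]
    have h2 : star4 z (p * (q * r)) ≠ p := by
      intro eq
      rw [eq, h.braid hz hp hzp] at e1
      have hbz : z = q * r * z * (q * r) := mul_left_cancel (mul_right_cancel e1)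
      have hcz : Commute z (q * r) := by
        show z * (q * r) = q * r * z
        conv_lhs => rw [hbz, mul_assoc, hb2, mul_one]
      exact hzq (commute_of_commute_mul h.ttg.1 hz hq hr hqr hne hcz).1
    have h3 : ¬ Commute z (star4 z (p * (q * r))) := by
      intro hcm
      have h4 : Commute z (p * (q * r * z * (q * r)) * p) := by
        rw [← e1]
        exact ((Commute.refl z).mul_right hcm).mul_right (Commute.refl z)
      apply hzp
      -- conjugate by `p`
      have h5 : Commute (p * z * p) (q * r * z * (q * r)) := by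
        have := h4.map (MulAut.conj p).toMonoidHom
        simpa [h.inv_eq hp, mul_assoc, tt_cancel_left h.ttg.1 hp, h.mul_self hp] using this
      have h6 : Commute (z * p * z) (q * r * z * (q * r)) := by
        rw [h.braid hz hp hzp]; exact h5
      have h7 : Commute p (q * r * z * (q * r)) := by
        have := h6.map (MulAut.conj z).toMonoidHom
        simp only [MulEquiv.coe_toMonoidHom, MulAut.conj_apply, h.inv_eq hz] at this
        rwa [show z * (z * p * z) * z = p by
          simp only [mul_assoc, tt_cancel_left h.ttg.1 hz, h.mul_self hz, mul_one],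
          show z * (q * r * z * (q * r)) * z = q * r * z * (q * r) by
            rw [hc.eq, mul_assoc, h.mul_self hz, mul_one]] at this
      have := h7.map (MulAut.conj (q * r)).toMonoidHom
      simp only [MulEquiv.coe_toMonoidHom, MulAut.conj_apply,
        inv_eq_of_mul_eq_one_right hb2] at this
      rw [show q * r * p * (q * r) = p by rw [← hpb.eq, mul_assoc, hb2, mul_one],
        show q * r * (q * r * z * (q * r)) * (q * r) = z by
          rw [show q * r * (q * r * z * (q * r)) * (q * r) = q * r * (q * r) * z * (q * r * (q * r))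
            by simp only [mul_assoc], hb2, one_mul, mul_one]] at this
      exact this.symm
    exact ⟨star_commute (h.mul_self hp) (h.mul_self hz) hpb (h.braid hz hp hzp) hc, h2, h3⟩
  have haL := (h.self_mem ha hb).1
  have hbL := (h.self_mem ha hb).2
  have hab : Commute a b := hb.2.2
  have hae : Commute a e := he.2.1.symm
  have hbe : Commute b e := he.2.2.symm
  have hwD : star4 z (a * (b * e)) ∈ D := by
    have h1 := h.ttg.2.1 (z * (a * (b * e))) z hz
    have hu : (a * (b * e))⁻¹ = a * (b * e) := by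
      rw [mul_inv_rev, mul_inv_rev, h.inv_eq ha, h.inv_eq hb.1, h.inv_eq he.1, ← hbe.eq,
        ← (hab.mul_right hae).eq]
    rwa [mul_inv_rev, hu, h.inv_eq hz, ← mul_assoc] at h1
  obtain ⟨c1, n1, n0⟩ := key a b e ha hb.1 he.1 hab hae hbe (Ne.symm heb) hza hzb hze
  have e2 : a * (b * e) = b * (a * e) := by rw [← mul_assoc, hab.eq, mul_assoc]
  have e3 : a * (b * e) = e * (a * b) := by rw [← mul_assoc, ((hae.symm).mul_right hbe.symm).eq]
  obtain ⟨c2, n2, -⟩ := key b a e hb.1 ha he.1 hab.symm hbe hae (Ne.symm hea) hzb hza hze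
  obtain ⟨-, n3, -⟩ := key e a b he.1 ha hb.1 hae.symm hbe.symm hab hb.2.1.symm hze hza hzb
  rw [← e2] at c2 n2
  rw [← e3] at n3
  exact ⟨⟨hwD, c1.symm, c2.symm⟩, n1, n2, n3, n0⟩

theorem star_star {a b e z : G} (ha : a ∈ D) (hb : b ∈ nbr D a) (he : e ∈ ln D a b) (hea : e ≠ a)
    (heb : e ≠ b) (hz : z ∈ D) (hza : ¬ Commute z a) (hzb : ¬ Commute z b)
    (hze : ¬ Commute z e) :
    star4 z (a * (b * star4 z (a * (b * e)))) = e := by
  obtain ⟨hw, -, -, -, hzw⟩ := h.star_mem ha hb he hea heb hz hza hzb hze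
  set w := star4 z (a * (b * e)) with hwdef
  set u := a * (b * e) with hu
  set u' := a * (b * w) with hu'
  have hbr : z * w * z = w * z * w := h.braid hz hw.1 hzw
  have h1 : z * w * z = u * z * u := by
    rw [hwdef, star4]
    simp only [mul_assoc, tt_cancel_left h.ttg.1 hz, h.mul_self hz, mul_one]
  have hcl := fun p (hp : p ∈ ln D a b) q (hq : q ∈ ln D a b) => h.clique ha hb hp hq
  have haL := (h.self_mem ha hb).1
  have hbL := (h.self_mem ha hb).2
  have hwu : w * u = u' * e := by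
    rw [hu, hu']
    have e1 : Commute w (a * b) := (hcl w hw a haL).mul_right (hcl w hw b hbL)
    simp only [← mul_assoc]
    rw [mul_assoc w a b, e1.eq]
  have hue : Commute u' e := ((hcl a haL e he).mul_left ((hcl b hbL e he).mul_left (hcl w hw e he)))
  have hu2 : u * u = 1 := by
    rw [hu, show a * (b * e) * (a * (b * e)) = (a * a) * ((b * b) * (e * e)) by
      rw [((hcl a haL b hbL).mul_right (hcl a haL e he)).symm.mul_mul_mul_comm,
        (hcl b hbL e he).symm.mul_mul_mul_comm]]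
    rw [h.mul_self ha, h.mul_self hb.1, h.mul_self he.1, one_mul, one_mul]
  have hw2 : w * w = 1 := h.mul_self hw.1
  have hcz : Commute z (w * u) := by
    show z * (w * u) = w * u * z
    calc z * (w * u) = (w * w) * z * w * u := by rw [hw2, one_mul, mul_assoc]
      _ = w * (w * z * w) * u := by simp only [mul_assoc]
      _ = w * (u * z * u) * u := by rw [← hbr, h1]
      _ = w * u * z := by simp only [mul_assoc, hu2, mul_one]
  rw [hwu, hue.eq] at hcz
  have he2 : e * e = 1 := h.mul_self he.1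
  have hu'2 : u' * u' = 1 := by
    rw [hu', show a * (b * w) * (a * (b * w)) = (a * a) * ((b * b) * (w * w)) by
      rw [((hcl a haL b hbL).mul_right (hcl a haL w hw)).symm.mul_mul_mul_comm,
        (hcl b hbL w hw).symm.mul_mul_mul_comm]]
    rw [h.mul_self ha, h.mul_self hb.1, hw2, one_mul, one_mul]
  have h2 : u' * z * u' = e * z * e := by
    calc u' * z * u' = e * (e * u' * z) * u' := by simp only [← mul_assoc, he2, one_mul]
      _ = e * (z * (e * u')) * u' := by rw [hcz.eq]
      _ = e * z * e := by simp only [mul_assoc, hu'2, mul_one]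
  rw [star4]
  calc z * u' * z * u' * z = z * (u' * z * u') * z := by simp only [mul_assoc]
    _ = z * (e * z * e) * z := by rw [h2]
    _ = z * (z * e * z) * z := by rw [h.braid hz he.1 hze]
    _ = e := by simp only [mul_assoc, tt_cancel_left h.ttg.1 hz, h.mul_self hz, mul_one]

/-- Every member commutes with a point of every line. -/
theorem exists_proj {a b z : G} (ha : a ∈ D) (hb : b ∈ nbr D a) (hz : z ∈ D) :
    ∃ c ∈ ln D a b, Commute z c := by
  classical
  haveI := Fintype.ofFinite G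
  by_contra hall
  push Not at hall
  have haL := (h.self_mem ha hb).1
  have hbL := (h.self_mem ha hb).2
  set T := (ln D a b).toFinset \ {a, b} with hT
  have hmem : ∀ e, e ∈ T ↔ e ∈ ln D a b ∧ e ≠ a ∧ e ≠ b := fun e => by simp [hT, not_or]
  have key : (∏ _e ∈ T, (-1 : ℤ)) = 1 := by
    refine Finset.prod_involution (fun e _ => star4 z (a * (b * e))) (fun _ _ => by norm_num)
      (fun e he _ => ?_) (fun e he => ?_) (fun e he => ?_)
    all_goals obtain ⟨he1, he2, he3⟩ := (hmem e).1 he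
    all_goals obtain ⟨m1, m2, m3, m4, -⟩ :=
      h.star_mem ha hb he1 he2 he3 hz (hall a haL) (hall b hbL) (hall e he1)
    · exact m4
    · exact (hmem _).2 ⟨m1, m2, m3⟩
    · exact h.star_star ha hb he1 he2 he3 hz (hall a haL) (hall b hbL) (hall e he1)
  rw [Finset.prod_const, neg_one_pow_eq_one_iff_even (by norm_num : (-1 : ℤ) ≠ 1)] at key
  have hsub : ({a, b} : Finset G) ⊆ (ln D a b).toFinset := by
    intro f hf
    rcases Finset.mem_insert.1 hf with rfl | hf
    · exact Set.mem_toFinset.2 haL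
    · rw [Finset.mem_singleton] at hf; exact Set.mem_toFinset.2 (hf ▸ hbL)
  rw [hT, Finset.card_sdiff_of_subset hsub, Finset.card_pair hb.2.1.symm,
    ← Set.ncard_eq_toFinset_card'] at key
  obtain ⟨k, hk⟩ := h.odd_ln ha hb
  obtain ⟨j, hj⟩ := key
  have h2 := Finset.card_le_card hsub
  rw [Finset.card_pair hb.2.1.symm, ← Set.ncard_eq_toFinset_card'] at h2
  omega

theorem exists_noncommute {x : G} (hx : x ∈ D) : ∃ z ∈ D, ¬ Commute x z := by
  obtain ⟨a, ha, c, hc, hac⟩ := h.noncomm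
  obtain ⟨g, hg⟩ := h.prim.1 a ha x hx
  exact ⟨g * c * g⁻¹, h.ttg.2.1 g c hc, hg ▸ fun hh => hac (commute_conj_iff'.1 hh)⟩

theorem exists_params : ∃ s t, HasParams D s t := by
  classical
  haveI := Fintype.ofFinite G
  obtain ⟨x, hx, -⟩ := h.noncomm
  obtain ⟨e, he⟩ := h.nonempty x hx
  obtain ⟨hins, hnot⟩ := h.ln_insert hx he
  obtain ⟨b, hb⟩ := h.three_pow x hx e he
  set s := (blk D x e).ncard with hs
  have hs1 : 1 ≤ s := (Set.ncard_pos (Set.toFinite _)).2 ⟨e, he, Commute.refl e⟩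
  have hline : ∀ c ∈ D, ∀ d ∈ nbr D c, (ln D c d).ncard = s + 1 := fun c hc d hd => by
    rw [h.ncard_ln hx he hc hd, hins, Set.ncard_insert_of_notMem hnot]
  have hblk : ∀ c ∈ D, ∀ d ∈ nbr D c, (blk D c d).ncard = s := fun c hc d hd => by
    obtain ⟨h1, h2⟩ := h.ln_insert hc hd
    have := hline c hc d hd
    rw [h1, Set.ncard_insert_of_notMem h2] at this
    omega
  have hdeg : ∀ c ∈ D, (nbr D c).ncard = s * 3 ^ b := fun c hc => by
    obtain ⟨g, rfl⟩ := h.prim.1 x hx c hc
    rw [nbr_conjImg h.ttg, FischerCore.ncard_conjImg, hb, mul_comm]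
  have hb1 : 1 ≤ b := by
    by_contra hb0
    rw [Nat.lt_one_iff.1 (not_le.1 hb0), pow_zero, mul_one] at hdeg
    have hfull : ∀ c ∈ D, ∀ d ∈ nbr D c, nbr D c = blk D c d := fun c hc d hd =>
      (Set.eq_of_subset_of_ncard_le (fun f hf => hf.1)
        (by rw [hdeg c hc, hblk c hc d hd]) (Set.toFinite _)).symm
    obtain ⟨z, hz, hxz⟩ := h.exists_noncommute hx
    obtain ⟨p, hp, hzp⟩ := h.exists_proj hx he hz
    have hpx : p ≠ x := fun eq => hxz (eq ▸ hzp).symm
    have hxp : x ∈ nbr D p := ⟨hx, hpx.symm, hp.2.1⟩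
    have hzn : z ∈ nbr D p := ⟨hz, fun eq => hxz (eq ▸ hp.2.1.symm), hzp.symm⟩
    rw [hfull p hp.1 x hxp] at hzn
    exact hxz hzn.2.symm
  obtain ⟨t, ht⟩ : ∃ t, t + 1 = 3 ^ b := ⟨3 ^ b - 1, by have := Nat.one_le_pow b 3 (by norm_num); omega⟩
  have hcommon : ∀ c ∈ D, ∀ z ∈ D, ¬ Commute c z → (nbr D c ∩ nbr D z).ncard = t + 1 := by
    intro c hc z hz hcz
    have hp : ∀ f ∈ nbr D c, ∃ p, p ∈ nbr D c ∩ nbr D z ∧ Commute p f := by
      intro f hf
      obtain ⟨p, hp, hzp⟩ := h.exists_proj hc hf hz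
      have hpc : p ≠ c := fun eq => hcz (eq ▸ hzp).symm
      exact ⟨p, ⟨⟨hp.1, hpc, hp.2.1.symm⟩, hp.1, fun eq => hcz (eq ▸ hp.2.1.symm), hzp⟩, hp.2.2⟩
    choose! φ hφ hφc using hp
    have key : (nbr D c).toFinset.card = (nbr D c ∩ nbr D z).toFinset.card * s := by
      rw [Finset.card_eq_sum_card_fiberwise (f := φ) (t := (nbr D c ∩ nbr D z).toFinset)
        (fun f hf => Set.mem_toFinset.2 (hφ f (Set.mem_toFinset.1 hf)))]
      rw [Finset.sum_const_nat (m := s)]
      intro p hp
      rw [Set.mem_toFinset] at hp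
      rw [← hblk c hc p hp.1, Set.ncard_eq_toFinset_card']
      congr 1
      ext f
      simp only [Finset.mem_filter, Set.mem_toFinset]
      constructor
      · rintro ⟨hf, rfl⟩
        exact ⟨hf, (hφc f hf).symm⟩
      · rintro ⟨hf, hfp⟩
        refine ⟨hf, h.unique_proj hc hf ⟨(hφ f hf).1.1, (hφ f hf).1.2.2.symm, hφc f hf⟩
          ⟨hp.1.1, hp.1.2.2.symm, hfp.symm⟩ hz (fun hzL => hcz hzL.2.1.symm) (hφ f hf).2.2.2
          hp.2.2.2⟩
    rw [← Set.ncard_eq_toFinset_card', ← Set.ncard_eq_toFinset_card', hdeg c hc, ← ht,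
      mul_comm s] at key
    exact (Nat.eq_of_mul_eq_mul_right (by omega) key).symm
  refine ⟨s, t, hline, fun c hc => by rw [hdeg c hc, ht], hcommon, ?_, h.even_blk x hx e he, ?_,
    b, hb1, ht⟩
  · -- count along the line through `x` and `e`
    have hproj : ∀ z ∈ D, ∃ c, c ∈ ln D x e ∧ Commute z c ∧ (z ∈ ln D x e → c = z) := by
      intro z hz
      by_cases hzL : z ∈ ln D x e
      · exact ⟨z, hzL, Commute.refl z, fun _ => rfl⟩
      · obtain ⟨c, hc, hzc⟩ := h.exists_proj hx he hz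
        exact ⟨c, hc, hzc, fun h' => absurd h' hzL⟩
    choose! φ hφ hφc hφid using hproj
    have key : D.toFinset.card = (ln D x e).toFinset.card * (s * t + 1) := by
      rw [Finset.card_eq_sum_card_fiberwise (f := φ) (t := (ln D x e).toFinset)
        (fun f hf => Set.mem_toFinset.2 (hφ f (Set.mem_toFinset.1 hf))), Finset.sum_const_nat (m := s * t + 1)]
      intro c hc
      rw [Set.mem_toFinset] at hc
      obtain ⟨d, hd, hdc⟩ : ∃ d ∈ ln D x e, d ≠ c := by
        by_cases hcx : c = x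
        · exact ⟨e, (h.self_mem hx he).2, hcx ▸ he.2.1⟩
        · exact ⟨x, (h.self_mem hx he).1, Ne.symm hcx⟩
      have hdn : d ∈ nbr D c := ⟨hd.1, hdc, h.clique hx he hc hd⟩
      have hLc := h.ln_eq hx he hc hd hdc.symm
      have hfib : {f | f ∈ D ∧ φ f = c} = insert c (nbr D c \ blk D c d) := by
        ext f
        constructor
        · rintro ⟨hf, rfl⟩
          by_cases hfc : f = φ f
          · exact Or.inl hfc
          · refine Or.inr ⟨⟨hf, hfc, (hφc f hf).symm⟩, fun hb' => hfc ?_⟩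
            refine (hφid f hf ?_).symm
            rw [← hLc, (h.ln_insert hc.1 hdn).1]
            exact Or.inr hb'
        · rintro (rfl | ⟨hf, hfb⟩)
          · exact ⟨hc.1, hφid f hc.1 hc⟩
          · refine ⟨hf.1, ?_⟩
            refine h.unique_proj hx he (hφ f hf.1) hc hf.1 (fun hfL => hfb ?_) (hφc f hf.1)
              hf.2.2.symm
            rw [← hLc, (h.ln_insert hc.1 hdn).1] at hfL
            exact hfL.resolve_left hf.2.1
      rw [show ({f ∈ D.toFinset | φ f = c} : Finset G) = {f | f ∈ D ∧ φ f = c}.toFinset by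
        ext f; simp, ← Set.ncard_eq_toFinset_card', hfib,
        Set.ncard_insert_of_notMem (fun hh => hh.1.2.1 rfl),
        Set.ncard_sdiff (fun f hf => hf.1) (Set.toFinite _), hdeg c hc.1, hblk c hc.1 d hdn, ← ht,
        mul_add, mul_one]
      omega
    rwa [← Set.ncard_eq_toFinset_card', ← Set.ncard_eq_toFinset_card', hline x hx e he] at key
  · have := h.even_blk x hx e he
    rw [← hs] at this
    obtain ⟨j, hj⟩ := this
    omega

end IsGQ

end CfsgLib.FischerGQ
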