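import Mathlib
import Cfsg.Agent.FischerGQ.Lines
import Cfsg.Agent.FischerGQ.Benson

/-!
The twisted traces of conjugation on the quadrangle and their congruences.
-/

set_option autoImplicit false
set_option linter.unusedSectionVars false
set_option linter.style.haveILetI false

namespace CfsgLib.FischerGQ

open Cfsg CfsgLib.ThreeTransp

variable {G : Type*} [Group G] {D : Set G}

/-- The members fixed by `u`. -/
def fixedMem (D : Set G) (u : G) : Set G := {d | d ∈ D ∧ u * d * u⁻¹ = d}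

/-- The members moved by `u` to a commuting one. -/
def movedMem (D : Set G) (u : G) : Set G :=
  {d | d ∈ D ∧ u * d * u⁻¹ ≠ d ∧ Commute (u * d * u⁻¹) d}

/-- The twisted trace of `u`, less the trivial eigenvalue. -/
noncomputable def cval (D : Set G) (s t : ℕ) (u : G) : ℤ :=
  (t + 1) * (fixedMem D u).ncard + (movedMem D u).ncard - (s + 1) * (t + 1)

theorem cval_conj (hG : IsThreeTranspositionGroup D) (s t : ℕ) (g u : G) :
    cval D s t (g * u * g⁻¹) = cval D s t u := by
  have e : ∀ d, g * u * g⁻¹ * (g * d * g⁻¹) * (g * u * g⁻¹)⁻¹ = g * (u * d * u⁻¹) * g⁻¹ := by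
    intro d; group
  have hi : ∀ a b : G, g * a * g⁻¹ = g * b * g⁻¹ ↔ a = b := fun a b => by simp
  have e1 : fixedMem D (g * u * g⁻¹) = conjImg g (fixedMem D u) := by
    ext d
    constructor
    · rintro ⟨hd, h1⟩
      have ed : g * (g⁻¹ * d * g) * g⁻¹ = d := by simp [mul_assoc]
      refine ⟨g⁻¹ * d * g, ⟨by simpa using hG.2.1 g⁻¹ d hd, ?_⟩, ed⟩
      rw [← hi, ← e, ed]; exact h1
    · rintro ⟨d', ⟨hd, h1⟩, rfl⟩
      exact ⟨hG.2.1 g d' hd, by rw [e, h1]⟩
  have e2 : movedMem D (g * u * g⁻¹) = conjImg g (movedMem D u) := by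
    ext d
    constructor
    · rintro ⟨hd, h1, h2⟩
      have ed : g * (g⁻¹ * d * g) * g⁻¹ = d := by simp [mul_assoc]
      refine ⟨g⁻¹ * d * g, ⟨by simpa using hG.2.1 g⁻¹ d hd, ?_, ?_⟩, ed⟩
      · rw [Ne, ← hi, ← e, ed]; exact h1
      · rw [← commute_conj_iff' (g := g), ← e, ed]; exact h2
    · rintro ⟨d', ⟨hd, h1, h2⟩, rfl⟩
      refine ⟨hG.2.1 g d' hd, by rw [e, Ne, hi]; exact h1, by rw [e]; exact commute_conj_iff'.2 h2⟩
  rw [cval, cval, e1, e2, FischerCore.ncard_conjImg, FischerCore.ncard_conjImg]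

/-- Conjugation as a permutation of the members. -/
def memPerm (hG : IsThreeTranspositionGroup D) (u : G) : Equiv.Perm ↥D where
  toFun d := ⟨u * d.1 * u⁻¹, hG.2.1 u d.1 d.2⟩
  invFun d := ⟨u⁻¹ * d.1 * u, by simpa using hG.2.1 u⁻¹ d.1 d.2⟩
  left_inv d := Subtype.ext (by simp [mul_assoc])
  right_inv d := Subtype.ext (by simp [mul_assoc])

theorem memPerm_mul (hG : IsThreeTranspositionGroup D) (u v : G) :
    memPerm hG (u * v) = memPerm hG u * memPerm hG v := by
  refine Equiv.ext fun d => Subtype.ext ?_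
  show u * v * d.1 * (u * v)⁻¹ = u * (v * d.1 * v⁻¹) * u⁻¹
  group

open Classical in
/-- The adjacency matrix shifted by the minimal eigenvalue. -/
noncomputable def gqMat (D : Set G) (t : ℕ) : Matrix ↥D ↥D ℤ :=
  Matrix.of fun i j => if i = j then (t : ℤ) + 1 else if Commute i.1 j.1 then 1 else 0

theorem ncard_subtype_filter [Fintype ↥D] (P : G → Prop) [DecidablePred fun i : ↥D => P i.1] :
    (Finset.univ.filter fun i : ↥D => P i.1).card = {d | d ∈ D ∧ P d}.ncard := by
  rw [← Set.ncard_coe_finset, ← Set.ncard_image_of_injective _ Subtype.val_injective]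
  congr 1
  ext d
  constructor
  · rintro ⟨i, hi, rfl⟩
    exact ⟨i.2, by simpa using hi⟩
  · rintro ⟨hd, hP⟩
    exact ⟨⟨d, hd⟩, by simpa using hP, rfl⟩

namespace IsGQ

variable [Finite G] (h : IsGQ D) {s t : ℕ} (hp : HasParams D s t)

include h hp

theorem gqMat_symm (i j : ↥D) : gqMat D t i j = gqMat D t j i := by
  classical
  simp only [gqMat, Matrix.of_apply]
  by_cases hij : i = j
  · subst hij; rfl
  · rw [if_neg hij, if_neg (Ne.symm hij)]
    exact if_congr ⟨Commute.symm, Commute.symm⟩ rfl rfl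

theorem gqMat_row [Fintype ↥D] (i : ↥D) :
    ∑ j, gqMat D t i j = ((s + 1) * (t + 1) : ℤ) := by
  classical
  have e : ∀ j : ↥D, gqMat D t i j =
      (if i = j then ((t : ℤ) + 1) else 0) + (if j.1 ∈ nbr D i.1 then 1 else 0) := by
    intro j
    simp only [gqMat, Matrix.of_apply]
    by_cases hij : i = j
    · subst hij
      rw [if_pos rfl, if_pos rfl, if_neg (fun hh => hh.2.1 rfl), add_zero]
    · rw [if_neg hij, if_neg hij, zero_add]
      exact if_congr ⟨fun hc => ⟨j.2, fun eq => hij (Subtype.ext eq.symm), hc⟩, fun hh => hh.2.2⟩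
        rfl rfl
  simp only [e, Finset.sum_add_distrib, Finset.sum_ite_eq, Finset.mem_univ, if_true,
    Finset.sum_boole]
  have hc : (Finset.univ.filter fun j : ↥D => j.1 ∈ nbr D i.1).card = s * (t + 1) := by
    rw [ncard_subtype_filter (fun d => d ∈ nbr D i.1), ← hp.deg i.1 i.2]
    congr 1
    ext d
    exact ⟨fun hh => hh.2, fun hh => ⟨hh.1, hh⟩⟩
  rw [hc]; push_cast; ring

theorem gqMat_col [Fintype ↥D] (j : ↥D) :
    ∑ i, gqMat D t i j = ((s + 1) * (t + 1) : ℤ) := by
  simp only [h.gqMat_symm hp _ j, h.gqMat_row hp j]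

theorem gqMat_conj (u : G) (i j : ↥D) :
    gqMat D t (memPerm h.ttg u i) (memPerm h.ttg u j) = gqMat D t i j := by
  classical
  simp only [gqMat, Matrix.of_apply, (memPerm h.ttg u).injective.eq_iff]
  refine if_congr Iff.rfl rfl (if_congr ?_ rfl rfl)
  exact commute_conj_iff'

theorem gqMat_sq [Fintype ↥D] :
    gqMat D t * gqMat D t = ((s : ℤ) + t) • gqMat D t
      + ((t : ℤ) + 1) • Matrix.of fun _ _ => (1 : ℤ) := by
  classical
  ext i j
  have e : ∀ l : ↥D, gqMat D t i l * gqMat D t l j =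
      (if i = l then ((t : ℤ) + 1) * gqMat D t i j else 0) +
      (if j = l then (if i = j then 0 else ((t : ℤ) + 1) * gqMat D t i j) else 0) +
      (if l.1 ∈ nbr D i.1 ∧ l.1 ∈ nbr D j.1 then 1 else 0) := by
    intro l
    simp only [gqMat, Matrix.of_apply]
    by_cases hil : i = l
    · subst hil
      rw [if_pos rfl, if_pos rfl, if_neg (fun hh => hh.1.2.1 rfl : ¬ (i.1 ∈ nbr D i.1 ∧ _))]
      by_cases hji : j = i
      · subst hji; simp
      · rw [if_neg hji, add_zero, add_zero]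
    · rw [if_neg hil, if_neg hil, zero_add]
      by_cases hjl : j = l
      · subst hjl
        rw [if_pos rfl, if_pos rfl, if_neg hil, if_neg hil,
          if_neg (fun hh => hh.2.2.1 rfl : ¬ (_ ∧ j.1 ∈ nbr D j.1)), add_zero, mul_comm]
      · rw [if_neg (Ne.symm hjl), if_neg hjl, zero_add, ite_mul, one_mul, zero_mul, ← ite_and]
        exact if_congr ⟨fun hh => ⟨⟨l.2, fun eq => hil (Subtype.ext eq.symm), hh.1⟩, l.2,
          fun eq => hjl (Subtype.ext eq.symm), hh.2.symm⟩,
          fun hh => ⟨hh.1.2.2, hh.2.2.2.symm⟩⟩ rfl rfl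
  simp only [Matrix.mul_apply, e, Finset.sum_add_distrib, Finset.sum_ite_eq, Finset.mem_univ,
    if_true, Finset.sum_boole, Matrix.add_apply, Matrix.smul_apply, smul_eq_mul, Matrix.of_apply,
    mul_one]
  rw [ncard_subtype_filter (fun d => d ∈ nbr D i.1 ∧ d ∈ nbr D j.1)]
  have hset : {d | d ∈ D ∧ d ∈ nbr D i.1 ∧ d ∈ nbr D j.1} = nbr D i.1 ∩ nbr D j.1 := by
    ext d; exact ⟨fun hh => hh.2, fun hh => ⟨hh.1.1, hh⟩⟩
  rw [hset]
  by_cases hij : i = j
  · subst hij
    rw [if_pos rfl, Set.inter_self, hp.deg i.1 i.2]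
    simp only [gqMat, Matrix.of_apply]
    simp only [if_true]
    push_cast; ring
  · rw [if_neg hij]
    by_cases hc : Commute i.1 j.1
    · have hj : j.1 ∈ nbr D i.1 := ⟨j.2, fun eq => hij (Subtype.ext eq.symm), hc⟩
      have h1 : nbr D i.1 ∩ nbr D j.1 = ln D i.1 j.1 \ {i.1, j.1} := by
        ext d
        simp only [Set.mem_inter_iff, Set.mem_sdiff, Set.mem_insert_iff, Set.mem_singleton_iff,
          not_or]
        exact ⟨fun hh => ⟨⟨hh.1.1, hh.1.2.2.symm, hh.2.2.2.symm⟩, hh.1.2.1, hh.2.2.1⟩,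
          fun hh => ⟨⟨hh.1.1, hh.2.1, hh.1.2.1.symm⟩, hh.1.1, hh.2.2, hh.1.2.2.symm⟩⟩
      have hsub : ({i.1, j.1} : Set G) ⊆ ln D i.1 j.1 := by
        rintro d (rfl | rfl)
        · exact (h.self_mem i.2 hj).1
        · exact (h.self_mem i.2 hj).2
      rw [h1, Set.ncard_sdiff hsub (Set.toFinite _), hp.line i.1 i.2 j.1 hj,
        Set.ncard_pair (fun eq => hij (Subtype.ext eq))]
      simp only [gqMat, Matrix.of_apply, if_neg hij, if_pos hc]
      have hs := hp.two_le
      rw [Nat.cast_sub (by omega)]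
      push_cast; ring
    · rw [hp.common i.1 i.2 j.1 j.2 hc]
      simp only [gqMat, Matrix.of_apply, if_neg hij, if_neg hc]
      push_cast; ring

theorem trace_memPerm [Fintype ↥D] (u : G) :
    ∑ i, gqMat D t (memPerm h.ttg u i) i =
      ((t : ℤ) + 1) * (fixedMem D u).ncard + (movedMem D u).ncard := by
  classical
  have e : ∀ i : ↥D, gqMat D t (memPerm h.ttg u i) i =
      (if u * i.1 * u⁻¹ = i.1 then ((t : ℤ) + 1) else 0) +
      (if u * i.1 * u⁻¹ ≠ i.1 ∧ Commute (u * i.1 * u⁻¹) i.1 then 1 else 0) := by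
    intro i
    simp only [gqMat, Matrix.of_apply]
    by_cases hf : u * i.1 * u⁻¹ = i.1
    · rw [if_pos (Subtype.ext hf : memPerm h.ttg u i = i), if_pos hf,
        if_neg (fun hh : u * i.1 * u⁻¹ ≠ i.1 ∧ _ => hh.1 hf), add_zero]
    · rw [if_neg (fun eq : memPerm h.ttg u i = i => hf (congrArg Subtype.val eq)), if_neg hf,
        zero_add]
      exact if_congr ⟨fun hc => ⟨hf, hc⟩, fun hh => hh.2⟩ rfl rfl
  simp only [e, Finset.sum_add_distrib, Finset.sum_boole]
  rw [← Finset.sum_filter, Finset.sum_const, nsmul_eq_mul,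
    ncard_subtype_filter (fun d => u * d * u⁻¹ = d),
    ncard_subtype_filter (fun d => u * d * u⁻¹ ≠ d ∧ Commute (u * d * u⁻¹) d)]
  simp only [fixedMem, movedMem]
  ring

/-- The congruence for one element. -/
theorem cval_dvd (u : G) : ((s : ℤ) + t) ∣ cval D s t u := by
  classical
  haveI : Fintype ↥D := Fintype.ofFinite _
  obtain ⟨a, ha, -⟩ := h.noncomm
  haveI : Nonempty ↥D := ⟨⟨a, ha⟩⟩
  have h1 := trace_congr (gqMat D t) (memPerm h.ttg u) ((s : ℤ) + t) ((t : ℤ) + 1)
    ((s + 1) * (t + 1)) (by have := hp.two_le; omega) (h.gqMat_row hp) (h.gqMat_col hp)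
    (h.gqMat_conj hp u) (h.gqMat_sq hp)
  rw [h.trace_memPerm hp] at h1
  exact h1

/-- The congruence for a finite subgroup, given by a table. -/
theorem cval_sum_dvd {I : Type*} [Fintype I] [Nonempty I] (op : I → I → I) (g : I → G)
    (hbij : ∀ i, Function.Bijective (op i)) (hop : ∀ i j, g (op i j) = g i * g j) :
    ((s : ℤ) + t) * Fintype.card I ∣ ∑ l, cval D s t (g l) := by
  classical
  haveI : Fintype ↥D := Fintype.ofFinite _
  obtain ⟨a, ha, -⟩ := h.noncomm
  haveI : Nonempty ↥D := ⟨⟨a, ha⟩⟩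
  have h1 := trace_congr_sum op (fun l => memPerm h.ttg (g l)) hbij
    (fun i j => by rw [hop, memPerm_mul]) (gqMat D t) ((s : ℤ) + t) ((t : ℤ) + 1)
    ((s + 1) * (t + 1)) (by have := hp.two_le; omega) (h.gqMat_row hp) (h.gqMat_col hp)
    (fun l => h.gqMat_conj hp (g l)) (h.gqMat_sq hp)
  simp only [h.trace_memPerm hp] at h1
  exact h1

theorem ncard_offline {a b c : G} (ha : a ∈ D) (hb : b ∈ nbr D a) (hc : c ∈ ln D a b) :
    {d | d ∈ D ∧ d ∉ ln D a b ∧ Commute d c}.ncard = s * t := by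
  have h1 : {d | d ∈ D ∧ Commute d c} \ ln D a b = {d | d ∈ D ∧ d ∉ ln D a b ∧ Commute d c} := by
    ext d
    exact ⟨fun hh => ⟨hh.1.1, hh.2, hh.1.2⟩, fun hh => ⟨⟨hh.1, hh.2.2⟩, hh.2.1⟩⟩
  have hsub : ln D a b ⊆ {d | d ∈ D ∧ Commute d c} := fun d hd => ⟨hd.1, h.clique ha hb hd hc⟩
  have h2 : {d | d ∈ D ∧ Commute d c} = insert c (nbr D c) := by
    ext d
    constructor
    · intro hd
      by_cases hdc : d = c
      · exact Or.inl hdc
      · exact Or.inr ⟨hd.1, hdc, hd.2.symm⟩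
    · rintro (rfl | hd)
      · exact ⟨hc.1, Commute.refl _⟩
      · exact ⟨hd.1, hd.2.2.symm⟩
  rw [← h1, Set.ncard_sdiff hsub (Set.toFinite _), h2,
    Set.ncard_insert_of_notMem (fun hh => hh.2.1 rfl), hp.deg c hc.1, hp.line a ha b hb]
  rw [mul_add, mul_one]
  omega

theorem cval_one : cval D s t 1 = ((t : ℤ) + 1) * (s + 1) * (s * t) := by
  have e1 : fixedMem D 1 = D := by ext d; simp [fixedMem]
  have e2 : movedMem D 1 = ∅ := by ext d; simp [movedMem]
  rw [cval, e1, e2, Set.ncard_empty, hp.total]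
  push_cast; ring

theorem cval_mem {x : G} (hx : x ∈ D) : cval D s t x = (s : ℤ) * t * (t + 1) := by
  have hxi := h.inv_eq hx
  have e1 : fixedMem D x = insert x (nbr D x) := by
    ext d
    constructor
    · rintro ⟨hd, h1⟩
      by_cases hdx : d = x
      · exact Or.inl hdx
      · refine Or.inr ⟨hd, hdx, ?_⟩
        show x * d = d * x
        conv_rhs => rw [← h1, inv_mul_cancel_right]
    · rintro (rfl | hd)
      · exact ⟨hx, by simp⟩
      · exact ⟨hd.1, by rw [hd.2.2.eq, mul_inv_cancel_right]⟩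
  have e2 : movedMem D x = ∅ := by
    rw [Set.eq_empty_iff_forall_notMem]
    rintro d ⟨hd, h1, h2⟩
    have hnc : ¬ Commute x d := fun hc => h1 (by rw [hc.eq, mul_inv_cancel_right])
    rw [hxi, h.braid hx hd hnc] at h2
    have h3 := (commute_conj_iff' (g := d)).2 h2
    rw [h.inv_eq hd, show d * (d * x * d) * d = x by
      simp only [mul_assoc, tt_cancel_left h.ttg.1 hd, h.mul_self hd, mul_one],
      show d * d * d = d by rw [h.mul_self hd, one_mul]] at h3
    exact hnc h3
  rw [cval, e1, e2, Set.ncard_empty, Set.ncard_insert_of_notMem (fun hh => hh.2.1 rfl),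
    hp.deg x hx]
  push_cast; ring

theorem cval_three {x z : G} (hx : x ∈ D) (hz : z ∈ D) (hxz : ¬ Commute x z) :
    cval D s t (x * z) = ((t : ℤ) + 1) * ((t : ℤ) - s) := by
  have hinv : (x * z)⁻¹ = z * x := by rw [mul_inv_rev, h.inv_eq hx, h.inv_eq hz]
  have hcj : ∀ d, x * z * d * (x * z)⁻¹ = x * (z * d * z) * x := by
    intro d; rw [hinv]; simp only [mul_assoc]
  have hxx : ∀ q, x * (x * q * x) * x = q := fun q => by
    simp only [mul_assoc, tt_cancel_left h.ttg.1 hx, h.mul_self hx, mul_one]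
  -- moving to a commuting member forces the member to commute with both
  have key : ∀ d ∈ D, Commute (x * z * d * (x * z)⁻¹) d → Commute x d ∧ Commute z d := by
    intro d hd hc
    rw [hcj] at hc
    have h1 := (commute_conj_iff' (g := x)).2 hc
    rw [h.inv_eq hx, hxx] at h1
    have hself : ∀ q ∈ D, ¬ Commute q d → ¬ Commute d (q * d * q) := by
      intro q hq hn hh
      rw [h.braid hq hd hn] at hh
      have h2 := (commute_conj_iff' (g := d)).2 hh
      rw [h.inv_eq hd, show d * (d * q * d) * d = q by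
        simp only [mul_assoc, tt_cancel_left h.ttg.1 hd, h.mul_self hd, mul_one],
        show d * d * d = d by rw [h.mul_self hd, one_mul]] at h2
      exact hn h2.symm
    have hfix : ∀ q ∈ D, Commute q d → q * d * q = d := fun q hq hcm => by
      rw [hcm.eq, mul_assoc, h.mul_self hq, mul_one]
    by_cases hzd : Commute z d
    · refine ⟨?_, hzd⟩
      rw [hfix z hz hzd] at h1
      by_contra hn
      exact hself x hx hn h1
    · exfalso
      by_cases hxd : Commute x d
      · rw [hfix x hx hxd] at h1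
        exact hself z hz hzd h1.symm
      · rw [h.braid hz hd hzd, h.braid hx hd hxd] at h1
        apply hxz
        have h2 := commute_conj_iff' (g := d) (a := z) (b := x)
        rw [h.inv_eq hd] at h2
        exact (h2.1 h1).symm
  have e1 : fixedMem D (x * z) = nbr D x ∩ nbr D z := by
    ext d
    constructor
    · rintro ⟨hd, h1⟩
      obtain ⟨k1, k2⟩ := key d hd (by rw [h1])
      exact ⟨⟨hd, fun eq => hxz (eq ▸ k2).symm, k1⟩, hd, fun eq => hxz (eq ▸ k1), k2⟩
    · rintro ⟨hd, hd'⟩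
      exact ⟨hd.1, by rw [(hd.2.2.mul_left hd'.2.2).eq, mul_inv_cancel_right]⟩
  have e2 : movedMem D (x * z) = ∅ := by
    rw [Set.eq_empty_iff_forall_notMem]
    rintro d ⟨hd, h1, h2⟩
    obtain ⟨k1, k2⟩ := key d hd h2
    exact h1 (by rw [(k1.mul_left k2).eq, mul_inv_cancel_right])
  rw [cval, e1, e2, Set.ncard_empty, hp.common x hx z hz hxz]
  push_cast; ring

theorem cval_pair {x e : G} (hx : x ∈ D) (he : e ∈ nbr D x) :
    cval D s t (x * e) = (s : ℤ) * t * (s - 1) := by
  obtain ⟨hxL, heL⟩ := h.self_mem hx he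
  have hxe : Commute x e := he.2.2
  have hu : (x * e)⁻¹ = x * e := by rw [mul_inv_rev, h.inv_eq hx, h.inv_eq he.1, hxe.eq]
  have hboth : ∀ d ∈ D, (x * e * d * (x * e)⁻¹ = d ↔ d ∈ ln D x e) := by
    intro d hd
    rw [mul_inv_eq_iff_eq_mul]
    refine ⟨fun h1 => ?_, fun hL => (hL.2.1.mul_right hL.2.2).symm.eq⟩
    obtain ⟨k1, k2⟩ := commute_of_commute_mul h.ttg.1 hd hx he.1 hxe he.2.1.symm h1.symm
    exact ⟨hd, k1, k2⟩
  have e1 : fixedMem D (x * e) = ln D x e := by
    ext d
    exact ⟨fun hd => (hboth d hd.1).1 hd.2, fun hd => ⟨hd.1, (hboth d hd.1).2 hd⟩⟩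
  have one : ∀ p ∈ D, ∀ q ∈ D, ∀ d ∈ D, Commute p d → ¬ Commute q d → Commute p q →
      ¬ Commute (p * q * d * (p * q)) d := by
    intro p hp' q hq d hd hpd hqd hpq hc
    have e0 : p * q * d * (p * q) = q * d * q := by
      have hpQ : Commute p (q * d * q) := (hpq.mul_right hpd).mul_right hpq
      calc p * q * d * (p * q) = p * (q * d * (p * q)) := by simp only [mul_assoc]
        _ = p * (q * d * q * p) := by rw [hpq.eq]; simp only [mul_assoc]
        _ = p * (p * (q * d * q)) := by rw [← hpQ.eq]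
        _ = q * d * q := tt_cancel_left h.ttg.1 hp' _
    rw [e0, h.braid hq hd hqd] at hc
    have h2 := (commute_conj_iff' (g := d)).2 hc
    rw [h.inv_eq hd, show d * (d * q * d) * d = q by
      simp only [mul_assoc, tt_cancel_left h.ttg.1 hd, h.mul_self hd, mul_one],
      show d * d * d = d by rw [h.mul_self hd, one_mul]] at h2
    exact hqd h2
  have e2 : movedMem D (x * e) =
      {d | d ∈ D ∧ d ∉ ln D x e} \
        ({d | d ∈ D ∧ d ∉ ln D x e ∧ Commute d x} ∪ {d | d ∈ D ∧ d ∉ ln D x e ∧ Commute d e}) := by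
    ext d
    simp only [movedMem, Set.mem_ofPred_eq, Set.mem_sdiff, Set.mem_union]
    constructor
    · rintro ⟨hd, h1, h2⟩
      have hnL : d ∉ ln D x e := fun hL => h1 ((hboth d hd).2 hL)
      rw [hu] at h2
      refine ⟨⟨hd, hnL⟩, ?_⟩
      rintro (⟨-, -, hc⟩ | ⟨-, -, hc⟩)
      · exact one x hx e he.1 d hd hc.symm (fun hh => hnL ⟨hd, hc, hh.symm⟩) hxe h2
      · rw [hxe.eq] at h2
        exact one e he.1 x hx d hd hc.symm (fun hh => hnL ⟨hd, hh.symm, hc⟩) hxe.symm h2
    · rintro ⟨⟨hd, hnL⟩, hn⟩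
      have hdx : ¬ Commute d x := fun hc => hn (Or.inl ⟨hd, hnL, hc⟩)
      have hde : ¬ Commute d e := fun hc => hn (Or.inr ⟨hd, hnL, hc⟩)
      refine ⟨hd, fun eq => hnL ((hboth d hd).1 eq), ?_⟩
      rw [hu]
      exact (pair_commute (h.mul_self hx) (h.mul_self hd) hxe (h.braid hd hx hdx)
        (h.braid hd he.1 hde)).symm
  have hdis : Disjoint {d | d ∈ D ∧ d ∉ ln D x e ∧ Commute d x}
      {d | d ∈ D ∧ d ∉ ln D x e ∧ Commute d e} := by
    rw [Set.disjoint_left]
    rintro d ⟨hd, hnL, h1⟩ ⟨-, -, h2⟩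
    exact hnL ⟨hd, h1, h2⟩
  have hA : ({d | d ∈ D ∧ d ∉ ln D x e} : Set G).ncard = (s + 1) * (s * t + 1) - (s + 1) := by
    rw [show {d | d ∈ D ∧ d ∉ ln D x e} = D \ ln D x e from rfl,
      Set.ncard_sdiff (fun d hd => hd.1) (Set.toFinite _), hp.total, hp.line x hx e he]
  have hsub : {d | d ∈ D ∧ d ∉ ln D x e ∧ Commute d x} ∪ {d | d ∈ D ∧ d ∉ ln D x e ∧ Commute d e} ⊆
      {d | d ∈ D ∧ d ∉ ln D x e} := by
    rintro d (hd | hd) <;> exact ⟨hd.1, hd.2.1⟩
  rw [cval, e1, e2, Set.ncard_sdiff hsub (Set.toFinite _),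
    Set.ncard_union_eq hdis (Set.toFinite _) (Set.toFinite _), hA,
    h.ncard_offline hp hx he hxL, h.ncard_offline hp hx he heL, hp.line x hx e he]
  obtain ⟨q, hq⟩ : ∃ q, s = q + 2 := ⟨s - 2, by have := hp.two_le; omega⟩
  subst hq
  rw [show (q + 2 + 1) * ((q + 2) * t + 1) - (q + 2 + 1) - ((q + 2) * t + (q + 2) * t)
    = (q + 1) * ((q + 2) * t) by
      have : (q + 2 + 1) * ((q + 2) * t + 1) = (q + 2 + 1) + ((q + 2) * t + (q + 2) * t)
        + (q + 1) * ((q + 2) * t) := by ring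
      omega]
  push_cast; ring

theorem cval_triple {x e e' : G} (hx : x ∈ D) (he : e ∈ nbr D x) (he' : e' ∈ ln D x e)
    (hex : e' ≠ x) (hee : e' ≠ e) :
    cval D s t (x * (e * e')) = 3 * ((s : ℤ) * t) := by
  obtain ⟨hxL, heL⟩ := h.self_mem hx he
  set u := x * (e * e') with hu0
  have c1 : Commute x e := he.2.2
  have c2 : Commute x e' := he'.2.1.symm
  have c3 : Commute e e' := he'.2.2.symm
  have hu2 : u * u = 1 := by
    rw [hu0, (c1.mul_right c2).symm.mul_mul_mul_comm, c3.symm.mul_mul_mul_comm, h.mul_self hx,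
      h.mul_self he.1, h.mul_self he'.1, one_mul, one_mul]
  have hui : u⁻¹ = u := inv_eq_of_mul_eq_one_right hu2
  have hall : ∀ d ∈ ln D x e, Commute u d := fun d hd =>
    ((h.clique hx he hxL hd).mul_left ((h.clique hx he heL hd).mul_left (h.clique hx he he' hd)))
  -- the behaviour off the line
  have off : ∀ d ∈ D, d ∉ ln D x e → u * d * u⁻¹ ≠ d ∧ (Commute (u * d * u⁻¹) d ↔
      (Commute d x ∨ Commute d e ∨ Commute d e')) := by
    intro d hd hnL
    have hu' : u * d * u⁻¹ = u * d * u := by rw [hui]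
    -- a point of the triple in the commutant
    have inn : ∀ p q r : G, p ∈ ln D x e → q ∈ ln D x e → r ∈ ln D x e → p ≠ q → p ≠ r → q ≠ r →
        u = p * (q * r) → Commute d p →
        u * d * u ≠ d ∧ Commute (u * d * u) d := by
      intro p q r hp' hq hr hpq hpr hqr hupqr hdp
      have hdq : ¬ Commute d q := fun hc => hnL (h.mem_line hx he hp' hq hpq hd hdp hc)
      have hdr : ¬ Commute d r := fun hc => hnL (h.mem_line hx he hp' hr hpr hd hdp hc)
      have hqrc := h.clique hx he hq hr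
      have hpc := pair_commute (h.mul_self hq.1) (h.mul_self hd) hqrc (h.braid hd hq.1 hdq)
        (h.braid hd hr.1 hdr)
      have hpQ : Commute p (q * r * d * (q * r)) :=
        (((h.clique hx he hp' hq).mul_right (h.clique hx he hp' hr)).mul_right hdp.symm).mul_right
          ((h.clique hx he hp' hq).mul_right (h.clique hx he hp' hr))
      have e0 : u * d * u = q * r * d * (q * r) := by
        rw [hupqr]
        calc p * (q * r) * d * (p * (q * r))
            = p * (q * r * d * (p * (q * r))) := by simp only [mul_assoc]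
          _ = p * (q * r * d * (q * r) * p) := by
              rw [((h.clique hx he hp' hq).mul_right (h.clique hx he hp' hr)).eq]
              simp only [mul_assoc]
          _ = p * (p * (q * r * d * (q * r))) := by rw [← hpQ.eq]
          _ = _ := tt_cancel_left h.ttg.1 hp'.1 _
      rw [e0]
      refine ⟨fun eq => ?_, hpc.symm⟩
      have hc' : Commute d (q * r) := by
        have hqr2 : q * r * (q * r) = 1 := by
          rw [hqrc.symm.mul_mul_mul_comm, h.mul_self hq.1, h.mul_self hr.1, one_mul]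
        show d * (q * r) = q * r * d
        conv_lhs => rw [← eq, mul_assoc _ (q * r) (q * r), hqr2, mul_one]
      exact hdq (commute_of_commute_mul h.ttg.1 hd hq.1 hr.1 hqrc hqr hc').1
    by_cases hdx : Commute d x
    · have := inn x e e' hxL heL he' he.2.1.symm hex.symm hee.symm rfl hdx
      rw [hu']; exact ⟨this.1, iff_of_true this.2 (Or.inl hdx)⟩
    by_cases hde : Commute d e
    · have := inn e x e' heL hxL he' he.2.1 hee.symm hex.symm
        (by rw [hu0, ← mul_assoc, c1.eq, mul_assoc]) hde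
      rw [hu']; exact ⟨this.1, iff_of_true this.2 (Or.inr (Or.inl hde))⟩
    by_cases hde' : Commute d e'
    · have := inn e' x e he' hxL heL hex hee he.2.1.symm
        (by rw [hu0, ← mul_assoc, (c2.symm.mul_right c3.symm).eq]) hde'
      rw [hu']; exact ⟨this.1, iff_of_true this.2 (Or.inr (Or.inr hde'))⟩
    obtain ⟨m1, -, -, -, m5⟩ := h.star_mem hx he he' hex hee hd hdx hde hde'
    rw [← hu0] at m1 m5
    have e0 : u * d * u = d * star4 d u * d := by
      rw [star4]
      simp only [mul_assoc, tt_cancel_left h.ttg.1 hd, h.mul_self hd, mul_one]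
    rw [hu', e0]
    have hnc : ¬ Commute (d * star4 d u * d) d := by
      intro hc
      have h2 := (commute_conj_iff' (g := d)).2 hc
      rw [h.inv_eq hd, show d * (d * star4 d u * d) * d = star4 d u by
        simp only [mul_assoc, tt_cancel_left h.ttg.1 hd, h.mul_self hd, mul_one],
        show d * d * d = d by rw [h.mul_self hd, one_mul]] at h2
      exact m5 h2.symm
    refine ⟨fun eq => hnc (eq.symm ▸ Commute.refl d), iff_of_false hnc ?_⟩
    rintro (hc | hc | hc)
    exacts [hdx hc, hde hc, hde' hc]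
  have e1 : fixedMem D u = ln D x e := by
    ext d
    refine ⟨fun hd => by_contra fun hnL => (off d hd.1 hnL).1 hd.2, fun hd => ⟨hd.1, ?_⟩⟩
    rw [(hall d hd).eq, mul_inv_cancel_right]
  have e2 : movedMem D u = {d | d ∈ D ∧ d ∉ ln D x e ∧ Commute d x} ∪
      {d | d ∈ D ∧ d ∉ ln D x e ∧ Commute d e} ∪ {d | d ∈ D ∧ d ∉ ln D x e ∧ Commute d e'} := by
    ext d
    simp only [movedMem, Set.mem_ofPred_eq, Set.mem_union]
    constructor
    · rintro ⟨hd, h1, h2⟩
      have hnL : d ∉ ln D x e := fun hL => h1 (by rw [(hall d hL).eq, mul_inv_cancel_right])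
      rcases (off d hd hnL).2.1 h2 with hc | hc | hc
      exacts [Or.inl (Or.inl ⟨hd, hnL, hc⟩), Or.inl (Or.inr ⟨hd, hnL, hc⟩),
        Or.inr ⟨hd, hnL, hc⟩]
    · rintro ((⟨hd, hnL, hc⟩ | ⟨hd, hnL, hc⟩) | ⟨hd, hnL, hc⟩)
      · exact ⟨hd, (off d hd hnL).1, (off d hd hnL).2.2 (Or.inl hc)⟩
      · exact ⟨hd, (off d hd hnL).1, (off d hd hnL).2.2 (Or.inr (Or.inl hc))⟩
      · exact ⟨hd, (off d hd hnL).1, (off d hd hnL).2.2 (Or.inr (Or.inr hc))⟩
  have hdj : ∀ p ∈ ln D x e, ∀ q ∈ ln D x e, p ≠ q →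
      Disjoint {d | d ∈ D ∧ d ∉ ln D x e ∧ Commute d p}
        {d | d ∈ D ∧ d ∉ ln D x e ∧ Commute d q} := by
    intro p hp' q hq hne
    rw [Set.disjoint_left]
    rintro d ⟨hd, hnL, h1⟩ ⟨-, -, h2⟩
    exact hnL (h.mem_line hx he hp' hq hne hd h1 h2)
  rw [cval, e1, e2, Set.ncard_union_eq
      (Disjoint.union_left (hdj x hxL e' he' hex.symm) (hdj e heL e' he' hee.symm))
      (Set.toFinite _) (Set.toFinite _),
    Set.ncard_union_eq (hdj x hxL e heL he.2.1.symm) (Set.toFinite _) (Set.toFinite _),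
    h.ncard_offline hp hx he hxL, h.ncard_offline hp hx he heL, h.ncard_offline hp hx he he',
    hp.line x hx e he]
  push_cast; ring

end IsGQ

end CfsgLib.FischerGQ
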