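import Mathlib
import Cfsg.Agent.ThreeTransp.Planes

/-!
The Heisenberg group of a plane of nine members, with its map.
-/

set_option autoImplicit false
set_option linter.unusedSectionVars false

namespace CfsgLib.FischerGQ

open Cfsg CfsgLib.ThreeTransp

variable {G : Type*} [Group G] {D : Set G}

/-- The nine members of a plane as translates of one of them. -/
theorem exists_nine_heis {a b c : G} (hD : IsThreeTranspositionSet D)
    (hcl : ∀ x ∈ D, ∀ y ∈ D, x * y * x ∈ D) (ha : a ∈ D) (hb : b ∈ D) (hc : c ∈ D)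
    (hab : ¬ Commute a b) (hac : ¬ Commute a c) (hbc : ¬ Commute b c)
    (hbc' : ¬ Commute (a * b * a) c) :
    ∃ (u v z : G), (∀ x y, hmap u v z x * hmap u v z y = hmap u v z (hm x y)) ∧
      hmap u v z (0, 0, 0) = 1 ∧ Commute (hmap u v z (0, 0, 1)) a ∧
      hmap u v z (nm ![1, 0]) * a = b ∧ hmap u v z (nm ![0, 1]) * a = c ∧
      (∀ p, hmap u v z (nm p) * a ∈ D) ∧
      (∀ p q, p ≠ q → ¬ Commute (hmap u v z (nm p) * a) (hmap u v z (nm q) * a)) ∧
      ∀ p q, hmap u v z (nm q) * a * (hmap u v z (nm p) * a) * (hmap u v z (nm q) * a) =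
        hmap u v z (nm (-p - q)) * a := by
  have cube : ∀ {x y : G}, x ∈ D → y ∈ D → ¬ Commute x y → (x * y) ^ 3 = 1 := by
    intro x y hx hy h
    rcases hD.2 x hx y hy with h2 | h3
    · exfalso
      apply h
      have := inv_eq_of_mul_eq_one_left (a := x * y) (b := x * y) (by rw [← pow_two]; exact h2)
      rw [mul_inv_rev, tt_inv hD hx, tt_inv hD hy] at this
      exact this.symm
    · exact h3
  set u : G := b * a with hu_def
  set v : G := c * a with hv_def
  have hu : u ^ 3 = 1 := cube hb ha fun h => hab h.symm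
  have hv : v ^ 3 = 1 := cube hc ha fun h => hac h.symm
  have hvu : (v⁻¹ * u) ^ 3 = 1 := by
    have : v⁻¹ * u = a * ((c * b) * a) := by
      rw [hu_def, hv_def, mul_inv_rev, tt_inv hD ha, tt_inv hD hc]; simp only [mul_assoc]
    rw [this]
    have h3 := cube hc hb fun h => hbc h.symm
    rw [show a * (c * b * a) = a * (c * b) * a⁻¹ by rw [tt_inv hD ha]; simp only [mul_assoc],
      conj_pow, h3, mul_one, mul_inv_cancel]
  have huv : (u * v) ^ 3 = 1 := by
    have hd : a * b * a ∈ D := hcl a ha b hb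
    have hne : ¬ Commute (a * b * a) c := hbc'
    have h3 := cube hd hc hne
    have : u * v = a * (a * b * a * c) * a⁻¹ := by
      rw [hu_def, hv_def, tt_inv hD ha]
      simp only [mul_assoc, tt_cancel_left hD ha]
    rw [this, conj_pow, h3, mul_one, mul_inv_cancel]
  set z : G := v * u * v⁻¹ * u⁻¹ with hz_def
  have hzu : Commute z u := by
    have := (commute_conj_of_cubes hu hv huv hvu)
    exact (this.symm.mul_left (Commute.refl u).inv_left)
  have hzv : Commute z v := by
    have h1 : (v * u) ^ 3 = 1 := by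
      rw [show v * u = u⁻¹ * (u * v) * (u⁻¹)⁻¹ by group, conj_pow, huv, mul_one, mul_inv_cancel]
    have h2 : (u⁻¹ * v) ^ 3 = 1 := by
      rw [show u⁻¹ * v = (v⁻¹ * u)⁻¹ by group, inv_pow, hvu, inv_one]
    have := (commute_conj_of_cubes hv hu h1 h2)
    have hzz : z = v * (u * v⁻¹ * u⁻¹) := by rw [hz_def]; group
    rw [hzz]
    refine ((Commute.refl v).mul_right ?_).symm
    have := this.inv_right
    rwa [show (u * v * u⁻¹)⁻¹ = u * v⁻¹ * u⁻¹ by group] at this
  have hrel : v * u = z * (u * v) := by rw [hz_def]; group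
  have hz : z ^ 3 = 1 := by
    have h := pow_swap hzu hzv hrel 1 3
    rw [hv, one_mul, mul_one, pow_one, one_mul] at h
    exact mul_right_cancel (h.symm.trans (one_mul u).symm)
  set ψ : ZMod 3 × ZMod 3 × ZMod 3 → G := hmap u v z with hψ
  have hmul : ∀ x y, ψ x * ψ y = ψ (hm x y) := hmap_mul hu hv hz hzu hzv hrel
  have hone : ψ (0, 0, 0) = 1 := by simp [hψ, hmap]
  have hau : a * u * a = u⁻¹ := by
    rw [hu_def, mul_inv_rev, tt_inv hD ha, tt_inv hD hb]
    simp only [mul_assoc, tt_mul_self hD ha, mul_one]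
  have hav : a * v * a = v⁻¹ := by
    rw [hv_def, mul_inv_rev, tt_inv hD ha, tt_inv hD hc]
    simp only [mul_assoc, tt_mul_self hD ha, mul_one]
  set σ : G →* G := (MulAut.conj a).toMonoidHom with hσ
  have hσa : ∀ g, σ g = a * g * a := fun g => by
    simp [hσ, tt_inv hD ha]
  have hψu : ψ (1, 0, 0) = u := by simp [hψ, hmap, ZMod.val_one]
  have hψv : ψ (0, 1, 0) = v := by simp [hψ, hmap, ZMod.val_one]
  have hψz : ψ (0, 0, 1) = z := by simp [hψ, hmap, ZMod.val_one]
  have hinv : ∀ x y, hm x y = (0, 0, 0) → ψ y = (ψ x)⁻¹ := fun x y h =>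
    eq_inv_of_mul_eq_one_right (by rw [hmul, h, hone])
  have hσu : σ u = ψ (-1, 0, 0) := by
    rw [hσa, hau, hinv (1, 0, 0) (-1, 0, 0) (by decide), hψu]
  have hσv : σ v = ψ (0, -1, 0) := by
    rw [hσa, hav, hinv (0, 1, 0) (0, -1, 0) (by decide), hψv]
  have hσz : σ z = z := by
    have : σ z = σ v * σ u * (σ v)⁻¹ * (σ u)⁻¹ := by
      rw [hz_def]; simp only [map_mul, map_inv]
    rw [this, hσu, hσv, ← hinv (0, -1, 0) (0, 1, 0) (by decide),
      ← hinv (-1, 0, 0) (1, 0, 0) (by decide), hmul, hmul, hmul, ← hψz]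
    congr 1
  have hpow : ∀ (x : ZMod 3 × ZMod 3 × ZMod 3), ψ x =
      z ^ x.2.2.val * (u ^ x.1.val * v ^ x.2.1.val) := fun x => rfl
  have hσψ : ∀ p, σ (ψ (nm p)) = ψ (nm (-p)) := by
    intro p
    rw [hpow (nm p), map_mul, map_mul, map_pow, map_pow, map_pow, hσz, hσu, hσv]
    have hk : ∀ (w : ZMod 3 × ZMod 3 × ZMod 3) (n : Fin 3), ψ w ^ (n : ℕ) =
        ψ (![(0, 0, 0), w, hm w w] n) := by
      intro w n
      fin_cases n
      · simp [hone]
      · simp
      · simp [pow_two, hmul]
    have k1 := hk (-1, 0, 0) ⟨(p 0).val, ZMod.val_lt _⟩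
    have k2 := hk (0, -1, 0) ⟨(p 1).val, ZMod.val_lt _⟩
    have k3 := hk (0, 0, 1) ⟨(2 * p 0 * p 1 : ZMod 3).val, ZMod.val_lt _⟩
    rw [hψz] at k3
    simp only [nm] at k1 k2 k3 ⊢
    rw [k1, k2, k3, hmul, hmul]
    congr 1
    exact hm_sigma p
  have hn : ∀ p, ψ (nm p) * a * (ψ (nm p) * a) = 1 := by
    intro p
    calc ψ (nm p) * a * (ψ (nm p) * a) = ψ (nm p) * (a * ψ (nm p) * a) := by
          simp only [mul_assoc]
      _ = 1 := by rw [← hσa, hσψ, hmul, hm_nm_neg, hone]
  have hx : ∀ p q, (ψ (nm q) * a) * (ψ (nm p) * a) * (ψ (nm q) * a) = ψ (nm (-p - q)) * a := by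
    intro p q
    calc (ψ (nm q) * a) * (ψ (nm p) * a) * (ψ (nm q) * a)
        = ψ (nm q) * (a * ψ (nm p) * a) * ψ (nm q) * a := by simp only [mul_assoc]
      _ = _ := by rw [← hσa, hσψ, hmul, hmul, hm_nm]
  have x00 : ψ (nm ![0, 0]) * a = a := by
    rw [show nm ![0, 0] = (0, 0, 0) by decide, hone, one_mul]
  have x10 : ψ (nm ![1, 0]) * a = b := by
    rw [show nm ![1, 0] = (1, 0, 0) by decide, hψu, hu_def, tt_cancel_right hD ha]
  have x01 : ψ (nm ![0, 1]) * a = c := by
    rw [show nm ![0, 1] = (0, 1, 0) by decide, hψv, hv_def, tt_cancel_right hD ha]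
  have hmem : ∀ p, ψ (nm p) * a ∈ D := by
    have h00 : ψ (nm ![0, 0]) * a ∈ D := by rw [x00]; exact ha
    have h10 : ψ (nm ![1, 0]) * a ∈ D := by rw [x10]; exact hb
    have h01 : ψ (nm ![0, 1]) * a ∈ D := by rw [x01]; exact hc
    have step : ∀ p q r, -p - q = r → ψ (nm p) * a ∈ D → ψ (nm q) * a ∈ D →
        ψ (nm r) * a ∈ D := by
      rintro p q r rfl hp hq
      rw [← hx p q]
      exact hcl _ hq _ hp
    have h20 := step ![0, 0] ![1, 0] ![2, 0] (by decide) h00 h10
    have h02 := step ![0, 0] ![0, 1] ![0, 2] (by decide) h00 h01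
    have h22 := step ![1, 0] ![0, 1] ![2, 2] (by decide) h10 h01
    have h11 := step ![2, 0] ![0, 2] ![1, 1] (by decide) h20 h02
    have h12 := step ![2, 0] ![0, 1] ![1, 2] (by decide) h20 h01
    have h21 := step ![1, 0] ![0, 2] ![2, 1] (by decide) h10 h02
    intro p
    have : p = ![0, 0] ∨ p = ![1, 0] ∨ p = ![0, 1] ∨ p = ![2, 0] ∨ p = ![0, 2] ∨ p = ![2, 2] ∨
        p = ![1, 1] ∨ p = ![1, 2] ∨ p = ![2, 1] := by revert p; decide
    rcases this with rfl | rfl | rfl | rfl | rfl | rfl | rfl | rfl | rfl <;> assumption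
  have hinj : ∀ p q, ψ (nm p) = ψ (nm q) → p = q := by
    intro p q h
    by_contra hne
    set d := hm (nm p) (nm (-q)) with hd
    have hd1 : ψ d = 1 := by rw [hd, ← hmul, h, hmul, hm_nm_neg, hone]
    have hcases : d.1 ≠ 0 ∨ d.2.1 ≠ 0 := by
      rw [hd]
      exact hm_sub_ne p q hne
    have hz1 : z = 1 := by
      have key : ∀ e, ψ (hm d e) = ψ (hm e d) := fun e => by
        rw [← hmul d e, ← hmul e d, hd1, one_mul, mul_one]
      have expand : ∀ x, ψ x = ψ (0, 0, x.2.2) * ψ (x.1, x.2.1, 0) := fun x => by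
        rw [hmul]; simp [hm]
      have aux : ∀ e, (hm d e).2.2 ≠ (hm e d).2.2 → z = 1 := by
        intro e hne'
        have := key e
        rw [expand, expand (hm e d)] at this
        rw [show (hm e d).1 = (hm d e).1 by simp [hm, add_comm],
          show (hm e d).2.1 = (hm d e).2.1 by simp [hm, add_comm]] at this
        have h3 := mul_right_cancel this
        generalize (hm d e).2.2 = k1 at h3 hne'
        generalize (hm e d).2.2 = k2 at h3 hne'
        simp only [hψ, hmap, ZMod.val_zero, pow_zero, mul_one] at h3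
        have h4 : z ^ (k1 - k2).val * z ^ k2.val = 1 * z ^ k2.val := by
          rw [← pow_val_add hz, sub_add_cancel, one_mul, h3]
        have h5 := mul_right_cancel h4
        have hk : (k1 - k2).val = 1 ∨ (k1 - k2).val = 2 := by
          have h6 : (k1 - k2).val ≠ 0 := by
            rw [ne_eq, ZMod.val_eq_zero, sub_eq_zero]; exact hne'
          have h7 := ZMod.val_lt (k1 - k2)
          omega
        rcases hk with hk | hk <;> rw [hk] at h5
        · simpa using h5
        · calc z = z ^ 3 * (z ^ 2)⁻¹ := by group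
            _ = 1 := by rw [hz, h5, inv_one, one_mul]
      rcases hcases with hi | hj
      · refine aux (0, 1, 0) ?_
        simp only [hm]
        intro e
        apply hi
        linear_combination -e
      · refine aux (1, 0, 0) ?_
        simp only [hm]
        intro e
        apply hj
        linear_combination e
    have hd2 : u ^ d.1.val * v ^ d.2.1.val = 1 := by
      have := hd1
      simp only [hψ, hmap, hz1, one_pow, one_mul] at this
      exact this
    have hu1 : u ≠ 1 := fun e => hab <| by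
      have : b = a := by rw [← tt_cancel_right hD ha b, ← hu_def, e, one_mul]
      rw [this]
    have hv1 : v ≠ 1 := fun e => hac <| by
      have : c = a := by rw [← tt_cancel_right hD ha c, ← hv_def, e, one_mul]
      rw [this]
    have hne_uv : u ≠ v := fun e => hbc <| by
      have : b = c := by rw [← tt_cancel_right hD ha b, ← hu_def, e, hv_def, tt_cancel_right hD ha]
      rw [this]
    have hne_uv' : u * v ≠ 1 := fun e => hbc' <| by
      have : a * b * a = c := by
        have h1 := eq_inv_of_mul_eq_one_left e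
        rw [hu_def, hv_def, mul_inv_rev, tt_inv hD ha, tt_inv hD hc] at h1
        rw [mul_assoc, h1, tt_cancel_left hD ha]
      rw [this]
    have hu2 : u ^ 2 = u⁻¹ := eq_inv_of_mul_eq_one_left (by rw [← pow_succ, hu])
    have hv2 : v ^ 2 = v⁻¹ := eq_inv_of_mul_eq_one_left (by rw [← pow_succ, hv])
    generalize d.1 = i at hd2 hcases
    generalize d.2.1 = j at hd2 hcases
    have h0 : (0 : ZMod 3).val = 0 := rfl
    have h1' : (1 : ZMod 3).val = 1 := rfl
    have h2' : (2 : ZMod 3).val = 2 := rfl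
    have h3 : ∀ k : ZMod 3, k = 0 ∨ k = 1 ∨ k = 2 := by decide
    have hi3 := h3 i
    have hj3 := h3 j
    rcases hi3 with rfl | rfl | rfl <;> rcases hj3 with rfl | rfl | rfl <;>
      simp only [h0, h1', h2', hu2, hv2, pow_zero, pow_one, one_mul, mul_one, ne_eq,
        not_true, or_self, inv_eq_one] at hd2 hcases
    · exact hv1 hd2
    · exact hv1 hd2
    · exact hu1 hd2
    · exact hne_uv' hd2
    · exact hne_uv (mul_inv_eq_one.1 hd2)
    · exact hu1 hd2
    · exact hne_uv (inv_mul_eq_one.1 hd2)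
    · rw [← mul_inv_rev, inv_eq_one] at hd2
      exact hne_uv' (by rw [eq_inv_of_mul_eq_one_left hd2, mul_inv_cancel])
  refine ⟨u, v, z, hmul, hone, ?_, x10, x01, hmem, ?_, hx⟩
  · show Commute (ψ (0, 0, 1)) a
    rw [hψz]
    show z * a = a * z
    conv_rhs => rw [← hσz, hσa, ← mul_assoc, ← mul_assoc, tt_mul_self hD ha, one_mul]
  · intro p q hpq hcom
    apply hpq
    have h1 := hx p q
    have h2 : (ψ (nm q) * a) * (ψ (nm p) * a) * (ψ (nm q) * a) = ψ (nm p) * a := by
      rw [hcom.symm.eq, mul_assoc, hn q, mul_one]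
    have h3 := hinj _ _ (mul_right_cancel (h1.symm.trans h2))
    exact neg_sub_eq_self p q (congrArg nm h3)

end CfsgLib.FischerGQ
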