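import Mathlib
import Cfsg.Agent.FischerGQ.Counts

/-!
The twisted trace of the product of three members forming a path.
-/

set_option autoImplicit false
set_option linter.unusedSectionVars false
set_option linter.style.haveILetI false

namespace CfsgLib.FischerGQ

open Cfsg CfsgLib.ThreeTransp

variable {G : Type*} [Group G] {D : Set G}

namespace IsGQ

variable [Finite G] (h : IsGQ D) {s t : ℕ} (hp : HasParams D s t)

include h hp

theorem cval_four {x z e : G} (hx : x ∈ D) (hz : z ∈ D) (he : e ∈ nbr D x) (hzx : ¬ Commute z x)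
    (hze : ¬ Commute z e) : cval D s t (x * z * e) = (s : ℤ) * t - 4 * t := by
  obtain ⟨hxL, heL⟩ := h.self_mem hx he
  obtain ⟨a, haL, hza⟩ := h.exists_proj hx he hz
  have hax : a ≠ x := fun eq => hzx (eq ▸ hza)
  have hae : a ≠ e := fun eq => hze (eq ▸ hza)
  have hxe : Commute x e := he.2.2
  have hxA : x ∈ nbr D a := ⟨hx, hax.symm, haL.2.1⟩
  have heA : e ∈ nbr D a := ⟨he.1, hae.symm, haL.2.2⟩
  -- conjugating a member by a member
  have self : ∀ q ∈ D, ∀ d ∈ D, ¬ Commute q d → ¬ Commute (q * d * q) d := by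
    intro q hq d hd hn hh
    rw [h.braid hq hd hn] at hh
    have h2 := (commute_conj_iff' (g := d)).2 hh
    rw [h.inv_eq hd, show d * (d * q * d) * d = q by
      simp only [mul_assoc, tt_cancel_left h.ttg.1 hd, h.mul_self hd, mul_one],
      show d * d * d = d by rw [h.mul_self hd, one_mul]] at h2
    exact hn h2
  have cj : ∀ q ∈ D, ∀ u v : G, Commute (q * u * q) (q * v * q) ↔ Commute u v := by
    intro q hq u v
    have := commute_conj_iff' (g := q) (a := u) (b := v)
    rwa [h.inv_eq hq] at this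
  have back : ∀ q ∈ D, ∀ u : G, q * (q * u * q) * q = u := fun q hq u => by
    simp only [mul_assoc, tt_cancel_left h.ttg.1 hq, h.mul_self hq, mul_one]
  have fix : ∀ q ∈ D, ∀ u : G, Commute q u → q * u * q = u := fun q hq u hc => by
    rw [hc.eq, mul_assoc, h.mul_self hq, mul_one]
  set P := x * e with hP
  have hP2 : P * P = 1 := by
    rw [hP, hxe.symm.mul_mul_mul_comm, h.mul_self hx, h.mul_self he.1, one_mul]
  have hPi : P⁻¹ = P := inv_eq_of_mul_eq_one_right hP2
  have hPc : ∀ u v : G, Commute (P * u * P) (P * v * P) ↔ Commute u v := by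
    intro u v
    have := commute_conj_iff' (g := P) (a := u) (b := v)
    rwa [hPi] at this
  have hPD : ∀ d ∈ D, P * d * P ∈ D := fun d hd => by
    have := h.ttg.2.1 P d hd; rwa [hPi] at this
  have hPb : ∀ d : G, P * (P * d * P) * P = d := fun d => by
    rw [show P * (P * d * P) * P = P * P * d * (P * P) by simp only [mul_assoc], hP2, one_mul,
      mul_one]
  set y := x * z * x with hy0
  set y' := e * z * e with hy'0
  have hyD : y ∈ D := h.conj_mem hx hz
  have hy'D : y' ∈ D := h.conj_mem he.1 hz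
  have hyi := h.inv_eq hyD
  have hyy : Commute y y' := by
    have h1 := pair_commute (h.mul_self hx) (h.mul_self hz) hxe (h.braid hz hx hzx)
      (h.braid hz he.1 hze)
    have h2 := (cj x hx _ _).2 h1
    rw [show x * (x * e * z * (x * e)) * x = (x * x) * e * z * (x * e * x) by
        simp only [mul_assoc], h.mul_self hx, one_mul,
      show x * e * x = e by rw [hxe.eq, mul_assoc, h.mul_self hx, mul_one]] at h2
    exact h2
  have hyne : y ≠ y' := by
    intro eq
    apply hzx
    have h1 : Commute z P := by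
      show z * P = P * z
      calc z * P = x * (x * z * x) * x * P := by rw [back x hx]
        _ = x * (e * z * e) * x * P := by rw [← hy0, eq]
        _ = P * z * (e * x * P) := by rw [hP]; simp only [mul_assoc]
        _ = P * z := by rw [← hxe.eq, ← hP, hP2, mul_one]
    exact (commute_of_commute_mul h.ttg.1 hz hx he.1 hxe he.2.1.symm h1).1
  have hay : Commute a y := ((haL.2.1).mul_right hza.symm).mul_right haL.2.1
  have hay' : Commute a y' := ((haL.2.2).mul_right hza.symm).mul_right haL.2.2
  have hxy : ¬ Commute x y := by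
    intro hc
    have h1 := (cj x hx _ _).2 hc
    rw [hy0, back x hx, fix x hx x (Commute.refl x)] at h1
    exact hzx h1.symm
  have hey : ¬ Commute e y := by
    intro hc
    have h1 := (cj x hx _ _).2 hc
    rw [hy0, back x hx, fix x hx e hxe] at h1
    exact hze h1.symm
  have hxy' : ¬ Commute x y' := by
    intro hc
    have h1 := (cj e he.1 _ _).2 hc
    rw [hy'0, back e he.1, fix e he.1 x hxe.symm] at h1
    exact hzx h1.symm
  have hey' : ¬ Commute e y' := by
    intro hc
    have h1 := (cj e he.1 _ _).2 hc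
    rw [hy'0, back e he.1, fix e he.1 e (Commute.refl e)] at h1
    exact hze h1.symm
  have hyA : y ∈ nbr D a := ⟨hyD, fun eq => hxy (eq.symm ▸ haL.2.1.symm), hay⟩
  have hy'A : y' ∈ nbr D a := ⟨hy'D, fun eq => hxy' (eq.symm ▸ haL.2.1.symm), hay'⟩
  obtain ⟨haM, hyM⟩ := h.self_mem haL.1 hyA
  have hy'M : y' ∈ ln D a y := ⟨hy'D, hay'.symm, hyy.symm⟩
  have hσ1 : x * z * e = P * y' := by
    rw [hP, hy'0]; simp only [mul_assoc, tt_cancel_left h.ttg.1 he.1]
  have hσ2 : x * z * e = y * P := by
    rw [hP, hy0]; simp only [mul_assoc, tt_cancel_left h.ttg.1 hx]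
  set σ := x * z * e with hσ
  have a1 : ∀ d, σ * d * σ⁻¹ = P * (y' * d * y') * P := fun d => by
    rw [hσ1, mul_inv_rev, hPi, h.inv_eq hy'D]; simp only [mul_assoc]
  have a2 : ∀ d, σ * d * σ⁻¹ = y * (P * d * P) * y := fun d => by
    rw [hσ2, mul_inv_rev, hPi, hyi]; simp only [mul_assoc]
  have hPd : ∀ d ∈ D, Commute d x → Commute d e → P * d * P = d := fun d _ c1 c2 => by
    rw [← (c1.mul_right c2).eq, mul_assoc, hP2, mul_one]
  have hPne : ∀ d ∈ D, ¬ Commute d x → P * d * P ≠ d := by
    intro d hd hn eq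
    have : Commute d P := by
      show d * P = P * d
      conv_lhs => rw [← eq, mul_assoc _ P P, hP2, mul_one]
    exact hn (commute_of_commute_mul h.ttg.1 hd hx he.1 hxe he.2.1.symm this).1
  have hPp : ∀ d ∈ D, ¬ Commute d x → ¬ Commute d e → Commute (P * d * P) d := fun d hd n1 n2 =>
    (pair_commute (h.mul_self hx) (h.mul_self hd) hxe (h.braid hd hx n1) (h.braid hd he.1 n2)).symm
  -- one commuting end
  have hone : ∀ d ∈ D, ¬ Commute d a → Commute d x → P * d * P = e * d * e ∧ ¬ Commute d e := by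
    intro d hd hna hdx
    refine ⟨?_, fun hde => hna (h.clique hx he ⟨hd, hdx, hde⟩ haL)⟩
    have hc : Commute x (e * d * e) := (hxe.mul_right hdx.symm).mul_right hxe
    calc P * d * P = x * (e * d * e * x) := by
          rw [hP]; conv_lhs => arg 2; rw [hxe.eq]
          simp only [mul_assoc]
      _ = x * (x * (e * d * e)) := by rw [← hc.eq]
      _ = _ := tt_cancel_left h.ttg.1 hx _
  have hone' : ∀ d ∈ D, ¬ Commute d a → Commute d e → P * d * P = x * d * x ∧ ¬ Commute d x := by
    intro d hd hna hde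
    refine ⟨?_, fun hdx => hna (h.clique hx he ⟨hd, hdx, hde⟩ haL)⟩
    have hc : Commute e (x * d * x) := (hxe.symm.mul_right hde.symm).mul_right hxe.symm
    calc P * d * P = e * (x * d * x * e) := by
          rw [hP]; conv_lhs => arg 1; arg 1; rw [hxe.eq]
          simp only [mul_assoc]
      _ = e * (e * (x * d * x)) := by rw [← hc.eq]
      _ = _ := tt_cancel_left h.ttg.1 he.1 _
  -- the commutation with the conjugate for members off the line of `a`
  have hPiff : ∀ d ∈ D, ¬ Commute d a →
      (Commute (P * d * P) d ↔ ¬ Commute d x ∧ ¬ Commute d e) := by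
    intro d hd hna
    constructor
    · intro hc
      constructor
      · intro hdx
        obtain ⟨e0, hne⟩ := hone d hd hna hdx
        rw [e0] at hc
        exact self e he.1 d hd (fun hh => hne hh.symm) hc
      · intro hde
        obtain ⟨e0, hne⟩ := hone' d hd hna hde
        rw [e0] at hc
        exact self x hx d hd (fun hh => hne hh.symm) hc
    · exact fun hh => hPp d hd hh.1 hh.2
  set A : G → Set G := fun q => {d | d ∈ D ∧ Commute d q ∧ ¬ Commute d a ∧ ¬ Commute d x ∧
    ¬ Commute d e} with hA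
  -- the complete case analysis
  have main : ∀ d ∈ D, d ≠ a → σ * d * σ⁻¹ ≠ d ∧ (Commute (σ * d * σ⁻¹) d ↔
      (d ∈ ln D a y \ {a} ∨ d ∈ A y ∨ d ∈ A y')) := by
    intro d hd hne
    have hfix : Commute (σ * d * σ⁻¹) d → σ * d * σ⁻¹ ≠ d →
        σ * d * σ⁻¹ ≠ d ∧ Commute (σ * d * σ⁻¹) d := fun p q => ⟨q, p⟩
    by_cases hda : Commute d a
    · have hdA : d ∈ nbr D a := ⟨hd, hne, hda.symm⟩
      have hd'A : P * d * P ∈ nbr D a :=
        ⟨hPD d hd, fun eq => hne (by
          have e1 := congrArg (fun u => P * u * P) eq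
          rw [hPb, hPd a haL.1 haL.2.1 haL.2.2] at e1
          exact e1), by
          have := (hPc a d).2 hda.symm
          rwa [hPd a haL.1 haL.2.1 haL.2.2] at this⟩
      have hdd' : Commute (P * d * P) d := by
        by_cases hdx : Commute d x
        · rw [hPd d hd hdx (h.trans a haL.1 x hxA e heA d hdA hxe hdx)]
        · refine hPp d hd hdx fun hde => hdx (h.trans a haL.1 e heA x hxA d hdA hxe.symm hde)
      have hA' : ∀ q, d ∉ A q := fun q hq => hq.2.2.1 hda
      by_cases hdy : Commute d y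
      · have hd'y : Commute (P * d * P) y := h.trans a haL.1 d hdA y hyA _ hd'A hdy hdd'
        have e0 : σ * d * σ⁻¹ = P * d * P := by rw [a2, fix y hyD _ hd'y.symm]
        have hdx : ¬ Commute d x := fun hdx =>
          hxy (h.trans a haL.1 d hdA y hyA x hxA hdy hdx.symm)
        rw [e0]
        exact ⟨hPne d hd hdx, iff_of_true hdd' (Or.inl ⟨⟨hd, hda, hdy⟩, hne⟩)⟩
      · have hd'y : ¬ Commute (P * d * P) y := fun hc =>
          hdy (h.trans a haL.1 (P * d * P) hd'A y hyA d hdA hc hdd'.symm)
        have hnc : ¬ Commute (σ * d * σ⁻¹) d := by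
          rw [a2]
          intro hc
          have hcA : y * (P * d * P) * y ∈ nbr D a := ⟨h.conj_mem hyD hd'A.1, fun eq => by
            have e1 := congrArg (fun u => y * u * y) eq
            rw [back y hyD, fix y hyD a hay.symm] at e1
            exact hd'A.2.1 e1, (hay.mul_right hd'A.2.2).mul_right hay⟩
          exact self y hyD _ hd'A.1 (fun hh => hd'y hh.symm)
            (h.trans a haL.1 d hdA (P * d * P) hd'A _ hcA hdd'.symm hc)
        refine ⟨fun eq => hnc (by rw [eq]), iff_of_false hnc ?_⟩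
        rintro (⟨hL, -⟩ | hq | hq)
        · exact hdy hL.2.2
        · exact hA' y hq
        · exact hA' y' hq
    · have hnM : ¬ (d ∈ ln D a y \ {a}) := fun hh => hda hh.1.2.1
      by_cases hdy : Commute d y
      · have hndy' : ¬ Commute d y' := fun hdy' =>
          hda (h.mem_line haL.1 hyA hyM hy'M hyne hd hdy hdy').2.1
        have e1 : Commute (σ * d * σ⁻¹) d ↔ Commute (P * d * P) d := by
          rw [a2]; conv_lhs => arg 2; rw [← fix y hyD d hdy.symm]
          exact cj y hyD _ _
        refine ⟨fun eq => ?_, ?_⟩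
        · have h2 : P * d * P = d := by
            rw [a2] at eq
            have := congrArg (fun u => y * u * y) eq
            rwa [back y hyD, fix y hyD d hdy.symm] at this
          obtain ⟨n1, -⟩ := (hPiff d hd hda).1 (by rw [h2])
          exact hPne d hd n1 h2
        · rw [e1, hPiff d hd hda]
          refine ⟨fun hh => Or.inr (Or.inl ⟨hd, hdy, hda, hh.1, hh.2⟩), ?_⟩
          rintro (hh | hh | hh)
          exacts [absurd hh hnM, hh.2.2.2, hh.2.2.2]
      by_cases hdy' : Commute d y'
      · have e0 : σ * d * σ⁻¹ = P * d * P := by rw [a1, fix y' hy'D d hdy'.symm]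
        rw [e0]
        refine ⟨fun eq => ?_, ?_⟩
        · obtain ⟨n1, -⟩ := (hPiff d hd hda).1 (by rw [eq])
          exact hPne d hd n1 eq
        · rw [hPiff d hd hda]
          refine ⟨fun hh => Or.inr (Or.inr ⟨hd, hdy', hda, hh.1, hh.2⟩), ?_⟩
          rintro (hh | hh | hh)
          exacts [absurd hh hnM, hh.2.2.2, hh.2.2.2]
      have hnc : ¬ Commute (σ * d * σ⁻¹) d := by
        intro hc
        have c1 : Commute (P * d * P) (d * y * d) := by
          rw [← h.braid hyD hd (fun hh => hdy hh.symm)]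
          rw [a2] at hc
          have := (cj y hyD _ _).2 hc
          rwa [back y hyD] at this
        have c2 : Commute (P * d * P) (d * y' * d) := by
          rw [← h.braid hy'D hd (fun hh => hdy' hh.symm)]
          rw [a1] at hc
          have := (hPc _ _).2 hc
          rw [hPb] at this
          exact this.symm
        have d1 := (cj d hd _ _).2 c1
        have d2 := (cj d hd _ _).2 c2
        rw [back d hd] at d1 d2
        by_cases hdx : Commute d x
        · obtain ⟨e0, hne'⟩ := hone d hd hda hdx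
          rw [e0, h.braid he.1 hd (fun hh => hne' hh.symm), back d hd] at d1
          exact hey d1
        by_cases hde : Commute d e
        · obtain ⟨e0, hne'⟩ := hone' d hd hda hde
          rw [e0, h.braid hx hd (fun hh => hne' hh.symm), back d hd] at d1
          exact hxy d1
        have hpp := hPp d hd hdx hde
        rw [fix d hd _ hpp.symm] at d1 d2
        have hw := (h.mem_line haL.1 hyA hyM hy'M hyne (hPD d hd) d1 d2).2.1
        rw [← hPd a haL.1 haL.2.1 haL.2.2, hPc] at hw
        exact hda hw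
      refine ⟨fun eq => hnc (by rw [eq]), iff_of_false hnc ?_⟩
      rintro (hh | hh | hh)
      exacts [hnM hh, hdy hh.2.1, hdy' hh.2.1]
  have hσa : σ * a * σ⁻¹ = a := by
    rw [a2, hPd a haL.1 haL.2.1 haL.2.2, fix y hyD a hay.symm]
  have e1 : fixedMem D σ = {a} := by
    ext d
    constructor
    · rintro ⟨hd, h1⟩
      by_contra hne
      exact (main d hd hne).1 h1
    · rintro rfl
      exact ⟨haL.1, hσa⟩
  have e2 : movedMem D σ = (ln D a y \ {a}) ∪ (A y ∪ A y') := by
    ext d
    constructor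
    · rintro ⟨hd, h1, h2⟩
      have hne : d ≠ a := fun eq => h1 (eq ▸ hσa)
      exact (main d hd hne).2.1 h2
    · intro hh
      have hmem : d ∈ D ∧ d ≠ a := by
        rcases hh with hq | hq | hq
        · exact ⟨hq.1.1, hq.2⟩
        · exact ⟨hq.1, fun eq => hq.2.2.1 (eq ▸ Commute.refl d)⟩
        · exact ⟨hq.1, fun eq => hq.2.2.1 (eq ▸ Commute.refl d)⟩
      exact ⟨hmem.1, (main d hmem.1 hmem.2).1, (main d hmem.1 hmem.2).2.2 hh⟩
  have hcount : ∀ q ∈ ln D a y, q ≠ a → ¬ Commute x q → ¬ Commute e q →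
      (A q).ncard = s * t - (t + t) := by
    intro q hq hqa hxq heq
    set S := {d | d ∈ D ∧ d ∉ ln D a y ∧ Commute d q} with hS
    set Sx := (nbr D q ∩ nbr D x) \ {a} with hSx
    set Se := (nbr D q ∩ nbr D e) \ {a} with hSe
    have hna : ∀ d ∈ S, ¬ Commute d a := fun d hd hc =>
      hd.2.1 (h.mem_line haL.1 hyA hq haM hqa hd.1 hd.2.2 hc)
    have hin : ∀ p ∈ D, ¬ Commute p q → Commute p a → (nbr D q ∩ nbr D p) \ {a} ⊆ S := by
      rintro p hp' hpq hpa d ⟨⟨h1, h2⟩, h3⟩
      refine ⟨h1.1, fun hd => h3 ?_, h1.2.2.symm⟩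
      exact h.unique_proj haL.1 hyA hd haM hp' (fun hpM => hpq (h.clique haL.1 hyA hpM hq))
        h2.2.2 hpa
    have hnum : ∀ p ∈ D, ¬ Commute p q → Commute p a →
        ((nbr D q ∩ nbr D p) \ {a}).ncard = t := by
      intro p hp' hpq hpa
      rw [Set.ncard_sdiff_singleton_of_mem (show a ∈ nbr D q ∩ nbr D p from
          ⟨⟨haL.1, hqa.symm, hq.2.1⟩, haL.1, fun eq => hpq (eq ▸ hq.2.1.symm), hpa⟩),
        hp.common q hq.1 p hp' (fun hh => hpq hh.symm)]
      omega
    have hsetA : A q = S \ (Sx ∪ Se) := by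
      ext d
      constructor
      · rintro ⟨hd, h1, h2, h3, h4⟩
        refine ⟨⟨hd, fun hM => h2 hM.2.1, h1⟩, ?_⟩
        rintro (hh | hh)
        exacts [h3 hh.1.2.2.2.symm, h4 hh.1.2.2.2.symm]
      · rintro ⟨hd, hn⟩
        have hda := hna d hd
        have hdq : d ∈ nbr D q := ⟨hd.1, fun eq => hd.2.1 (eq ▸ hq), hd.2.2.symm⟩
        have hne : d ≠ a := fun eq => hda (eq ▸ Commute.refl d)
        refine ⟨hd.1, hd.2.2, hda, fun hc => hn (Or.inl ⟨⟨hdq, hd.1, ?_, hc.symm⟩, hne⟩),
          fun hc => hn (Or.inr ⟨⟨hdq, hd.1, ?_, hc.symm⟩, hne⟩)⟩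
        · exact fun eq => hda (eq ▸ haL.2.1.symm)
        · exact fun eq => hda (eq ▸ haL.2.2.symm)
    have hdj : Disjoint Sx Se := by
      rw [Set.disjoint_left]
      rintro d hd1 hd2
      exact hna d (hin x hx hxq haL.2.1.symm hd1)
        (h.clique hx he ⟨hd1.1.1.1, hd1.1.2.2.2.symm, hd2.1.2.2.2.symm⟩ haL)
    rw [hsetA, Set.ncard_sdiff (Set.union_subset (hin x hx hxq haL.2.1.symm)
        (hin e he.1 heq haL.2.2.symm)) (Set.toFinite _),
      Set.ncard_union_eq hdj (Set.toFinite _) (Set.toFinite _), hS, hSx, hSe,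
      h.ncard_offline hp haL.1 hyA hq, hnum x hx hxq haL.2.1.symm,
      hnum e he.1 heq haL.2.2.symm]
  have hdj2 : Disjoint (A y) (A y') := by
    rw [Set.disjoint_left]
    rintro d hd1 hd2
    exact hd1.2.2.1 (h.mem_line haL.1 hyA hyM hy'M hyne hd1.1 hd1.2.1 hd2.2.1).2.1
  have hdj1 : Disjoint (ln D a y \ {a}) (A y ∪ A y') := by
    rw [Set.disjoint_left]
    rintro d hd (hh | hh) <;> exact hh.2.2.1 hd.1.2.1
  rw [cval, e1, e2, Set.ncard_singleton, Set.ncard_union_eq hdj1 (Set.toFinite _) (Set.toFinite _),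
    Set.ncard_union_eq hdj2 (Set.toFinite _) (Set.toFinite _),
    Set.ncard_sdiff_singleton_of_mem haM, hp.line a haL.1 y hyA,
    hcount y hyM hyA.2.1 hxy hey, hcount y' hy'M hy'A.2.1 hxy' hey']
  have hst : t + t ≤ s * t := by
    calc t + t = 2 * t := (two_mul t).symm
      _ ≤ s * t := Nat.mul_le_mul_right t hp.two_le
  push_cast [Nat.cast_sub hst, Nat.add_sub_cancel]
  ring

end IsGQ

end CfsgLib.FischerGQ
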