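import Mathlib
import Cfsg.Agent.FischerGQ.Four

/-!
The six feasible parameter pairs.
-/

set_option autoImplicit false
set_option linter.unusedSectionVars false
set_option linter.style.haveILetI false

namespace CfsgLib.FischerGQ

open Cfsg CfsgLib.ThreeTransp

theorem pow_three_sub_one_two {b i : ℕ} (h : 3 ^ b = 2 ^ i + 1) :
    (b = 1 ∧ i = 1) ∨ (b = 2 ∧ i = 3) := by
  rcases Nat.even_or_odd' b with ⟨c, rfl | rfl⟩
  · have h1 : 1 ≤ 3 ^ c := Nat.one_le_pow _ _ (by norm_num)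
    obtain ⟨u, hu⟩ : ∃ u, 3 ^ c = u + 1 := ⟨3 ^ c - 1, by omega⟩
    have hm : u * (u + 2) = 2 ^ i := by
      rw [two_mul, pow_add, hu] at h
      linarith
    obtain ⟨p, -, hp⟩ := (Nat.dvd_prime_pow Nat.prime_two).1 (hm ▸ dvd_mul_right u (u + 2))
    obtain ⟨q, -, hq⟩ := (Nat.dvd_prime_pow Nat.prime_two).1 (hm ▸ dvd_mul_left (u + 2) u)
    have hu2 : u = 2 := by
      by_contra hne
      have hp2 : 2 ≤ p := by
        by_contra hlt
        rcases p with - | p
        · norm_num at hp; subst hp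
          rcases q with - | q
          · norm_num at hq
          · rw [pow_succ] at hq; omega
        · have : p = 0 := by omega
          subst this; norm_num at hp; exact hne hp
      obtain ⟨p, rfl⟩ : ∃ p', p = p' + 2 := ⟨p - 2, by omega⟩
      have h4 : 1 ≤ 2 ^ p := Nat.one_le_pow _ _ (by norm_num)
      rw [pow_add] at hp
      rcases q with - | q
      · norm_num at hq; omega
      rcases q with - | q
      · norm_num at hq; omega
      · rw [pow_add, pow_one, pow_add, pow_one] at hq; omega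
    have hc : c = 1 := by
      refine Nat.pow_right_injective (le_refl 2 |>.trans (by norm_num)) (?_ : 3 ^ c = 3 ^ 1)
      rw [hu, hu2]; norm_num
    subst hc
    refine Or.inr ⟨rfl, ?_⟩
    refine Nat.pow_right_injective (le_refl 2) (?_ : 2 ^ i = 2 ^ 3)
    norm_num at h ⊢; omega
  · have h4 : 3 ^ (2 * c + 1) % 4 = 3 := by
      rw [pow_succ, pow_mul, Nat.mul_mod, Nat.pow_mod]
      norm_num
    rcases i with - | i
    · omega
    rcases i with - | i
    · refine Or.inl ⟨?_, rfl⟩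
      refine Nat.pow_right_injective (by norm_num : 2 ≤ 3) (?_ : 3 ^ (2 * c + 1) = 3 ^ 1)
      rw [h]; norm_num
    · rw [pow_add, pow_one, pow_add, pow_one] at h; omega

theorem pow_three_sub_one_five {b j : ℕ} (h : 3 ^ b = 5 * 2 ^ j + 1) : b = 4 ∧ j = 4 := by
  have h5 : 3 ^ b % 5 = 1 := by omega
  have hb : b % 4 = 0 := by
    have := Nat.pow_mod 3 b 5
    rw [← Nat.div_add_mod b 4, pow_add, pow_mul, Nat.mul_mod, Nat.pow_mod] at h5
    norm_num at h5
    have hlt : b % 4 < 4 := Nat.mod_lt _ (by norm_num)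
    interval_cases hv : b % 4 <;> simp_all
  obtain ⟨c, rfl⟩ := Nat.dvd_of_mod_eq_zero hb
  obtain ⟨u, hu⟩ : ∃ u, 3 ^ (2 * c) = u + 1 :=
    ⟨3 ^ (2 * c) - 1, by have := Nat.one_le_pow (2 * c) 3 (by norm_num); omega⟩
  have hm : u * (u + 2) = 5 * 2 ^ j := by
    rw [show 4 * c = 2 * c + 2 * c by ring, pow_add, hu] at h
    linarith
  have h4 : (u + 2) % 4 = 2 := by
    have : 3 ^ (2 * c) % 4 = 1 := by rw [pow_mul, Nat.pow_mod]; norm_num
    omega
  obtain ⟨v, hv⟩ : ∃ v, u + 2 = 2 * v ∧ v % 2 = 1 := ⟨(u + 2) / 2, by omega⟩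
  have hv5 : v ∣ 5 := by
    have hd : v ∣ 5 * 2 ^ j := ⟨u * 2, by rw [← hm, hv.1]; ring⟩
    exact ((Nat.Coprime.pow_right j (Nat.coprime_two_right.2 (Nat.odd_iff.2 hv.2))).dvd_of_dvd_mul_right hd)
  rcases (Nat.dvd_prime (by norm_num : Nat.Prime 5)).1 hv5 with rfl | rfl
  · have : u = 0 := by omega
    subst this
    norm_num at hm
  · have : u = 8 := by omega
    subst this
    refine ⟨?_, ?_⟩
    · have h2c : 2 * c = 2 :=
        Nat.pow_right_injective (by norm_num : 2 ≤ 3) (show 3 ^ (2 * c) = 3 ^ 2 by rw [hu])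
      omega
    · exact Nat.pow_right_injective (le_refl 2) (show 2 ^ j = 2 ^ 4 by norm_num at hm ⊢; omega)

theorem params_arith {s t j b : ℕ} (hs : s = 2 ^ j) (ht : t + 1 = 3 ^ b) (hs2 : 2 ≤ s)
    (hb : 1 ≤ b) (hdvd : s + t ∣ 6 * t) :
    (s = 2 ∧ t = 2) ∨ (s = 4 ∧ t = 2) ∨ (s = 4 ∧ t = 8) ∨ (s = 8 ∧ t = 8) ∨ (s = 16 ∧ t = 8) ∨
      (s = 16 ∧ t = 80) := by
  have ht2 : 2 ≤ t := by
    have := Nat.pow_le_pow_right (by norm_num : 0 < 3) hb
    omega
  obtain ⟨k, hk⟩ := hdvd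
  have hk6 : k < 6 := by
    by_contra hk6
    have : (s + t) * 6 ≤ (s + t) * k := Nat.mul_le_mul_left _ (not_lt.1 hk6)
    omega
  have hk0 : 1 ≤ k := by
    rcases Nat.eq_zero_or_pos k with rfl | hk0
    · omega
    · exact hk0
  have cases2 : ∀ i, t = 2 ^ i → t = 2 ∧ i = 1 ∨ t = 8 ∧ i = 3 := by
    intro i hi
    rcases pow_three_sub_one_two (b := b) (i := i) (by omega) with ⟨-, rfl⟩ | ⟨-, rfl⟩
    · exact Or.inl ⟨by omega, rfl⟩
    · exact Or.inr ⟨by omega, rfl⟩
  interval_cases k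
  · -- `s = 5 t`
    exfalso
    have h5 : 5 ∣ 2 ^ j := ⟨t, by omega⟩
    have := Nat.le_of_dvd (by norm_num) ((Nat.prime_dvd_prime_iff_eq (by norm_num) Nat.prime_two).1
      ((by norm_num : Nat.Prime 5).dvd_of_dvd_pow h5) ▸ dvd_refl 5 : 5 ∣ 2)
    omega
  · rcases j with - | j
    · norm_num at hs; omega
    rw [pow_succ] at hs
    rcases cases2 j (by omega) with ⟨rfl, -⟩ | ⟨rfl, -⟩
    · exact Or.inr (Or.inl ⟨by omega, rfl⟩)
    · exact Or.inr (Or.inr (Or.inr (Or.inr (Or.inl ⟨by omega, rfl⟩))))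
  · rcases cases2 j (by omega) with ⟨rfl, -⟩ | ⟨rfl, -⟩
    · exact Or.inl ⟨by omega, rfl⟩
    · exact Or.inr (Or.inr (Or.inr (Or.inl ⟨by omega, rfl⟩)))
  · rcases cases2 (j + 1) (by rw [pow_succ]; omega) with ⟨rfl, -⟩ | ⟨rfl, -⟩
    · exfalso; omega
    · exact Or.inr (Or.inr (Or.inl ⟨by omega, rfl⟩))
  · obtain ⟨-, rfl⟩ := pow_three_sub_one_five (b := b) (j := j) (by omega)
    exact Or.inr (Or.inr (Or.inr (Or.inr (Or.inr ⟨by omega, by omega⟩))))

variable {G : Type*} [Group G] {D : Set G}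

namespace IsGQ

variable [Finite G] (h : IsGQ D) {s t : ℕ} (hp : HasParams D s t)

include h hp

theorem dvd_six : s + t ∣ 6 * t := by
  obtain ⟨x, hx, z, hz, hxz⟩ := h.noncomm
  obtain ⟨e, he⟩ := h.nonempty x hx
  obtain ⟨e', he', hne⟩ : ∃ e' ∈ ln D x e, e' ∉ ({x, e} : Set G) := by
    refine Set.exists_mem_notMem_of_ncard_lt_ncard ?_ (Set.toFinite _)
    rw [Set.ncard_pair he.2.1.symm, hp.line x hx e he]
    have := hp.two_le; omega
  simp only [Set.mem_insert_iff, Set.mem_singleton_iff, not_or] at hne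
  obtain ⟨p, hp1⟩ := h.cval_dvd hp (x * z)
  obtain ⟨q, hq1⟩ := h.cval_dvd hp (x * (e * e'))
  rw [h.cval_three hp hx hz hxz] at hp1
  rw [h.cval_triple hp hx he he' hne.1 hne.2] at hq1
  have : ((s : ℤ) + t) ∣ 6 * (t : ℤ) :=
    ⟨3 * (p + t + 1) - 2 * (3 * t - q), by linear_combination 3 * hp1 + 2 * hq1⟩
  exact_mod_cast this

theorem pow_two_line : ∃ j, s = 2 ^ j := by
  classical
  haveI : Fact (Nat.Prime 2) := ⟨Nat.prime_two⟩
  obtain ⟨x, hx, z, hz, hxz⟩ := h.noncomm
  obtain ⟨x', hx'⟩ := h.nonempty x hx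
  obtain ⟨hxL, -⟩ := h.self_mem hx hx'
  set L := ln D x x' with hL
  have hzL : z ∉ L := fun hzL => hxz hzL.2.1.symm
  obtain ⟨a, haL, hza⟩ := h.exists_proj hx hx' hz
  have honly : ∀ e ∈ L, e ≠ a → ¬ Commute z e := fun e he hne hc =>
    hne (h.unique_proj hx hx' he haL hz hzL hc hza)
  set T := L \ {a} with hT
  have hxT : x ∈ T := ⟨hxL, fun eq => hxz (eq.symm ▸ hza).symm⟩
  set S := (fun e => x * e) '' T with hS
  set E := Subgroup.closure S with hE
  have hcl : ∀ p ∈ L, ∀ q ∈ L, Commute p q := fun p hp' q hq => h.clique hx hx' hp' hq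
  have hgen : ∀ u ∈ S, u * u = 1 ∧ ∀ v ∈ S, Commute u v := by
    rintro _ ⟨e, ⟨he, -⟩, rfl⟩
    refine ⟨?_, ?_⟩
    · show x * e * (x * e) = 1
      rw [(hcl x hxL e he).symm.mul_mul_mul_comm, h.mul_self hx, h.mul_self he.1, one_mul]
    · rintro _ ⟨f, ⟨hf, -⟩, rfl⟩
      exact (((hcl x hxL x hxL).mul_right (hcl x hxL f hf)).mul_left
        ((hcl e he x hxL).mul_right (hcl e he f hf)))
  have hcomm : ∀ v ∈ E, ∀ u ∈ E, Commute u v := fun v hv =>
    commute_closure_iff.2 fun q hq =>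
      ((commute_closure_iff.2 fun r hr => (hgen r hr).2 q hq) v hv).symm
  have hsq : ∀ u ∈ E, u * u = 1 := by
    intro u hu
    induction hu using Subgroup.closure_induction with
    | mem q hq => exact (hgen q hq).1
    | one => exact one_mul 1
    | mul u v hu hv iu iv => rw [(hcomm u hu v hv).mul_mul_mul_comm, iu, iv, one_mul]
    | inv u _ iu => rw [← mul_inv_rev, iu, inv_one]
  have hmemE : ∀ e ∈ T, x * e ∈ E := fun e he => Subgroup.subset_closure ⟨e, he, rfl⟩
  -- products of three points of the set are congruent to a fourth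
  have hfour : ∀ e ∈ T, ∀ f ∈ T, ∃ g ∈ T, Commute z ((x * e) * (x * f) * (x * g)) := by
    intro e he f hf
    have hxx := h.mul_self hx
    have hsimp : ∀ g ∈ T, (x * e) * (x * f) * (x * g) = g * (x * (e * f)) := by
      intro g hg
      have c1 : Commute e x := hcl e he.1 x hxL
      have c2 : Commute (e * f) x := (hcl e he.1 x hxL).mul_left (hcl f hf.1 x hxL)
      have c3 : Commute (x * (e * f)) g := (hcl x hxL g hg.1).mul_left
        ((hcl e he.1 g hg.1).mul_left (hcl f hf.1 g hg.1))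
      calc (x * e) * (x * f) * (x * g) = x * (e * x) * f * (x * g) := by simp only [mul_assoc]
        _ = x * (x * e) * f * (x * g) := by rw [c1.eq]
        _ = (e * f) * x * g := by simp only [mul_assoc, tt_cancel_left h.ttg.1 hx]
        _ = x * (e * f) * g := by rw [c2.eq]
        _ = _ := c3.eq
    by_cases hef : e = f
    · subst hef
      refine ⟨x, hxT, ?_⟩
      rw [hsimp x hxT, h.mul_self he.1.1, mul_one, hxx]
      exact Commute.one_right z
    by_cases hex : e = x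
    · subst hex
      refine ⟨f, hf, ?_⟩
      rw [hsimp f hf, tt_cancel_left h.ttg.1 hx, h.mul_self hf.1.1]
      exact Commute.one_right z
    by_cases hfx : f = x
    · subst hfx
      refine ⟨e, he, ?_⟩
      rw [hsimp e he, (hcl e he.1 f hf.1).eq, tt_cancel_left h.ttg.1 hx, h.mul_self he.1.1]
      exact Commute.one_right z
    have hen : e ∈ nbr D x := ⟨he.1.1, hex, hcl x hxL e he.1⟩
    have hLe : ln D x e = L := h.ln_eq hx hx' hxL he.1 (Ne.symm hex)
    have hzx : ¬ Commute z x := honly x hxL hxT.2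
    have hze : ¬ Commute z e := honly e he.1 he.2
    have hzf : ¬ Commute z f := honly f hf.1 hf.2
    obtain ⟨m1, -, -, -, m5⟩ := h.star_mem hx hen (hLe.symm ▸ hf.1 : f ∈ ln D x e) hfx
      (Ne.symm hef) hz hzx hze hzf
    set w := star4 z (x * (e * f)) with hw
    have hwT : w ∈ T := ⟨hLe ▸ m1, fun eq => m5 ((Set.mem_singleton_iff.1 eq).symm ▸ hza)⟩
    refine ⟨w, hwT, ?_⟩
    rw [hsimp w hwT]
    set u := x * (e * f) with hu
    have hu2 : u * u = 1 := by
      rw [hu, ((hcl x hxL e he.1).mul_right (hcl x hxL f hf.1)).symm.mul_mul_mul_comm,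
        (hcl e he.1 f hf.1).symm.mul_mul_mul_comm, hxx, h.mul_self he.1.1, h.mul_self hf.1.1,
        one_mul, one_mul]
    have h1 : z * w * z = u * z * u := by
      rw [hw, star4]
      simp only [mul_assoc, tt_cancel_left h.ttg.1 hz, h.mul_self hz, mul_one]
    show z * (w * u) = w * u * z
    calc z * (w * u) = (w * w) * z * w * u := by rw [h.mul_self m1.1, one_mul, mul_assoc]
      _ = w * (w * z * w) * u := by simp only [mul_assoc]
      _ = w * (u * z * u) * u := by rw [← h.braid hz m1.1 m5, h1]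
      _ = w * u * z := by simp only [mul_assoc, hu2, mul_one]
  have hcls : ∀ u ∈ E, ∃ e ∈ T, Commute z (u * (x * e)) := by
    intro u hu
    induction hu using Subgroup.closure_induction with
    | mem q hq =>
      obtain ⟨e, he, rfl⟩ := hq
      exact ⟨e, he, by rw [hsq _ (hmemE e he)]; exact Commute.one_right z⟩
    | one => exact ⟨x, hxT, by rw [one_mul, h.mul_self hx]; exact Commute.one_right z⟩
    | inv u hu iu => rwa [inv_eq_of_mul_eq_one_right (hsq u hu)]
    | mul u v hu hv iu iv =>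
      obtain ⟨e, he, hce⟩ := iu
      obtain ⟨f, hf, hcf⟩ := iv
      obtain ⟨g, hg, hcg⟩ := hfour e he f hf
      refine ⟨g, hg, ?_⟩
      have e0 : u * v * (x * g) = (u * (x * e)) * (v * (x * f)) * ((x * e) * (x * f) * (x * g)) := by
        have k2 := hcomm (x * e) (hmemE e he) (v * (x * f)) (E.mul_mem hv (hmemE f hf))
        calc u * v * (x * g) = u * (((x * e) * (x * e)) * (v * ((x * f) * (x * f)))) * (x * g) := by
              rw [hsq _ (hmemE e he), hsq _ (hmemE f hf), one_mul, mul_one]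
          _ = u * (x * e) * ((x * e) * (v * (x * f))) * ((x * f) * (x * g)) := by
              simp only [mul_assoc]
          _ = u * (x * e) * ((v * (x * f)) * (x * e)) * ((x * f) * (x * g)) := by rw [k2.eq]
          _ = _ := by simp only [mul_assoc]
      rw [e0]
      exact (hce.mul_right hcf).mul_right hcg
  set C := (Subgroup.centralizer ({z} : Set G)).subgroupOf E with hC
  have hmemC : ∀ p q : ↥E, (QuotientGroup.mk p : ↥E ⧸ C) = QuotientGroup.mk q ↔
      Commute z ((p : G) * q) := by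
    intro p q
    rw [QuotientGroup.eq, hC, Subgroup.mem_subgroupOf, Subgroup.mem_centralizer_singleton_iff,
      Subgroup.coe_mul, Subgroup.coe_inv, inv_eq_of_mul_eq_one_right (hsq p.1 p.2)]
    exact ⟨fun hh => hh.symm, fun hh => hh.symm⟩
  have hbij : Function.Bijective
      (fun e : ↥T => (QuotientGroup.mk ⟨x * e.1, hmemE e.1 e.2⟩ : ↥E ⧸ C)) := by
    constructor
    · rintro ⟨e, he⟩ ⟨f, hf⟩ hef
      rw [hmemC] at hef
      by_contra hne
      rw [show x * e * (x * f) = e * f by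
        rw [← (hcl x hxL e he.1).symm.eq, mul_assoc, tt_cancel_left h.ttg.1 hx]] at hef
      exact honly e he.1 he.2 (commute_of_commute_mul h.ttg.1 hz he.1.1 hf.1.1 (hcl e he.1 f hf.1)
        (fun eq => hne (Subtype.ext eq)) hef).1
    · intro q
      obtain ⟨u, rfl⟩ := QuotientGroup.mk_surjective q
      obtain ⟨e, he, hc⟩ := hcls u.1 u.2
      exact ⟨⟨e, he⟩, Eq.symm ((hmemC u ⟨x * e, hmemE e he⟩).2 hc)⟩
  have hidx : C.index = s := by
    rw [Subgroup.index, ← Nat.card_congr (Equiv.ofBijective _ hbij), Nat.card_coe_set_eq, hT,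
      Set.ncard_sdiff_singleton_of_mem haL, hp.line x hx x' hx']
    omega
  have hpg : IsPGroup 2 ↥E := fun u => ⟨1, Subtype.ext (by
    rw [pow_one, pow_two]; exact hsq u.1 u.2)⟩
  obtain ⟨n, hn⟩ := hpg.index C
  exact ⟨n, by rw [← hidx, hn]⟩

theorem params_list :
    (s = 2 ∧ t = 2) ∨ (s = 4 ∧ t = 2) ∨ (s = 4 ∧ t = 8) ∨ (s = 8 ∧ t = 8) ∨ (s = 16 ∧ t = 8) ∨
      (s = 16 ∧ t = 80) := by
  obtain ⟨j, hj⟩ := h.pow_two_line hp
  obtain ⟨b, hb, ht⟩ := hp.three
  exact params_arith hj ht hp.two_le hb (h.dvd_six hp)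

end IsGQ

end CfsgLib.FischerGQ
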