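import Mathlib
import Cfsg.Agent.FischerGQ.Params
import Cfsg.Agent.FischerGQ.Heis
import Cfsg.Agent.ThreeTransp.Sym4

/-!
Averaging over small subgroups: three of the six parameter pairs do not occur.
-/

set_option autoImplicit false
set_option linter.unusedSectionVars false
set_option linter.style.haveILetI false

namespace CfsgLib.FischerGQ

open Cfsg CfsgLib.ThreeTransp

/-- The type of a permutation of four points. -/
def symKind (σ : Equiv.Perm (Fin 4)) : Fin 5 :=
  if σ = 1 then 0 else if σ * σ = 1 then (if Equiv.Perm.sign σ = -1 then 1 else 2)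
  else if σ * σ * σ = 1 then 3 else 4

/-- A representative of each type. -/
def symRep : Fin 5 → Equiv.Perm (Fin 4) :=
  ![1, CfsgLib.TTSym4.sA, CfsgLib.TTSym4.sA * CfsgLib.TTSym4.sC,
    CfsgLib.TTSym4.sA * CfsgLib.TTSym4.sB,
    CfsgLib.TTSym4.sA * CfsgLib.TTSym4.sB * CfsgLib.TTSym4.sC]

set_option maxRecDepth 8000 in
theorem sym_conj : ∀ σ : Equiv.Perm (Fin 4),
    ∃ g : Equiv.Perm (Fin 4), σ = g * symRep (symKind σ) * g⁻¹ := by decide

theorem sym_fibres : ∀ j : Fin 5,
    (Finset.univ.filter fun σ : Equiv.Perm (Fin 4) => symKind σ = j).card =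
      ![1, 6, 3, 8, 6] j := by decide

variable {G : Type*} [Group G] {D : Set G}

theorem cval_inv (s t : ℕ) (u : G) :
    cval D s t u⁻¹ = cval D s t u := by
  have e : ∀ d, (u⁻¹ * d * u⁻¹⁻¹ = d ↔ u * d * u⁻¹ = d) := by
    intro d
    rw [inv_inv]
    constructor <;> intro h1
    · conv_lhs => rw [← h1]
      group
    · conv_lhs => rw [← h1]
      group
  have e1 : fixedMem D u⁻¹ = fixedMem D u := by
    ext d
    exact and_congr_right fun _ => e d
  have e2 : movedMem D u⁻¹ = movedMem D u := by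
    ext d
    refine and_congr_right fun _ => and_congr (not_congr (e d)) ?_
    rw [← commute_conj_iff' (g := u),
      show u * (u⁻¹ * d * u⁻¹⁻¹) * u⁻¹ = d by group]
    exact ⟨fun hh => hh.symm, fun hh => hh.symm⟩
  rw [cval, cval, e1, e2]

namespace IsGQ

variable [Finite G] (h : IsGQ D) {s t : ℕ} (hp : HasParams D s t)

include h hp

/-- The congruence from a symmetric group of degree four. -/
theorem sym_congr :
    ((s : ℤ) + t) * 24 ∣ ((t : ℤ) + 1) * (s + 1) * (s * t) + 6 * ((s : ℤ) * t * (t + 1))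
      + 3 * ((s : ℤ) * t * (s - 1)) + 8 * (((t : ℤ) + 1) * ((t : ℤ) - s))
      + 6 * ((s : ℤ) * t - 4 * t) := by
  classical
  obtain ⟨x, hx, z, hz, hxz⟩ := h.noncomm
  obtain ⟨e, he, hne⟩ : ∃ e ∈ nbr D x, e ∉ nbr D x ∩ nbr D z := by
    refine Set.exists_mem_notMem_of_ncard_lt_ncard ?_ (Set.toFinite _)
    rw [hp.common x hx z hz hxz, hp.deg x hx]
    have h2 := hp.two_le
    nlinarith
  have hze : ¬ Commute z e :=
    fun hc => hne ⟨he, he.1, fun eq => hxz (eq ▸ he.2.2), hc⟩
  obtain ⟨φ, -, hA, hB, hC⟩ := CfsgLib.TTSym4.exists_injective_hom h.ttg.1 hx hz he.1 he.2.1.symm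
    he.2.2 hxz hze
  have h1 := h.cval_sum_dvd hp (fun i j : Equiv.Perm (Fin 4) => i * j) φ
    (fun i => Group.mulLeft_bijective i) (fun i j => map_mul φ i j)
  rw [Fintype.card_perm, Fintype.card_fin] at h1
  let v : Fin 5 → ℤ := ![((t : ℤ) + 1) * (s + 1) * (s * t), (s : ℤ) * t * (t + 1),
    (s : ℤ) * t * (s - 1), ((t : ℤ) + 1) * ((t : ℤ) - s), (s : ℤ) * t - 4 * t]
  have hv : ∀ σ, cval D s t (φ σ) = v (symKind σ) := by
    intro σ
    obtain ⟨g, hg⟩ := sym_conj σ
    conv_lhs => rw [hg]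
    rw [map_mul, map_mul, map_inv, cval_conj h.ttg]
    generalize symKind σ = j
    fin_cases j <;> simp only [symRep, v, Fin.zero_eta, Fin.mk_one, Fin.reduceFinMk,
      Matrix.cons_val_zero, Matrix.cons_val_one, Matrix.cons_val, map_mul, map_one, hA, hB, hC]
    · exact h.cval_one hp
    · exact h.cval_mem hp hx
    · exact h.cval_pair hp hx he
    · exact h.cval_three hp hx hz hxz
    · exact h.cval_four hp hx hz he (fun hc => hxz hc.symm) hze
  simp only [hv] at h1
  rw [← Finset.sum_fiberwise' Finset.univ symKind v] at h1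
  simp only [Finset.sum_const, sym_fibres, Fin.sum_univ_five] at h1
  simp only [v, Matrix.cons_val_zero, Matrix.cons_val_one, Matrix.cons_val, one_smul,
    nsmul_eq_mul, Nat.cast_ofNat, Nat.factorial] at h1
  norm_num at h1
  exact h1

theorem not_eight_eight : ¬ (s = 8 ∧ t = 8) := by
  rintro ⟨rfl, rfl⟩
  have h1 := h.sym_congr hp
  norm_num at h1

theorem not_sixteen_eighty : ¬ (s = 16 ∧ t = 80) := by
  rintro ⟨rfl, rfl⟩
  have h1 := h.sym_congr hp
  norm_num at h1

end IsGQ

end CfsgLib.FischerGQ
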