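import Mathlib
import Cfsg.Agent.FischerGQ.Data
import Cfsg.Agent.FischerGQ.Cert.Six.Upper
import Cfsg.Agent.FischerGQ.Cert.Four.Upper
import Cfsg.Agent.FischerGQ.Cert.FiveA.Upper
import Cfsg.Agent.FischerGQ.Cert.FiveB.Upper
import Cfsg.Agent.FischerGQ.Cert.FiveC.Upper

/-!
Bounds from the coset enumerations and homomorphisms out of a group with relators.
-/

set_option autoImplicit false
set_option maxRecDepth 100000

namespace CfsgLib.FischerGQ

open CfsgLib.CosetEnum

/-- The subgroup generated by the first letters. -/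
def letters {K : Type*} [Group K] (k : ℕ → K) (L : ℕ) : Subgroup K :=
  Subgroup.closure {a | ∃ x < L, k x = a}

theorem letters_mono {K : Type*} [Group K] (k : ℕ → K) {L L' : ℕ} (h : L ≤ L') :
    letters k L ≤ letters k L' :=
  Subgroup.closure_mono (by rintro _ ⟨x, hx, rfl⟩; exact ⟨x, lt_of_lt_of_le hx h, rfl⟩)

theorem gword_prod {A B : Type*} [Group A] [Group B] (a : ℕ → A) (b : ℕ → B) :
    ∀ w : List ℕ, gword (fun x => (a x, b x)) w = (gword a w, gword b w)
  | [] => rfl
  | x :: w => by rw [gword_cons, gword_cons, gword_cons, gword_prod a b w]; rfl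

section Bounds

variable {K : Type*} [Group K] (k : ℕ → K) (hk : ∀ x, k x * k x = 1)

include hk

theorem gword_reverse_one {w : List ℕ} (h : gword k w.reverse = 1) : gword k w = 1 := by
  have h1 := gword_inverse k (fun x => x)
    (fun x => (inv_eq_of_mul_eq_one_right (hk x)).symm) w
  rw [List.map_id', h] at h1
  exact inv_eq_one.1 h1.symm

/-- An index bound from a certificate. -/
theorem relIndex_letters_le {C : CertData} {N : ℕ}
    (hN : FactsChecked C.ep C.iv C.words C.nr N) (hn : 0 < C.n) (h0 : C.node 0 = 0)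
    (hrow : ∀ i < C.n, checkRow C.ep C.iv N C.L C.node C.T C.tf C.n i = true)
    (hiv : C.iv = fun x => x) {rels : List (List ℕ)}
    (hr : ∀ w ∈ rels, gword k w = 1)
    (hw : ∀ w ∈ C.words.take C.nr, w ∈ rels ∨ w.reverse ∈ rels)
    (H : Subgroup K) (hs : ∀ w ∈ C.words.drop C.nr, gword k w ∈ H) :
    H.relIndex (letters k C.L) ≤ C.n ∧ H.relIndex (letters k C.L) ≠ 0 := by
  have hrel : ∀ w ∈ C.words.take C.nr, gword k w = 1 := fun w hw' =>
    (hw w hw').elim (hr w) fun h => gword_reverse_one k hk (hr _ h)
  refine relIndex_le hN hn h0 hrow H k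
    (fun x => by rw [hiv]; exact (inv_eq_of_mul_eq_one_right (hk x)).symm) ?_ ?_
  · intro i w hi hlt
    refine hrel w ?_
    exact List.mem_of_getElem? (i := i) (by rw [List.getElem?_take, if_pos hlt, hi])
  · intro i w hi
    by_cases hlt : i < C.nr
    · rw [hrel w (List.mem_of_getElem? (i := i) (by rw [List.getElem?_take, if_pos hlt, hi]))]
      exact H.one_mem
    · refine hs w (List.mem_of_getElem? (i := i - C.nr) ?_)
      rw [List.getElem?_drop, Nat.add_sub_cancel' (not_lt.1 hlt), hi]

theorem card_letters_six (hr : ∀ w ∈ Data.rels6, gword k w = 1) :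
    Nat.card ↥(letters k 5) ≤ 720 := by
  have h := relIndex_letters_le k hk Cert.Six.facts Cert.Six.n_pos Cert.Six.node_zero
    Cert.Six.rows rfl hr (by decide +kernel) ⊥
    (fun w hw => by
      have e : Cert.Six.cert.words.drop Cert.Six.cert.nr = [] := by decide +kernel
      rw [e] at hw; simp at hw)
  rw [Subgroup.relIndex_bot_left] at h
  exact h.1

theorem card_letters_four [Finite K] (h6 : ∀ w ∈ Data.rels6, gword k w = 1)
    (hr : ∀ w ∈ Data.rels4, gword k w = 1) : Nat.card ↥(letters k 6) ≤ 25920 := by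
  have h := relIndex_letters_le k hk Cert.Four.facts Cert.Four.n_pos Cert.Four.node_zero
    Cert.Four.rows rfl hr (by decide +kernel) (letters k 5)
    (fun w hw => by
      have e : ∀ w ∈ Cert.Four.cert.words.drop Cert.Four.cert.nr, ∃ x ∈ List.range 5, w = [x] := by
        decide +kernel
      obtain ⟨x, hx, rfl⟩ := e w hw
      rw [gword_cons, gword_nil, mul_one]
      exact Subgroup.subset_closure ⟨x, List.mem_range.1 hx, rfl⟩)
  have h5 := card_letters_six k hk h6
  have e := Subgroup.relIndex_mul_relIndex ⊥ (letters k 5) (letters k 6) bot_le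
    (letters_mono k (by norm_num))
  rw [Subgroup.relIndex_bot_left, Subgroup.relIndex_bot_left] at e
  rw [← e]
  calc Nat.card ↥(letters k 5) * (letters k 5).relIndex (letters k 6) ≤ 720 * 36 :=
        Nat.mul_le_mul h5 h.1
    _ = 25920 := by norm_num

theorem card_letters_five [Finite K] (h6 : ∀ w ∈ Data.rels6, gword k w = 1)
    (h4 : ∀ w ∈ Data.rels4, gword k w = 1)
    (hr : ∀ w ∈ Data.rels4 ++ Data.relsPat ++ [Data.eqs5.getD 1 []], gword k w = 1) :
    Nat.card ↥(letters k 7) ≤ 13685760 := by
  have h := relIndex_letters_le k hk Cert.FiveB.facts Cert.FiveB.n_pos Cert.FiveB.node_zero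
    Cert.FiveB.rows rfl hr (by decide +kernel) (letters k 6)
    (fun w hw => by
      have e : ∀ w ∈ Cert.FiveB.cert.words.drop Cert.FiveB.cert.nr, ∃ x ∈ List.range 6, w = [x] := by
        decide +kernel
      obtain ⟨x, hx, rfl⟩ := e w hw
      rw [gword_cons, gword_nil, mul_one]
      exact Subgroup.subset_closure ⟨x, List.mem_range.1 hx, rfl⟩)
  have h5 := card_letters_four k hk h6 h4
  have e := Subgroup.relIndex_mul_relIndex ⊥ (letters k 6) (letters k 7) bot_le
    (letters_mono k (by norm_num))
  rw [Subgroup.relIndex_bot_left, Subgroup.relIndex_bot_left] at e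
  rw [← e]
  calc Nat.card ↥(letters k 6) * (letters k 6).relIndex (letters k 7) ≤ 25920 * 528 :=
        Nat.mul_le_mul h5 h.1
    _ = 13685760 := by norm_num

/-- The two other equations put the seventh letter in the group of the first six. -/
theorem seventh_mem (j : ℕ) (hj : j = 0 ∨ j = 2)
    (hr : ∀ w ∈ Data.rels4 ++ Data.relsPat ++ [Data.eqs5.getD j []], gword k w = 1) :
    k 6 ∈ letters k 6 := by
  rcases hj with rfl | rfl
  · have h := relIndex_letters_le k hk Cert.FiveA.facts Cert.FiveA.n_pos Cert.FiveA.node_zero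
      Cert.FiveA.rows rfl hr (by decide +kernel) (letters k 6)
      (fun w hw => by
        have e : ∀ w ∈ Cert.FiveA.cert.words.drop Cert.FiveA.cert.nr, ∃ x ∈ List.range 6, w = [x] := by
          decide +kernel
        obtain ⟨x, hx, rfl⟩ := e w hw
        rw [gword_cons, gword_nil, mul_one]
        exact Subgroup.subset_closure ⟨x, List.mem_range.1 hx, rfl⟩)
    have h1 : (letters k 6).relIndex (letters k 7) = 1 :=
      le_antisymm h.1 (Nat.one_le_iff_ne_zero.2 h.2)
    exact Subgroup.relIndex_eq_one.1 h1 (Subgroup.subset_closure ⟨6, by norm_num, rfl⟩)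
  · have h := relIndex_letters_le k hk Cert.FiveC.facts Cert.FiveC.n_pos Cert.FiveC.node_zero
      Cert.FiveC.rows rfl hr (by decide +kernel) (letters k 6)
      (fun w hw => by
        have e : ∀ w ∈ Cert.FiveC.cert.words.drop Cert.FiveC.cert.nr, ∃ x ∈ List.range 6, w = [x] := by
          decide +kernel
        obtain ⟨x, hx, rfl⟩ := e w hw
        rw [gword_cons, gword_nil, mul_one]
        exact Subgroup.subset_closure ⟨x, List.mem_range.1 hx, rfl⟩)
    have h1 : (letters k 6).relIndex (letters k 7) = 1 :=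
      le_antisymm h.1 (Nat.one_le_iff_ne_zero.2 h.2)
    exact Subgroup.relIndex_eq_one.1 h1 (Subgroup.subset_closure ⟨6, by norm_num, rfl⟩)

end Bounds

/-- A group generated by letters maps to every group with letters satisfying its relators, when the
pairs of letters generate no more than its order. -/
theorem exists_hom_of_bound {P G : Type*} [Group P] [Group G] [Finite P] [Finite G] (p : ℕ → P)
    (g : ℕ → G) {L : ℕ} (hgen : letters p L = ⊤)
    (hb : Nat.card ↥(letters (fun x => (p x, g x)) L) ≤ Nat.card P) :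
    ∃ φ : P →* G, ∀ x < L, φ (p x) = g x := by
  set S := letters (fun x => (p x, g x)) L with hS
  set π : ↥S →* P := (MonoidHom.fst P G).comp S.subtype with hπ
  have hsur : Function.Surjective π := by
    intro q
    have hle : letters p L ≤ S.map (MonoidHom.fst P G) := by
      rw [letters, Subgroup.closure_le]
      rintro _ ⟨x, hx, rfl⟩
      exact ⟨(p x, g x), Subgroup.subset_closure ⟨x, hx, rfl⟩, rfl⟩
    obtain ⟨u, hu, rfl⟩ := hle (hgen ▸ Subgroup.mem_top q)
    exact ⟨⟨u, hu⟩, rfl⟩
  have hbij : Function.Bijective π :=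
    hsur.bijective_of_nat_card_le hb
  let e := MulEquiv.ofBijective π hbij
  refine ⟨((MonoidHom.snd P G).comp S.subtype).comp e.symm.toMonoidHom, fun x hx => ?_⟩
  have hm : ((p x, g x) : P × G) ∈ S := Subgroup.subset_closure ⟨x, hx, rfl⟩
  have : e.symm (p x) = ⟨(p x, g x), hm⟩ := by
    rw [MulEquiv.symm_apply_eq]; rfl
  simp [this]

end CfsgLib.FischerGQ
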