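import Mathlib
import Cfsg.Agent.FischerGQ.Lines
import Cfsg.Agent.FischerGQ.Bridge
import Cfsg.Agent.FischerGQ.Hom

/-!
The quadrangles of orders (2,2) and (4,2): naming the groups.
-/

set_option autoImplicit false
set_option linter.unusedSectionVars false
set_option linter.style.haveILetI false
set_option maxRecDepth 100000

namespace CfsgLib.FischerGQ

open Cfsg CfsgLib.ThreeTransp CfsgLib.Unitary
open CfsgLib.CosetEnum (gword gword_cons gword_nil gword_map gword_congr)

/-- The letters in `S_6`. -/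
def p6 (x : ℕ) : Equiv.Perm (Fin 6) :=
  [Equiv.swap 0 1, Equiv.swap 1 2, Equiv.swap 2 3, Equiv.swap 3 4, Equiv.swap 4 5].getD x 1

theorem rels6_hold : ∀ w ∈ Data.rels6, gword p6 w = 1 := by decide +kernel

theorem closure_p6 : letters p6 5 = ⊤ := by
  rw [eq_top_iff]
  intro u _
  have h : u ∈ Submonoid.closure (Set.range fun i : Fin 5 ↦ Equiv.swap i.castSucc i.succ) := by
    rw [Equiv.Perm.mclosure_swap_castSucc_succ]; trivial
  refine (Submonoid.closure_le (S := (letters p6 5).toSubmonoid)).2 ?_ h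
  rintro _ ⟨i, rfl⟩
  exact Subgroup.subset_closure ⟨i, i.2, by fin_cases i <;> decide⟩

theorem perm_six_injective {H : Type*} [Group H] (φ : Equiv.Perm (Fin 6) →* H)
    (hne : φ (Equiv.swap 0 1 * Equiv.swap 1 2) ≠ 1) : Function.Injective φ := by
  classical
  haveI : IsSimpleGroup ↥(alternatingGroup (Fin 6)) := alternatingGroup.isSimpleGroup (by simp)
  rw [← MonoidHom.ker_eq_bot_iff]
  rcases Subgroup.Normal.eq_bot_or_eq_top
      (inferInstance : (φ.ker.subgroupOf (alternatingGroup (Fin 6))).Normal) with h | h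
  · rw [eq_bot_iff]
    intro k hk
    have hz : ∀ g : Equiv.Perm (Fin 6), g * k = k * g := by
      intro g
      have h1 : g * k * g⁻¹ * k⁻¹ ∈ φ.ker :=
        mul_mem (φ.normal_ker.conj_mem k hk g) (inv_mem hk)
      have h2 : g * k * g⁻¹ * k⁻¹ ∈ alternatingGroup (Fin 6) := by
        rw [Equiv.Perm.mem_alternatingGroup]
        simp only [map_mul, map_inv]
        rw [mul_comm (Equiv.Perm.sign g) (Equiv.Perm.sign k), mul_inv_cancel_right, mul_inv_cancel]
      have h3 : (⟨_, h2⟩ : ↥(alternatingGroup (Fin 6))) ∈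
          φ.ker.subgroupOf (alternatingGroup (Fin 6)) := h1
      rw [h, Subgroup.mem_bot] at h3
      have h4 : g * k * g⁻¹ * k⁻¹ = 1 := congrArg Subtype.val h3
      exact mul_inv_eq_iff_eq_mul.1 (mul_inv_eq_one.1 h4)
    have hc : k ∈ Subgroup.center (Equiv.Perm (Fin 6)) := Subgroup.mem_center_iff.2 hz
    rw [Subgroup.mem_bot]
    by_contra hk1
    obtain ⟨i, hi⟩ : ∃ i, k i ≠ i := by
      by_contra hall
      push Not at hall
      exact hk1 (Equiv.ext hall)
    obtain ⟨l, hl1, hl2⟩ : ∃ l, l ≠ i ∧ l ≠ k i := by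
      obtain ⟨l, -, hl⟩ := Finset.exists_mem_notMem_of_card_lt_card (s := ({i, k i} : Finset (Fin 6)))
        (t := Finset.univ) (Finset.card_le_two.trans_lt (by simp))
      simp only [Finset.mem_insert, Finset.mem_singleton, not_or] at hl
      exact ⟨l, hl.1, hl.2⟩
    have h5 := congrFun (congrArg DFunLike.coe (hz (Equiv.swap (k i) l))) i
    simp only [Equiv.Perm.mul_apply, Equiv.swap_apply_left] at h5
    rw [Equiv.swap_apply_of_ne_of_ne (Ne.symm hi) hl1.symm] at h5
    exact hl2 h5
  · exfalso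
    apply hne
    rw [Subgroup.subgroupOf_eq_top] at h
    refine h ?_
    rw [Equiv.Perm.mem_alternatingGroup]
    simp

theorem relsPat_eq : Data.relsPat = [6, 6] :: (List.range 45).map (fun p =>
    (List.replicate (bif Data.ovoid.contains p then 2 else 3) ([6] ++ W45 p)).flatten) := by
  decide +kernel

variable {G : Type*} [Group G] {D : Set G}

theorem gword_letters_mem {K : Type*} [Group K] (k : ℕ → K) {L : ℕ} {w : List ℕ}
    (hw : ∀ x ∈ w, x < L) : gword k w ∈ letters k L := by
  refine Subgroup.list_prod_mem _ fun y hy => ?_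
  obtain ⟨x, hx, rfl⟩ := List.mem_map.1 hy
  exact Subgroup.subset_closure ⟨x, hw x hx, rfl⟩

namespace IsGQ

variable [Finite G] (h : IsGQ D)

include h

theorem rel_two (g : ℕ → G) {i j : ℕ} (hi : g i ∈ D) (hj : g j ∈ D) (hc : Commute (g i) (g j)) :
    gword g [i, j, i, j] = 1 := by
  simp only [gword_cons, gword_nil, mul_one]
  rw [← mul_assoc, hc.symm.mul_mul_mul_comm, h.mul_self hi, h.mul_self hj, one_mul]

theorem rel_three (g : ℕ → G) {i j : ℕ} (hi : g i ∈ D) (hj : g j ∈ D) (hc : ¬ Commute (g i) (g j)) :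
    gword g [i, j, i, j, i, j] = 1 := by
  simp only [gword_cons, gword_nil, mul_one]
  calc g i * (g j * (g i * (g j * (g i * g j))))
      = (g i * g j * g i) * (g j * g i * g j) := by simp only [mul_assoc]
    _ = (g j * g i * g j) * (g j * g i * g j) := by rw [h.braid hi hj hc]
    _ = 1 := by
      simp only [mul_assoc, tt_cancel_left h.ttg.1 hi, tt_cancel_left h.ttg.1 hj, h.mul_self hj]

theorem letter_sq (g : ℕ → G) {x : ℕ} (hx : g x ∈ D ∨ g x = 1) : g x * g x = 1 :=
  hx.elim h.mul_self fun h1 => by rw [h1, one_mul]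

/-- A hom whose range contains as many members as there are is onto. -/
theorem surjective_of_members {P : Type*} [Group P] (φ : P →* G) (T : Set P)
    (hT : ∀ u ∈ T, φ u ∈ D) (hinj : Function.Injective φ) (hcard : D.ncard ≤ T.ncard) :
    Function.Surjective φ := by
  have hD : φ '' T = D := Set.eq_of_subset_of_ncard_le (by rintro _ ⟨u, hu, rfl⟩; exact hT u hu)
    (by rwa [Set.ncard_image_of_injective _ hinj]) (Set.toFinite _)
  intro q
  have h1 : Subgroup.closure D ≤ φ.range := by
    rw [Subgroup.closure_le, ← hD]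
    rintro _ ⟨u, -, rfl⟩
    exact ⟨u, rfl⟩
  rw [h.ttg.2.2] at h1
  exact h1 (Subgroup.mem_top q)

variable {s t : ℕ} (hp : HasParams D s t)

include hp

/-- The five members forming a path of letters. -/
theorem exists_path : ∃ x z b a d : G, x ∈ D ∧ z ∈ D ∧ b ∈ D ∧ a ∈ D ∧ d ∈ D ∧
    ¬ Commute x z ∧ Commute x b ∧ x ≠ b ∧ Commute x a ∧ x ≠ a ∧ Commute x d ∧ x ≠ d ∧
    ¬ Commute z b ∧ Commute z a ∧ Commute z d ∧ ¬ Commute b a ∧ Commute b d ∧ b ≠ d ∧
    ¬ Commute a d := by
  obtain ⟨x, hx, z, hz, hxz⟩ := h.noncomm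
  obtain ⟨k, hk, hk3⟩ := hp.three
  have h3 : 3 ≤ (nbr D x ∩ nbr D z).ncard := by
    rw [hp.common x hx z hz hxz, hk3]
    exact Nat.le_self_pow (by omega) 3
  obtain ⟨a, ha, d, hd, had⟩ := (Set.one_lt_ncard (Set.toFinite _)).1
    (show 1 < (nbr D x ∩ nbr D z).ncard by omega)
  have hnad : ¬ Commute a d := by
    intro hc
    have hda : d ∈ nbr D a := ⟨hd.1.1, had.symm, hc⟩
    exact hxz (h.clique ha.1.1 hda ⟨hx, ha.1.2.2, hd.1.2.2⟩ ⟨hz, ha.2.2.2, hd.2.2.2⟩)
  obtain ⟨hins, hnot⟩ := h.ln_insert hx hd.1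
  obtain ⟨b, hb, hbd⟩ : ∃ b ∈ blk D x d, b ∉ ({d} : Set G) := by
    refine Set.exists_mem_notMem_of_ncard_lt_ncard ?_ (Set.toFinite _)
    have := hp.line x hx d hd.1
    rw [hins, Set.ncard_insert_of_notMem hnot] at this
    have h2 := hp.two_le
    rw [Set.ncard_singleton]
    omega
  rw [Set.mem_singleton_iff] at hbd
  have hbL : b ∈ ln D x d := by rw [hins]; exact Or.inr hb
  refine ⟨x, z, b, a, d, hx, hz, hb.1.1, ha.1.1, hd.1.1, hxz, hb.1.2.2, hb.1.2.1.symm, ha.1.2.2,
    ha.1.2.1.symm, hd.1.2.2, hd.1.2.1.symm, ?_, ha.2.2.2, hd.2.2.2, ?_, hb.2, hbd, hnad⟩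
  · intro hc
    exact hbd (h.unique_proj hx hd.1 hbL (h.self_mem hx hd.1).2 hz
      (fun hh => hxz hh.2.1.symm) hc hd.2.2.2)
  · intro hc
    exact hnad (h.trans x hx b hb.1 d hd.1 a ha.1 hb.2 hc.symm)

theorem exists_iso_six (hs : s = 2) (ht : t = 2) : Nonempty (G ≃* Equiv.Perm (Fin 6)) := by
  subst hs ht
  obtain ⟨x, z, b, a, d, hx, hz, hb, ha, hd, xz, xb, -, xa, -, xd, -, zb, za, zd, ba, bd, -, ad⟩ :=
    h.exists_path hp
  set g : ℕ → G := fun i => [x, z, b, a, d].getD i 1 with hg
  have hsq : ∀ i, g i * g i = 1 := fun i => by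
    match i with
    | 0 => exact h.mul_self hx
    | 1 => exact h.mul_self hz
    | 2 => exact h.mul_self hb
    | 3 => exact h.mul_self ha
    | 4 => exact h.mul_self hd
    | _ + 5 => exact one_mul 1
  have hrel : ∀ w ∈ Data.rels6, gword g w = 1 := by
    simp only [Data.rels6, List.forall_mem_cons, List.not_mem_nil, false_imp_iff, implies_true,
      and_true]
    refine ⟨?_, ?_, ?_, ?_, ?_, h.rel_three g hx hz xz, h.rel_two g hx hb xb, h.rel_two g hx ha xa,
      h.rel_two g hx hd xd, h.rel_three g hz hb zb, h.rel_two g hz ha za, h.rel_two g hz hd zd,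
      h.rel_three g hb ha ba, h.rel_two g hb hd bd, h.rel_three g ha hd ad⟩
    all_goals simp only [gword_cons, gword_nil, mul_one, hsq]
  have hP : ∀ i, p6 i * p6 i = 1 := fun i => by
    by_cases hi : i < 5
    · revert i; decide
    · rw [p6, List.getD_eq_default _ _ (by simpa using hi), one_mul]
  obtain ⟨φ, hφ⟩ := exists_hom_of_bound p6 g (L := 5) closure_p6 (by
    refine (card_letters_six (fun i => (p6 i, g i)) (fun i => Prod.ext (hP i) (hsq i))
      (fun w hw => by rw [gword_prod, rels6_hold w hw, hrel w hw]; rfl)).trans ?_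
    rw [Nat.card_eq_fintype_card, Fintype.card_perm, Fintype.card_fin]
    rfl)
  have hinj : Function.Injective φ := by
    refine perm_six_injective φ ?_
    rw [map_mul, show Equiv.swap (0 : Fin 6) 1 = p6 0 from rfl,
      show Equiv.swap (1 : Fin 6) 2 = p6 1 from rfl, hφ 0 (by norm_num), hφ 1 (by norm_num)]
    intro h1
    apply xz
    rw [show z = x⁻¹ from eq_inv_of_mul_eq_one_right h1]
    exact (Commute.refl x).inv_right
  have hsur := h.surjective_of_members φ {u : Equiv.Perm (Fin 6) | u.IsSwap} ?_ hinj ?_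
  · exact ⟨(MulEquiv.ofBijective φ ⟨hinj, hsur⟩).symm⟩
  · rintro _ ⟨i, j, hij, rfl⟩
    obtain ⟨c, hc⟩ := isConj_iff.1 (Equiv.Perm.isConj_swap (show (0 : Fin 6) ≠ 1 by decide) hij)
    rw [← hc, map_mul, map_mul, map_inv, show Equiv.swap (0 : Fin 6) 1 = p6 0 from rfl,
      hφ 0 (by norm_num)]
    exact h.ttg.2.1 _ _ hx
  · rw [hp.total]
    have e : {u : Equiv.Perm (Fin 6) | u.IsSwap} =
        ↑(((Finset.univ : Finset (Fin 6 × Fin 6)).filter fun q => q.1 < q.2).image
          fun q => Equiv.swap q.1 q.2) := by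
      ext u
      simp only [Set.mem_ofPred_eq, Finset.coe_image, Finset.coe_filter, Finset.mem_univ, true_and,
        Set.mem_image, Prod.exists]
      constructor
      · rintro ⟨i, j, hij, rfl⟩
        rcases lt_or_gt_of_ne hij with hl | hl
        · exact ⟨i, j, hl, rfl⟩
        · exact ⟨j, i, hl, Equiv.swap_comm j i⟩
      · rintro ⟨i, j, hl, rfl⟩
        exact ⟨i, j, ne_of_lt hl, rfl⟩
    rw [e, Set.ncard_coe_finset]
    decide +kernel

omit hp in
theorem star_self {x e z w : G} (hz : z ∈ D) (hw : w ∈ D)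
    (hwz : ¬ Commute z w) (hu : (x * e) * (x * e) = 1) (hstar : star4 z (x * e) = w) :
    Commute z (w * (x * e)) := by
  have h1 : z * w * z = x * e * z * (x * e) := by
    rw [← hstar, star4]
    simp only [mul_assoc, tt_cancel_left h.ttg.1 hz, h.mul_self hz, mul_one]
  show z * (w * (x * e)) = w * (x * e) * z
  calc z * (w * (x * e)) = (w * w) * z * w * (x * e) := by
        rw [h.mul_self hw, one_mul, mul_assoc]
    _ = w * (w * z * w) * (x * e) := by simp only [mul_assoc]
    _ = w * (x * e * z * (x * e)) * (x * e) := by rw [← h.braid hz hw hwz, h1]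
    _ = w * (x * e * z) * ((x * e) * (x * e)) := by simp only [mul_assoc]
    _ = w * (x * e) * z := by rw [hu, mul_one]; simp only [mul_assoc]

/-- The product of the five points of a line is trivial. -/
theorem line_prod (hs : s = 4) {p q : G} (hpD : p ∈ D) (hq : q ∈ nbr D p) {S : Finset G}
    (hS : (S : Set G) = ln D p q) :
    ∀ c1 c2 c3 c4 c5 : G, [c1, c2, c3, c4, c5].Nodup → (∀ c ∈ [c1, c2, c3, c4, c5], c ∈ ln D p q) →
      c1 * (c2 * (c3 * (c4 * c5))) = 1 := by
  classical
  intro c1 c2 c3 c4 c5 hnd hmem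
  set cs := [c1, c2, c3, c4, c5] with hcs
  have hcl : ∀ a ∈ ln D p q, ∀ b ∈ ln D p q, Commute a b := fun a ha b hb => h.clique hpD hq ha hb
  have hall : ∀ e ∈ ln D p q, e ∈ cs := by
    intro e he
    have hsub : cs.toFinset ⊆ S := by
      intro c hc
      rw [← Finset.mem_coe, hS]
      exact hmem c (List.mem_toFinset.1 hc)
    have hcard : S.card ≤ cs.toFinset.card := by
      rw [List.toFinset_card_of_nodup hnd, ← Set.ncard_coe_finset, hS, hp.line p hpD q hq, hs]
      rfl
    have h1 := Finset.eq_of_subset_of_card_le hsub hcard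
    refine List.mem_toFinset.1 ?_
    rw [h1, ← Finset.mem_coe, hS]; exact he
  refine h.central _ fun z hz => ?_
  by_cases hzL : z ∈ ln D p q
  · exact ((((hcl z hzL c1 (hmem c1 (by simp [hcs]))).mul_right
      ((hcl z hzL c2 (hmem c2 (by simp [hcs]))).mul_right
      ((hcl z hzL c3 (hmem c3 (by simp [hcs]))).mul_right
      ((hcl z hzL c4 (hmem c4 (by simp [hcs]))).mul_right
        (hcl z hzL c5 (hmem c5 (by simp [hcs]))))))))).symm
  obtain ⟨c, hcL, hzc⟩ := h.exists_proj hpD hq hz
  have honly : ∀ e ∈ ln D p q, e ≠ c → ¬ Commute z e := fun e he hne hh =>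
    hne (h.unique_proj hpD hq he hcL hz hzL hh hzc)
  have key : ∀ w x y u : G, x ∈ ln D p q → y ∈ ln D p q → u ∈ ln D p q → w ∈ ln D p q →
      [c, w, x, y, u].Nodup → (∀ e ∈ ln D p q, e ∈ [c, w, x, y, u]) →
      Commute z (w * (x * (y * u))) := by
    intro w x y u hx hy hu hw hnd' hall'
    simp only [List.nodup_cons, List.mem_cons, List.not_mem_nil, or_false, not_or,
      not_false_eq_true, List.nodup_nil, and_true] at hnd'
    obtain ⟨⟨ncw, ncx, ncy, ncu⟩, ⟨nwx, nwy, nwu⟩, ⟨nxy, nxu⟩, nyu⟩ := hnd'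
    have hyx : y ∈ nbr D x := ⟨hy.1, (Ne.symm nxy), hcl x hx y hy⟩
    have hL := h.ln_eq hpD hq hx hy nxy
    obtain ⟨m1, m2, m3, m4, m5⟩ := h.star_mem hx.1 hyx (hL.symm ▸ hu : u ∈ ln D x y) (Ne.symm nxu)
      (Ne.symm nyu) hz (honly x hx (Ne.symm ncx)) (honly y hy (Ne.symm ncy))
      (honly u hu (Ne.symm ncu))
    rw [hL] at m1
    have hw' : star4 z (x * (y * u)) = w := by
      have := hall' _ m1
      simp only [List.mem_cons, List.not_mem_nil, or_false] at this
      rcases this with h1 | h1 | h1 | h1 | h1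
      exacts [absurd (h1.symm ▸ hzc) m5, h1, absurd h1 m2, absurd h1 m3, absurd h1 m4]
    refine h.star_self hz hw.1 (honly w hw (Ne.symm ncw)) ?_ hw'
    rw [((hcl x hx y hy).mul_right (hcl x hx u hu)).symm.mul_mul_mul_comm,
      (hcl y hy u hu).symm.mul_mul_mul_comm, h.mul_self hx.1, h.mul_self hy.1, h.mul_self hu.1,
      one_mul, one_mul]
  have hm : c ∈ cs := hall c hcL
  have g1 := hmem c1 (by simp [hcs])
  have g2 := hmem c2 (by simp [hcs])
  have g3 := hmem c3 (by simp [hcs])
  have g4 := hmem c4 (by simp [hcs])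
  have g5 := hmem c5 (by simp [hcs])
  have hnd0 := hnd
  simp only [hcs, List.nodup_cons, List.mem_cons, List.not_mem_nil, or_false, not_or,
    not_false_eq_true, List.nodup_nil, and_true] at hnd0
  obtain ⟨⟨n12, n13, n14, n15⟩, ⟨n23, n24, n25⟩, ⟨n34, n35⟩, n45⟩ := hnd0
  simp only [hcs, List.mem_cons, List.not_mem_nil, or_false] at hm hall
  have swp : ∀ a b r : G, a ∈ ln D p q → b ∈ ln D p q → a * (b * r) = b * (a * r) :=
    fun a b r ha hb => by rw [← mul_assoc, (hcl a ha b hb).eq, mul_assoc]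
  symm
  rcases hm with rfl | rfl | rfl | rfl | rfl
  · exact hzc.mul_right (key c2 c3 c4 c5 g3 g4 g5 g2
      (by simp [List.nodup_cons, n12, n13, n14, n15, n23, n24, n25, n34, n35, n45])
      (fun e he => by have := hall e he; simp; tauto))
  · rw [swp c1 c _ g1 g2]
    exact hzc.mul_right (key c1 c3 c4 c5 g3 g4 g5 g1
      (by simp [List.nodup_cons, Ne.symm n12, n13, n14, n15, n23, n24, n25, n34, n35, n45])
      (fun e he => by have := hall e he; simp; tauto))
  · rw [swp c2 c _ g2 g3, swp c1 c _ g1 g3]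
    exact hzc.mul_right (key c1 c2 c4 c5 g2 g4 g5 g1
      (by simp [List.nodup_cons, n12, Ne.symm n13, n14, n15, Ne.symm n23, n24, n25, n34, n35, n45])
      (fun e he => by have := hall e he; simp; tauto))
  · rw [swp c3 c _ g3 g4, swp c2 c _ g2 g4, swp c1 c _ g1 g4]
    exact hzc.mul_right (key c1 c2 c3 c5 g2 g3 g5 g1
      (by simp [List.nodup_cons, n12, n13, Ne.symm n14, n15, n23, Ne.symm n24, n25, Ne.symm n34, n35,
        n45])
      (fun e he => by have := hall e he; simp; tauto))
  · rw [show c1 * (c2 * (c3 * (c4 * c))) = c * (c1 * (c2 * (c3 * c4))) by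
      rw [(hcl c4 g4 c g5).eq, swp c3 c _ g3 g5, swp c2 c _ g2 g5, swp c1 c _ g1 g5]]
    exact hzc.mul_right (key c1 c2 c3 c4 g2 g3 g4 g1
      (by simp [List.nodup_cons, n12, n13, n14, Ne.symm n15, n23, n24, Ne.symm n25, n34,
        Ne.symm n35, Ne.symm n45])
      (fun e he => by have := hall e he; simp; tauto))

/-- Six letters with the relators of `SU_4(2)` in a quadrangle with five points on a line. -/
theorem exists_four (hs : s = 4) {F : Type*} [Field F] [Fintype F] (hF : Fintype.card F = 2 ^ 2) :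
    ∃ g : ℕ → G, (∀ i < 6, g i ∈ D) ∧ (∀ i, 6 ≤ i → g i = 1) ∧
      (∀ w ∈ Data.rels6, gword g w = 1) ∧ (∀ w ∈ Data.rels4, gword g w = 1) ∧
      ∃ φ : ↥(SU 4 F 2) →* G, Function.Injective φ ∧ ∀ i < 6, φ (p4 hF i) = g i := by
  classical
  subst hs
  obtain ⟨x, z, b, a, d, hx, hz, hb, ha, hd, xz, xb, nxb, xa, nxa, xd, nxd, zb, za, zd, ba, bd,
    nbd, ad⟩ := h.exists_path hp
  have hbx : b ∈ nbr D x := ⟨hb, nxb.symm, xb⟩
  obtain ⟨hxL, hbL⟩ := h.self_mem hx hbx
  have hdL : d ∈ ln D x b := ⟨hd, xd.symm, bd.symm⟩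
  obtain ⟨e, heL, hne⟩ : ∃ e ∈ ln D x b, e ∉ ({x, b, d} : Set G) := by
    refine Set.exists_mem_notMem_of_ncard_lt_ncard ?_ (Set.toFinite _)
    rw [hp.line x hx b hbx]
    have h2 : ({x, b, d} : Set G).ncard ≤ 3 := by
      refine (Set.ncard_insert_le _ _).trans ?_
      have := Set.ncard_insert_le b ({d} : Set G)
      rw [Set.ncard_singleton] at this
      omega
    omega
  simp only [Set.mem_insert_iff, Set.mem_singleton_iff, not_or] at hne
  obtain ⟨nex, neb, ned⟩ := hne
  have hzL : z ∉ ln D x b := fun hh => zb hh.2.2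
  have haL : a ∉ ln D x b := fun hh => ba hh.2.2.symm
  have ze : ¬ Commute z e := fun hc => ned (h.unique_proj hx hbx heL hdL hz hzL hc zd)
  have ae : ¬ Commute a e := fun hc => nex (h.unique_proj hx hbx heL hxL ha haL hc xa.symm)
  have hxzx : x * z * x ∈ D := h.conj_mem hx hz
  have hzbz : z * b * z ∈ D := h.conj_mem hz hb
  set v := z * b * z * (x * z * x) with hv
  have hvinv : v⁻¹ = x * z * x * (z * b * z) := by
    rw [hv, mul_inv_rev, h.inv_eq hxzx, h.inv_eq hzbz]
  have hcomm : Commute (z * b * z) (x * z * x) := by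
    have h1 := (commute_conj_iff' (g := z) (a := b) (b := x)).2 xb.symm
    rw [h.inv_eq hz, h.braid hz hx (fun hh => xz hh.symm)] at h1
    exact h1
  have hfix : ∀ c, Commute c x → Commute c b → Commute c z → Commute c v := fun c c1 c2 c3 =>
    ((c3.mul_right c2).mul_right c3).mul_right ((c1.mul_right c3).mul_right c1)
  -- the two ends are exchanged
  have hvx : v * x * v⁻¹ = b := by
    rw [hvinv, hv]
    calc z * b * z * (x * z * x) * x * (x * z * x * (z * b * z))
        = z * b * z * (x * (z * x * z) * x) * (z * b * z) := by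
          simp only [mul_assoc, tt_cancel_left h.ttg.1 hx]
      _ = z * b * z * (x * (x * z * x) * x) * (z * b * z) := by
          rw [h.braid hz hx (fun hh => xz hh.symm)]
      _ = z * b * z * z * (z * b * z) := by
          simp only [mul_assoc, tt_cancel_left h.ttg.1 hx]
      _ = (z * b * z) * b * z := by
          simp only [mul_assoc, tt_cancel_left h.ttg.1 hz]
      _ = b * z * b * b * z := by rw [h.braid hz hb zb]
      _ = b := by
          simp only [mul_assoc, tt_cancel_left h.ttg.1 hb, h.mul_self hz, mul_one]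
  have hvb : v * b * v⁻¹ = x := by
    have h1 : v * v = 1 := by
      rw [hv, hcomm.symm.mul_mul_mul_comm, h.mul_self hzbz, h.mul_self hxzx, one_mul]
    have h2 : v⁻¹ = v := inv_eq_of_mul_eq_one_right h1
    rw [← hvx, h2]
    simp only [← mul_assoc, h1, one_mul]
    rw [mul_assoc, h1, mul_one]
  have hvd : v * d * v⁻¹ = d := by
    rw [← (hfix d xd.symm bd.symm zd.symm).eq, mul_inv_cancel_right]
  set e' := v * e * v⁻¹ with he'
  have he'L : e' ∈ ln D x b := by
    refine ⟨h.ttg.2.1 v e heL.1, ?_, ?_⟩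
    · rw [← hvb]; exact commute_conj_iff'.2 heL.2.2
    · rw [← hvx]; exact commute_conj_iff'.2 heL.2.1
  have hi : ∀ p q : G, v * p * v⁻¹ = v * q * v⁻¹ ↔ p = q := fun p q => by simp
  have ne'x : e' ≠ x := fun eq => neb ((hi e b).1 (eq.trans hvb.symm))
  have ne'b : e' ≠ b := fun eq => nex ((hi e x).1 (eq.trans hvx.symm))
  have ne'd : e' ≠ d := fun eq => ned ((hi e d).1 (eq.trans hvd.symm))
  have ne'e : e' ≠ e := by
    intro eq
    have hc : Commute e v := by
      show e * v = v * e
      conv_lhs => rw [← eq, he']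
      rw [inv_mul_cancel_right]
    have hne2 : z * b * z ≠ x * z * x := by
      intro eq2
      have hcz : Commute z (x * z * x) → False := fun hc2 => by
        rw [← h.braid hz hx (fun hh => xz hh.symm)] at hc2
        have h3 := (commute_conj_iff' (g := z)).2 hc2
        rw [h.inv_eq hz, show z * (z * x * z) * z = x by
          simp only [mul_assoc, tt_cancel_left h.ttg.1 hz, h.mul_self hz, mul_one],
          show z * z * z = z by rw [h.mul_self hz, one_mul]] at h3
        exact xz h3.symm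
      have h3 : z * b * z = z * x * z := by rw [eq2, h.braid hz hx (fun hh => xz hh.symm)]
      exact nxb (mul_left_cancel (mul_right_cancel h3)).symm
    have h4 := (commute_of_commute_mul h.ttg.1 heL.1 hzbz hxzx hcomm hne2 hc).2
    have h5 := (commute_conj_iff' (g := x) (a := e) (b := x * z * x)).2 h4
    rw [h.inv_eq hx, show x * (x * z * x) * x = z by
      simp only [mul_assoc, tt_cancel_left h.ttg.1 hx, h.mul_self hx, mul_one],
      show x * e * x = e by rw [← heL.2.1.eq, mul_assoc, h.mul_self hx, mul_one]] at h5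
    exact ze h5.symm
  have hprod : e' * (x * (b * (d * e))) = 1 := by
    refine h.line_prod hp rfl hx hbx (S := (Set.toFinite (ln D x b)).toFinset) (by simp) e' x b d e
      (by simp [List.nodup_cons, ne'x, ne'b, ne'd, ne'e, nxb, nxd, Ne.symm nex, nbd, Ne.symm neb,
        Ne.symm ned]) ?_
    intro c hc
    simp only [List.mem_cons, List.not_mem_nil, or_false] at hc
    rcases hc with rfl | rfl | rfl | rfl | rfl
    exacts [he'L, hxL, hbL, hdL, heL]
  set g : ℕ → G := fun i => [x, z, b, a, d, e].getD i 1 with hg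
  have hsq : ∀ i, g i * g i = 1 := fun i => by
    match i with
    | 0 => exact h.mul_self hx
    | 1 => exact h.mul_self hz
    | 2 => exact h.mul_self hb
    | 3 => exact h.mul_self ha
    | 4 => exact h.mul_self hd
    | 5 => exact h.mul_self heL.1
    | _ + 6 => exact one_mul 1
  have hrel6 : ∀ w ∈ Data.rels6, gword g w = 1 := by
    simp only [Data.rels6, List.forall_mem_cons, List.not_mem_nil, false_imp_iff, implies_true,
      and_true]
    refine ⟨?_, ?_, ?_, ?_, ?_, h.rel_three g hx hz xz, h.rel_two g hx hb xb, h.rel_two g hx ha xa,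
      h.rel_two g hx hd xd, h.rel_three g hz hb zb, h.rel_two g hz ha za, h.rel_two g hz hd zd,
      h.rel_three g hb ha ba, h.rel_two g hb hd bd, h.rel_three g ha hd ad⟩
    all_goals simp only [gword_cons, gword_nil, mul_one, hsq]
  have hrel4 : ∀ w ∈ Data.rels4, gword g w = 1 := by
    simp only [Data.rels4, List.forall_mem_cons, List.not_mem_nil, false_imp_iff, implies_true,
      and_true]
    refine ⟨?_, ?_, ?_, ?_, ?_, ?_, h.rel_three g hx hz xz, h.rel_two g hx hb xb,
      h.rel_two g hx ha xa, h.rel_two g hx hd xd, h.rel_two g hx heL.1 heL.2.1.symm,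
      h.rel_three g hz hb zb, h.rel_two g hz ha za, h.rel_two g hz hd zd,
      h.rel_three g hz heL.1 ze, h.rel_three g hb ha ba, h.rel_two g hb hd bd,
      h.rel_two g hb heL.1 heL.2.2.symm, h.rel_three g ha hd ad, h.rel_three g ha heL.1 ae,
      h.rel_two g hd heL.1 (h.clique hx hbx hdL heL), ?_⟩
    rotate_right
    · simp only [gword_cons, gword_nil, mul_one]
      show z * (b * (z * (x * (z * (x * (e * (x * (z * (x * (z * (b * (z * (x * (b * (d * e)))))))))))))))
        = 1
      rw [← hprod, he', hvinv, hv]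
      simp only [mul_assoc]
    all_goals simp only [gword_cons, gword_nil, mul_one, hsq]
  have hP : ∀ i, p4 hF i * p4 hF i = 1 := fun i => by
    by_cases hi : i < 6
    · have := rels4_hold hF [i, i] (by revert i; decide)
      rwa [gword_cons, gword_cons, gword_nil, mul_one] at this
    · rw [p4, TTUnitary.genT, dif_neg (by simpa [Data.gens4] using hi), one_mul]
  obtain ⟨φ, hφ⟩ := exists_hom_of_bound (p4 hF) g (L := 6) (closure_p4 hF) (by
    rw [card_SU_four hF]
    refine card_letters_four (fun i => (p4 hF i, g i)) (fun i => Prod.ext (hP i) (hsq i))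
      (fun w hw => ?_) (fun w hw => ?_)
    · rw [gword_prod, hrel6 w hw]
      exact Prod.ext ((gword_congr _ _ fun _ _ => rfl).trans (rels6_in_four hF w hw)) rfl
    · rw [gword_prod, rels4_hold hF w hw, hrel4 w hw]; rfl)
  refine ⟨g, ?_, ?_, hrel6, hrel4, φ, ?_, hφ⟩
  · intro i hi
    interval_cases i
    exacts [hx, hz, hb, ha, hd, heL.1]
  · intro i hi
    exact List.getD_eq_default _ _ (by simpa using hi)
  · refine injective_of_ne_bot hF (Or.inl rfl) φ (u := p4 hF 0) ?_
    rw [hφ 0 (by norm_num)]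
    intro h1
    exact xz (by rw [show x = 1 from h1]; exact Commute.one_left z)

omit hp in
theorem P45_mem {F : Type*} [Field F] [Fintype F] (hF : Fintype.card F = 2 ^ 2) {g : ℕ → G}
    (hg : ∀ i < 6, g i ∈ D) (φ : ↥(SU 4 F 2) →* G) (hφ : ∀ i < 6, φ (p4 hF i) = g i) {p : ℕ}
    (hp45 : p < 45) : φ (P45 hF p) ∈ D := by
  obtain ⟨m, -, i, hi, hw⟩ := W45_cw p hp45
  rw [List.mem_range] at hi
  have hsq : ∀ y, p4 hF y * p4 hF y = 1 := fun y => by
    by_cases hy : y < 6
    · have := rels4_hold hF [y, y] (by revert y; decide)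
      rwa [gword_cons, gword_cons, gword_nil, mul_one] at this
    · rw [p4, TTUnitary.genT, dif_neg (by simpa [Data.gens4] using hy), one_mul]
  rw [P45, hw, TTUnitary.gword_cw (p4 hF) hsq, map_mul, map_mul, map_inv, hφ i hi]
  exact h.ttg.2.1 _ _ (hg i hi)

theorem exists_iso_four (hs : s = 4) (ht : t = 2) {F : Type*} [Field F] [Fintype F]
    (hF : Fintype.card F = 2 ^ 2) : Nonempty (G ≃* ↥(SU 4 F 2)) := by
  obtain ⟨g, hg, -, -, -, φ, hinj, hφ⟩ := h.exists_four hp hs hF
  subst hs ht
  refine ⟨(MulEquiv.ofBijective φ ⟨hinj, h.surjective_of_members φ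
    (P45 hF '' Set.Iio 45) ?_ hinj ?_⟩).symm⟩
  · rintro _ ⟨p, hp', rfl⟩
    exact h.P45_mem hF hg φ hφ hp'
  · rw [hp.total, Set.InjOn.ncard_image (s := Set.Iio 45) (fun p hp' q hq he => P45_inj hF hp' hq he),
      ← Finset.coe_Iio, Set.ncard_coe_finset, Nat.card_Iio]

end IsGQ

end CfsgLib.FischerGQ
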