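import Mathlib
import Cfsg.Agent.FischerGQ.Ident

/-!
The quadrangle of order (4,8): naming the group.
-/

set_option autoImplicit false
set_option linter.unusedSectionVars false
set_option linter.style.haveILetI false
set_option linter.unusedVariables false
set_option maxRecDepth 100000

namespace CfsgLib.FischerGQ

open Cfsg CfsgLib.ThreeTransp CfsgLib.Unitary
open CfsgLib.CosetEnum (gword gword_cons gword_nil gword_map gword_congr gword_inverse)

theorem common45_line : ∀ p < 45, ∀ q < 45, p ≠ q → cm45 p q = true →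
    (common45 p q).length = 5 ∧ (common45 p q).Nodup := by decide +kernel

theorem common45_zero_one : (common45 0 1).length = 3 := by decide +kernel

theorem line45_cases : ∀ m ∈ common45 21 24, m = 24 ∨ m = 26 ∨
    ∃ r ∈ [0, 1, 6], r ≠ m ∧ cm45 m r = true := by decide +kernel

theorem cover45_ok : ∀ p < 45, Data.cover45.getD p 0 ∈ Data.ovoid ∧
    (Data.ovoid.contains p = false → Data.cover45.getD p 0 ≠ p ∧
      cm45 p (Data.cover45.getD p 0) = true) := by decide +kernel

theorem eqs5_eq : Data.eqs5 = [17, 18, 19].map (fun q =>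
    (W45 2 ++ W45 4) ++ [6] ++ (W45 2 ++ W45 4).reverse ++ (W45 3 ++ W45 q) ++ [6] ++
      (W45 3 ++ W45 q).reverse) := by decide +kernel

theorem lineB_facts : cm45 2 4 = true ∧ cm45 0 2 = true ∧ cm45 0 4 = true ∧ cm45 0 3 = true ∧
    (∀ q ∈ [17, 18, 19], cm45 0 q = true ∧ cm45 3 q = true ∧ q < 45 ∧
      Data.ovoid.contains q = false) ∧
    (∀ q ∈ [17, 18, 19], ∀ r ∈ [17, 18, 19], cm45 q r = true) ∧
    Data.ovoid.contains 2 = false ∧ Data.ovoid.contains 4 = false ∧
    Data.ovoid.contains 3 = false := by decide +kernel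

variable {G : Type*} [Group G] {D : Set G}

namespace IsGQ

variable [Finite G] (h : IsGQ D) {s t : ℕ} (hp : HasParams D s t)

include h hp

/-- The conjugate of a neighbour of `x` by two members of a line through `x`. -/
theorem pair_image {x o q f : G} (hx : x ∈ D) (ho : o ∈ D) (hq : q ∈ D) (hf : f ∈ nbr D x)
    (hxo : Commute x o) (hxq : Commute x q) (hoq : Commute o q) (hne : o ≠ q)
    (hfo : ¬ Commute f o) (hfq : ¬ Commute f q) :
    o * q * f * (o * q)⁻¹ ∈ ln D x f \ {x, f} := by
  have hi : (o * q)⁻¹ = o * q := by rw [mul_inv_rev, h.inv_eq ho, h.inv_eq hq, hoq.eq]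
  have hmem : o * q * f * (o * q)⁻¹ ∈ D := h.ttg.2.1 _ _ hf.1
  have hxu : Commute x (o * q) := hxo.mul_right hxq
  refine ⟨⟨hmem, ?_, ?_⟩, ?_⟩
  · exact ((hxu.mul_right hf.2.2).mul_right hxu.inv_right).symm
  · rw [hi]
    exact (pair_commute (h.mul_self ho) (h.mul_self hf.1) hoq (h.braid hf.1 ho hfo)
      (h.braid hf.1 hq hfq)).symm
  · rintro (eq | eq)
    · apply hf.2.1
      have h1 : o * q * x * (o * q)⁻¹ = x := by rw [← hxu.eq, mul_inv_cancel_right]
      rw [← h1] at eq
      exact mul_left_cancel (mul_right_cancel eq)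
    · refine hfo (commute_of_commute_mul h.ttg.1 hf.1 ho hq hoq hne ?_).1
      exact (mul_inv_eq_iff_eq_mul.1 eq).symm

theorem pair_image_inj {o q r f : G} (ho : o ∈ D) (hq : q ∈ D) (hr : r ∈ D) (hf : f ∈ D)
    (hoq : Commute o q) (hqr : Commute q r) (hfq : ¬ Commute f q)
    (heq : o * q * f * (o * q)⁻¹ = o * r * f * (o * r)⁻¹) : q = r := by
  by_contra hne
  apply hfq
  have h1 : r * (q * f * q⁻¹) * r⁻¹ = f := by
    have h2 : q * f * q⁻¹ = r * f * r⁻¹ := by
      have h3 : o * (q * f * q⁻¹) * o⁻¹ = o * (r * f * r⁻¹) * o⁻¹ := by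
        simpa [mul_assoc] using heq
      exact mul_left_cancel (mul_right_cancel h3)
    rw [h2, h.inv_eq hr]
    simp only [mul_assoc, tt_cancel_left h.ttg.1 hr, h.mul_self hr, mul_one]
  have h4 : Commute f (r * q) := by
    show f * (r * q) = r * q * f
    conv_lhs => rw [← h1]
    simp [mul_assoc]
  exact (commute_of_commute_mul h.ttg.1 hf hr hq hqr.symm (Ne.symm hne) h4).2

theorem exists_iso_five (hs : s = 4) (ht : t = 8) {F : Type*} [Field F] [Fintype F]
    (hF : Fintype.card F = 2 ^ 2) : Nonempty (G ≃* ↥(SU 5 F 2)) := by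
  classical
  obtain ⟨g, hg, hg1, hrel6, hrel4, φ, hinj, hφ⟩ := h.exists_four hp hs hF
  subst hs ht
  set Q : ℕ → G := fun p => φ (P45 hF p) with hQ
  have hQD : ∀ p < 45, Q p ∈ D := fun p hp' => h.P45_mem hF hg φ hφ hp'
  have hQc : ∀ p < 45, ∀ q < 45, (Commute (Q p) (Q q) ↔ cm45 p q = true) := fun p hp' q hq => by
    rw [← P45_commute hF hp' hq]
    exact ⟨fun hc => hinj (by rw [map_mul, map_mul]; exact hc), fun hc => hc.map φ⟩
  have hQi : ∀ p < 45, ∀ q < 45, Q p = Q q → p = q := fun p hp' q hq he =>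
    P45_inj hF hp' hq (hinj he)
  have hQw : ∀ p < 45, Q p = gword g (W45 p) := fun p hp' => by
    show φ (gword (p4 hF) (W45 p)) = _
    rw [gword_map]
    exact gword_congr _ _ fun i hi => hφ i (W45_lt p hp' i hi)
  have hQs : ∀ i < 6, Q i = g i := fun i hi => by
    rw [hQw i (by omega)]
    interval_cases i <;> exact mul_one _
  have hQnext : ∀ i < 6, ∀ p < 45,
      g i * Q p * g i = Q ((Data.next45.getD i []).getD p 0) := fun i hi p hp' => by
    show g i * φ (P45 hF p) * g i = φ _
    rw [← hφ i hi, ← map_mul, ← map_mul, P45_next hF hi hp']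
  set A : Set G := {u | ∃ p < 45, u = Q p} with hA
  have hAconj : ∀ k ∈ letters g 6, ∀ u ∈ A, k * u * k⁻¹ ∈ A := by
    intro k hk
    induction hk using Subgroup.closure_induction'' with
    | mem y hy =>
      obtain ⟨i, hi, rfl⟩ := hy
      rintro _ ⟨p, hp', rfl⟩
      rw [h.inv_eq (hg i hi)]
      exact ⟨_, (next45_rows i hi p hp').1, hQnext i hi p hp'⟩
    | inv_mem y hy =>
      obtain ⟨i, hi, rfl⟩ := hy
      rintro _ ⟨p, hp', rfl⟩
      rw [h.inv_eq (hg i hi), h.inv_eq (hg i hi)]
      exact ⟨_, (next45_rows i hi p hp').1, hQnext i hi p hp'⟩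
    | one => intro u hu; simpa using hu
    | mul y y' _ _ iy iy' =>
      intro u hu
      have := iy _ (iy' u hu)
      simpa [mul_assoc] using this
  have hline : ∀ p < 45, ∀ q < 45, p ≠ q → cm45 p q = true →
      ln D (Q p) (Q q) = Q '' {r | r ∈ common45 p q} := by
    intro p hp' q hq hne hc
    have hmem : ∀ r ∈ common45 p q, r < 45 ∧ cm45 r p = true ∧ cm45 r q = true := fun r hr => by
      simp only [common45, List.mem_filter, List.mem_range, Bool.and_eq_true] at hr
      exact ⟨hr.1, hr.2.1, hr.2.2⟩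
    symm
    refine Set.eq_of_subset_of_ncard_le ?_ ?_ (Set.toFinite _)
    · rintro _ ⟨r, hr, rfl⟩
      obtain ⟨hr45, c1, c2⟩ := hmem r hr
      exact ⟨hQD r hr45, (hQc r hr45 p hp').2 c1, (hQc r hr45 q hq).2 c2⟩
    · rw [hp.line _ (hQD p hp') _ ⟨hQD q hq, fun e => hne (hQi p hp' q hq e.symm),
          (hQc p hp' q hq).2 hc⟩,
        Set.InjOn.ncard_image (s := {r | r ∈ common45 p q}) (fun r hr r' hr' e => hQi r (hmem r hr).1 r' (hmem r' hr').1 e)]
      obtain ⟨hlen, hnd⟩ := common45_line p hp' q hq hne hc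
      rw [show {r | r ∈ common45 p q} = ↑((common45 p q).toFinset) by ext; simp,
        Set.ncard_coe_finset, List.toFinset_card_of_nodup hnd, hlen]
  -- a member outside commuting with two commuting ones would lie inside
  have hnot : ∀ f ∈ D, f ∉ A → ∀ p < 45, ∀ q < 45, p ≠ q → cm45 p q = true →
      Commute f (Q p) → Commute f (Q q) → False := by
    intro f hf hfA p hp' q hq hne hc c1 c2
    have : f ∈ ln D (Q p) (Q q) := ⟨hf, c1, c2⟩
    rw [hline p hp' q hq hne hc] at this
    obtain ⟨r, hr, rfl⟩ := this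
    simp only [common45, List.mem_filter, List.mem_range, Set.mem_ofPred_eq] at hr
    exact hfA ⟨r, hr.1, rfl⟩
  have hseq : ∀ i j k, [i, j, k] ∈ Data.seq24 ++ Data.seq37 →
      Q k = Q j * Q i * Q j := fun i j k hl => by
    show φ _ = φ _ * φ _ * φ _
    rw [P45_seq hF hl, map_mul, map_mul]
  have hstep : ∀ f i j k, [i, j, k] ∈ Data.seq24 ++ Data.seq37 → Commute f (Q i) →
      Commute f (Q j) → Commute f (Q k) := fun f i j k hl c1 c2 => by
    rw [hseq i j k hl]; exact (c2.mul_right c1).mul_right c2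
  -- the seventh letter
  have hQ01 : ¬ Commute (Q 0) (Q 1) := fun hc =>
    absurd ((hQc 0 (by norm_num) 1 (by norm_num)).1 hc) (by decide +kernel)
  obtain ⟨f, hf, hfA, hf0, hf1⟩ : ∃ f ∈ D, f ∉ A ∧ Commute f (Q 0) ∧ Commute f (Q 1) := by
    set P := nbr D (Q 0) ∩ nbr D (Q 1) with hP
    have h9 : P.ncard = 9 := by
      rw [hP, hp.common _ (hQD 0 (by norm_num)) _ (hQD 1 (by norm_num)) hQ01]
    obtain ⟨f, hfP, hfA⟩ : ∃ f ∈ P, f ∉ A ∩ P := by
      refine Set.exists_mem_notMem_of_ncard_lt_ncard ?_ (Set.toFinite _)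
      have hsub : A ∩ P ⊆ Q '' ↑((common45 0 1).toFinset) := by
        rintro _ ⟨⟨p, hp', rfl⟩, hc0, hc1⟩
        refine ⟨p, ?_, rfl⟩
        simp only [Finset.mem_coe, List.mem_toFinset, common45, List.mem_filter, List.mem_range,
          Bool.and_eq_true]
        exact ⟨hp', (hQc p hp' 0 (by norm_num)).1 hc0.2.2.symm,
          (hQc p hp' 1 (by norm_num)).1 hc1.2.2.symm⟩
      have h3 := (Set.ncard_le_ncard hsub (Set.toFinite _)).trans (Set.ncard_image_le (Set.toFinite _))
      rw [Set.ncard_coe_finset] at h3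
      have h4 := List.toFinset_card_le (common45 0 1)
      rw [common45_zero_one] at h4
      omega
    exact ⟨f, hfP.1.1, fun hh => hfA ⟨hh, hfP⟩, hfP.1.2.2.symm, hfP.2.2.2.symm⟩
  obtain ⟨f, hf, hfA, hf0, hf1, hf24⟩ : ∃ f ∈ D, f ∉ A ∧ Commute f (Q 0) ∧ Commute f (Q 1) ∧
      Commute f (Q 24) := by
    have hf6 : Commute f (Q 6) := hstep f 0 1 6 (by decide) hf0 hf1
    have hc : cm45 21 24 = true := by decide +kernel
    obtain ⟨c, hcL, hfc⟩ := h.exists_proj (hQD 21 (by norm_num))
      (show Q 24 ∈ nbr D (Q 21) from ⟨hQD 24 (by norm_num),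
        fun e => absurd (hQi 24 (by norm_num) 21 (by norm_num) e) (by norm_num),
        (hQc 21 (by norm_num) 24 (by norm_num)).2 hc⟩) hf
    rw [hline 21 (by norm_num) 24 (by norm_num) (by norm_num) hc] at hcL
    obtain ⟨m, hm, rfl⟩ := hcL
    have hm45 : m < 45 := by
      simp only [common45, List.mem_filter, List.mem_range, Set.mem_ofPred_eq] at hm
      exact hm.1
    rcases line45_cases m hm with rfl | rfl | ⟨r, hr, hne, hcm⟩
    · exact ⟨f, hf, hfA, hf0, hf1, hfc⟩
    · have e0 : g 3 * Q 0 * g 3 = Q 0 := by rw [hQnext 3 (by norm_num) 0 (by norm_num)]; rfl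
      have e1 : g 3 * Q 1 * g 3 = Q 1 := by rw [hQnext 3 (by norm_num) 1 (by norm_num)]; rfl
      have e26 : g 3 * Q 26 * g 3 = Q 37 := by rw [hQnext 3 (by norm_num) 26 (by norm_num)]; rfl
      have hg3 := h.inv_eq (hg 3 (by norm_num))
      have cj : ∀ u : G, Commute f u → Commute (g 3 * f * g 3) (g 3 * u * g 3) := fun u hu => by
        have := (commute_conj_iff' (g := g 3) (a := f) (b := u)).2 hu
        rwa [hg3] at this
      have k1 := cj _ hf1
      have k37 := cj _ hfc
      have k0 := cj _ hf0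
      rw [e0] at k0; rw [e1] at k1; rw [e26] at k37
      refine ⟨g 3 * f * g 3, h.conj_mem (hg 3 (by norm_num)) hf, fun hh => hfA ?_, k0, k1,
        hstep _ 1 37 24 (by decide) k1 k37⟩
      have hm3 : g 3 ∈ letters g 6 := Subgroup.subset_closure ⟨3, by norm_num, rfl⟩
      have := hAconj _ hm3 _ hh
      rwa [hg3, show g 3 * (g 3 * f * g 3) * g 3 = f by
        simp only [mul_assoc, tt_cancel_left h.ttg.1 (hg 3 (by norm_num)),
          h.mul_self (hg 3 (by norm_num)), mul_one]] at this
    · exfalso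
      have hr45 : r < 45 := by
        simp only [List.mem_cons, List.not_mem_nil, or_false] at hr
        omega
      refine hnot f hf hfA m hm45 r hr45 hne.symm hcm hfc ?_
      simp only [List.mem_cons, List.not_mem_nil, or_false] at hr
      rcases hr with rfl | rfl | rfl
      exacts [hf0, hf1, hf6]
  have hO : ∀ o ∈ Data.ovoid, o < 45 ∧ Commute f (Q o) := by
    have c6 := hstep f 0 1 6 (by decide) hf0 hf1
    have c31 := hstep f 0 24 31 (by decide) hf0 hf24
    have c37 := hstep f 1 24 37 (by decide) hf1 hf24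
    have c42 := hstep f 1 31 42 (by decide) hf1 c31
    have c40 := hstep f 24 6 40 (by decide) hf24 c6
    have c44 := hstep f 24 42 44 (by decide) hf24 c42
    intro o ho
    simp only [Data.ovoid, List.mem_cons, List.not_mem_nil, or_false] at ho
    rcases ho with rfl | rfl | rfl | rfl | rfl | rfl | rfl | rfl | rfl
    all_goals refine ⟨by norm_num, ?_⟩
    exacts [hf0, hf1, c6, hf24, c31, c37, c40, c42, c44]
  have hpat : ∀ p < 45, (Commute f (Q p) ↔ Data.ovoid.contains p = true) := by
    intro p hp'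
    refine ⟨fun hc => ?_, fun hc => (hO p (List.contains_iff_mem.1 hc)).2⟩
    by_contra hno
    rw [Bool.not_eq_true] at hno
    obtain ⟨hmemO, hh⟩ := cover45_ok p hp'
    obtain ⟨hne, hcm⟩ := hh hno
    exact hnot f hf hfA p hp' _ (hO _ hmemO).1 hne.symm hcm hc (hO _ hmemO).2
  set g' : ℕ → G := fun i => if i = 6 then f else g i with hg'
  have hg'6 : g' 6 = f := by simp [hg']
  have hg'i : ∀ i, i < 6 → g' i = g i := fun i hi => by simp [hg', Nat.ne_of_lt hi]
  have hg'sq : ∀ i, g' i * g' i = 1 := fun i => by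
    by_cases hi : i = 6
    · rw [hi, hg'6, h.mul_self hf]
    · rw [show g' i = g i by simp [hg', hi]]
      by_cases hi6 : i < 6
      · exact h.mul_self (hg i hi6)
      · rw [hg1 i (not_lt.1 hi6), one_mul]
  have hw' : ∀ w : List ℕ, (∀ i ∈ w, i < 6) → gword g' w = gword g w := fun w hw =>
    gword_congr _ _ fun i hi => hg'i i (hw i hi)
  have hQ' : ∀ p < 45, gword g' (W45 p) = Q p := fun p hp' => by
    rw [hw' _ (W45_lt p hp'), hQw p hp']
  have hrel4' : ∀ w ∈ Data.rels4, gword g' w = 1 := fun w hw => by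
    rw [hw' w (fun i hi => (rels4_rows w hw).1 i hi), hrel4 w hw]
  have hrel6' : ∀ w ∈ Data.rels6, gword g' w = 1 := fun w hw => by
    rw [hw' w (fun i hi => (rels6_rows w hw).1 i hi), hrel6 w hw]
  have happ : ∀ w w' : List ℕ, gword g' (w ++ w') = gword g' w * gword g' w' := fun w w' => by
    simp [gword]
  have hpatrel : ∀ w ∈ Data.relsPat, gword g' w = 1 := by
    rw [relsPat_eq]
    intro w hw
    rcases List.mem_cons.1 hw with rfl | hw
    · rw [gword_cons, gword_cons, gword_nil, mul_one, hg'sq]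
    obtain ⟨p, hp', rfl⟩ := List.mem_map.1 hw
    rw [List.mem_range] at hp'
    rw [TTUnitary.gword_flatten_replicate, happ, hQ' p hp', gword_cons, gword_nil, mul_one, hg'6]
    cases hcO : Data.ovoid.contains p
    · have hnc : ¬ Commute f (Q p) := fun hc => by
        have := (hpat p hp').1 hc
        rw [hcO] at this
        exact absurd this (by decide)
      rw [cond_false, pow_succ, pow_succ, pow_one]
      calc f * Q p * (f * Q p) * (f * Q p) = (f * Q p * f) * (Q p * f * Q p) := by
            simp only [mul_assoc]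
        _ = (Q p * f * Q p) * (Q p * f * Q p) := by rw [h.braid hf (hQD p hp') hnc]
        _ = 1 := by
          simp only [mul_assoc, tt_cancel_left h.ttg.1 hf, tt_cancel_left h.ttg.1 (hQD p hp'),
            h.mul_self (hQD p hp')]
    · rw [cond_true, pow_two, ((hpat p hp').2 hcO).symm.mul_mul_mul_comm, h.mul_self hf,
        h.mul_self (hQD p hp'), one_mul]
  obtain ⟨f24, f02, f04, f03, hB, hBB, o2, o4, o3⟩ := lineB_facts
  have hfx : f ∈ nbr D (Q 0) :=
    ⟨hf, fun e => hfA ⟨0, by norm_num, e⟩, hf0.symm⟩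
  have hncO : ∀ p < 45, Data.ovoid.contains p = false → ¬ Commute f (Q p) := fun p hp' ho hc => by
    rw [(hpat p hp').1 hc] at ho
    exact absurd ho (by decide)
  set T := ln D (Q 0) f \ {Q 0, f} with hT
  have hT3 : T.ncard = 3 := by
    have hsub : ({Q 0, f} : Set G) ⊆ ln D (Q 0) f := by
      rintro u (rfl | rfl)
      exacts [(h.self_mem (hQD 0 (by norm_num)) hfx).1, (h.self_mem (hQD 0 (by norm_num)) hfx).2]
    rw [hT, Set.ncard_sdiff hsub (Set.toFinite _), hp.line _ (hQD 0 (by norm_num)) _ hfx,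
      Set.ncard_pair hfx.2.1.symm]
  set im : ℕ → ℕ → G := fun o q => Q o * Q q * f * (Q o * Q q)⁻¹ with him
  have himT : ∀ q ∈ [17, 18, 19], im 3 q ∈ T := fun q hq => by
    obtain ⟨c0, c3, hq45, oq⟩ := hB q hq
    refine h.pair_image hp (hQD 0 (by norm_num)) (hQD 3 (by norm_num)) (hQD q hq45) hfx
      ((hQc 0 (by norm_num) 3 (by norm_num)).2 f03) ((hQc 0 (by norm_num) q hq45).2 c0)
      ((hQc 3 (by norm_num) q hq45).2 c3) (fun e => ?_) (hncO 3 (by norm_num) o3) (hncO q hq45 oq)
    have := hQi 3 (by norm_num) q hq45 e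
    subst this
    simp at hq
  have himI : ∀ q ∈ [17, 18, 19], ∀ r ∈ [17, 18, 19], im 3 q = im 3 r → q = r := by
    intro q hq r hr e
    obtain ⟨-, c3, hq45, oq⟩ := hB q hq
    obtain ⟨-, -, hr45, -⟩ := hB r hr
    exact hQi q hq45 r hr45 (h.pair_image_inj hp (hQD 3 (by norm_num)) (hQD q hq45) (hQD r hr45) hf
      ((hQc 3 (by norm_num) q hq45).2 c3) ((hQc q hq45 r hr45).2 (hBB q hq r hr))
      (hncO q hq45 oq) e)
  have h0T : im 2 4 ∈ T := h.pair_image hp (hQD 0 (by norm_num)) (hQD 2 (by norm_num))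
    (hQD 4 (by norm_num)) hfx ((hQc 0 (by norm_num) 2 (by norm_num)).2 f02)
    ((hQc 0 (by norm_num) 4 (by norm_num)).2 f04) ((hQc 2 (by norm_num) 4 (by norm_num)).2 f24)
    (fun e => absurd (hQi 2 (by norm_num) 4 (by norm_num) e) (by norm_num))
    (hncO 2 (by norm_num) o2) (hncO 4 (by norm_num) o4)
  obtain ⟨j, hj, hjeq⟩ : ∃ j < 3, im 2 4 = im 3 (17 + j) := by
    by_contra hall
    push Not at hall
    have hsub : ({im 2 4, im 3 17, im 3 18, im 3 19} : Set G) ⊆ T := by
      rintro u (rfl | rfl | rfl | rfl)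
      exacts [h0T, himT _ (by simp), himT _ (by simp), himT _ (by simp)]
    have h4 := Set.ncard_le_ncard hsub (Set.toFinite _)
    rw [hT3, Set.ncard_insert_of_notMem (by
        simp only [Set.mem_insert_iff, Set.mem_singleton_iff, not_or]
        exact ⟨hall 0 (by norm_num), hall 1 (by norm_num), hall 2 (by norm_num)⟩),
      Set.ncard_insert_of_notMem (by
        simp only [Set.mem_insert_iff, Set.mem_singleton_iff, not_or]
        exact ⟨fun e => absurd (himI _ (by simp) _ (by simp) e) (by norm_num),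
          fun e => absurd (himI _ (by simp) _ (by simp) e) (by norm_num)⟩),
      Set.ncard_pair (fun e => absurd (himI _ (by simp) _ (by simp) e) (by norm_num))] at h4
    omega
  have hrel5 : ∀ w ∈ Data.rels4 ++ Data.relsPat ++ [Data.eqs5.getD j []], gword g' w = 1 := by
    intro w hw
    simp only [List.mem_append, List.mem_singleton] at hw
    rcases hw with (hw | hw) | rfl
    · exact hrel4' w hw
    · exact hpatrel w hw
    · have e : Data.eqs5.getD j [] = (W45 2 ++ W45 4) ++ [6] ++ (W45 2 ++ W45 4).reverse ++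
          (W45 3 ++ W45 (17 + j)) ++ [6] ++ (W45 3 ++ W45 (17 + j)).reverse := by
        rw [eqs5_eq]; interval_cases j <;> rfl
      have hj45 : 17 + j < 45 := by omega
      have hrev : ∀ w, gword g' w.reverse = (gword g' w)⁻¹ := fun w => by
        have := gword_inverse g' (fun x => x)
          (fun x => (inv_eq_of_mul_eq_one_right (hg'sq x)).symm) w
        rwa [List.map_id'] at this
      rw [e, happ, happ, happ, happ, happ, hrev, hrev, happ, happ, hQ' 2 (by norm_num),
        hQ' 4 (by norm_num), hQ' 3 (by norm_num), hQ' _ hj45, gword_cons, gword_nil, mul_one, hg'6]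
      have e2 : im 2 4 * im 3 (17 + j) = 1 := by
        rw [← hjeq]; exact h.mul_self h0T.1.1
      simp only [him] at e2
      rw [← e2]
      simp only [mul_assoc]
  have hj1 : j = 1 := by
    by_contra hne
    have hmem := seventh_mem g' hg'sq j (by omega) hrel5
    have hsame : letters g' 6 = letters g 6 := by
      unfold letters
      congr 1
      ext u
      constructor
      · rintro ⟨i, hi, rfl⟩; exact ⟨i, hi, (hg'i i hi).symm⟩
      · rintro ⟨i, hi, rfl⟩; exact ⟨i, hi, hg'i i hi⟩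
    rw [hsame, hg'6] at hmem
    apply hfA
    have hn3 := hncO 3 (by norm_num) o3
    have h1 : f * Q 3 * f ∈ A := by
      have := hAconj f hmem (Q 3) ⟨3, by norm_num, rfl⟩
      rwa [h.inv_eq hf] at this
    rw [h.braid hf (hQD 3 (by norm_num)) hn3, hQs 3 (by norm_num)] at h1
    have hm3 : g 3 ∈ letters g 6 := Subgroup.subset_closure ⟨3, by norm_num, rfl⟩
    have h2 := hAconj _ hm3 _ h1
    rwa [h.inv_eq (hg 3 (by norm_num)), show g 3 * (g 3 * f * g 3) * g 3 = f by
      simp only [mul_assoc, tt_cancel_left h.ttg.1 (hg 3 (by norm_num)),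
        h.mul_self (hg 3 (by norm_num)), mul_one]] at h2
  subst hj1
  have hP5 : ∀ i, p5 hF i * p5 hF i = 1 := fun i => by
    by_cases hi : i < 7
    · have := rels5_hold hF [i, i] (by revert i; decide)
      rwa [gword_cons, gword_cons, gword_nil, mul_one] at this
    · rw [p5, TTUnitary.genT, dif_neg (by simpa [Data.gens5] using hi), one_mul]
  obtain ⟨ψ, hψ⟩ := exists_hom_of_bound (p5 hF) g' (L := 7) (closure_p5 hF) (by
    rw [TTUnitary.card_SU_five hF]
    refine card_letters_five (fun i => (p5 hF i, g' i)) (fun i => Prod.ext (hP5 i) (hg'sq i))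
      (fun w hw => ?_) (fun w hw => ?_) (fun w hw => ?_)
    · rw [gword_prod, rels6_in_five hF w hw, hrel6' w hw]; rfl
    · rw [gword_prod, rels5_hold hF w (by simp [hw]), hrel4' w hw]; rfl
    · rw [gword_prod, rels5_hold hF w hw, hrel5 w hw]; rfl)
  have hψinj : Function.Injective ψ := by
    refine injective_of_ne_bot hF (Or.inr rfl) ψ (u := p5 hF 0) ?_
    rw [hψ 0 (by norm_num), hg'i 0 (by norm_num)]
    intro h1
    exact hQ01 (by rw [hQs 0 (by norm_num), h1]; exact Commute.one_left _)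
  refine ⟨(MulEquiv.ofBijective ψ ⟨hψinj, h.surjective_of_members ψ
    (P165 hF '' Set.Iio 165) ?_ hψinj ?_⟩).symm⟩
  · rintro _ ⟨p, hp', rfl⟩
    obtain ⟨-, m, -, i, hi, hw⟩ := W165_cw p hp'
    rw [List.mem_range] at hi
    rw [P165, hw, TTUnitary.gword_cw (p5 hF) hP5, map_mul, map_mul, map_inv, hψ i hi]
    refine h.ttg.2.1 _ _ ?_
    by_cases hi6 : i = 6
    · rw [hi6, hg'6]; exact hf
    · rw [hg'i i (by omega)]; exact hg i (by omega)
  · rw [hp.total,
      Set.InjOn.ncard_image (s := Set.Iio 165) (fun p hp' q hq he => P165_inj hF hp' hq he),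
      ← Finset.coe_Iio, Set.ncard_coe_finset, Nat.card_Iio]

end IsGQ

end CfsgLib.FischerGQ
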