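import Mathlib
import Cfsg.Agent.FischerGQ.Exclude

/-!
The parameters sixteen and eight do not occur: the centre of the Heisenberg group of a plane of nine
members of one local subgroup.
-/

set_option autoImplicit false
set_option linter.unusedSectionVars false
set_option linter.style.haveILetI false

namespace CfsgLib.FischerGQ

open Cfsg CfsgLib.ThreeTransp

theorem hm_central : ∀ x : ZMod 3 × ZMod 3 × ZMod 3, hm (0, 0, 1) x = hm x (0, 0, 1) := by decide

theorem hm_split : ∀ x : ZMod 3 × ZMod 3 × ZMod 3, hm (x.1, x.2.1, 0) (0, 0, x.2.2) = x := by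
  decide

theorem hm_centre_pow : hm (0, 0, 1) (0, 0, 1) = ((0, 0, 2) : ZMod 3 × ZMod 3 × ZMod 3) ∧
    hm (0, 0, 1) (0, 0, 2) = ((0, 0, 0) : ZMod 3 × ZMod 3 × ZMod 3) := by decide

theorem hm_noncentral : ∀ x : ZMod 3 × ZMod 3 × ZMod 3, ¬ (x.1 = 0 ∧ x.2.1 = 0) →
    ∃ y, hm y (nm ![x.1, x.2.1]) = hm x y := by decide

theorem hm_bijective (x : ZMod 3 × ZMod 3 × ZMod 3) : Function.Bijective (hm x) := by
  refine ⟨fun y y' he => ?_, fun w =>
    ⟨(w.1 - x.1, w.2.1 - x.2.1, w.2.2 - x.2.2 - x.2.1 * (w.1 - x.1)), ?_⟩⟩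
  · simp only [hm, Prod.mk.injEq] at he
    obtain ⟨e1, e2, e3⟩ := he
    have h1 := add_left_cancel e1
    rw [h1] at e3
    exact Prod.ext h1 (Prod.ext (add_left_cancel e2) (add_left_cancel (add_right_cancel e3)))
  · simp only [hm]
    exact Prod.ext (by ring) (Prod.ext (by ring) (by ring))

/-- The kind of an element of the Heisenberg group. -/
def heisKind (x : ZMod 3 × ZMod 3 × ZMod 3) : Fin 3 :=
  if x.1 = 0 ∧ x.2.1 = 0 then (if x.2.2 = 0 then 0 else 1) else 2

theorem heis_fibres : ∀ j : Fin 3,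
    (Finset.univ.filter fun x : ZMod 3 × ZMod 3 × ZMod 3 => heisKind x = j).card = ![1, 2, 24] j := by
  decide

variable {G : Type*} [Group G] {D : Set G}

namespace IsGQ

variable [Finite G] (h : IsGQ D)

include h

/-- A member whose product with a neighbour commutes with the centre of the plane is the
neighbour. -/
theorem plane_rigid {u v z b e : G}
    (hmul : ∀ x y, hmap u v z x * hmap u v z y = hmap u v z (hm x y))
    (hone : hmap u v z (0, 0, 0) = 1)
    (hb : b ∈ D) (he : e ∈ D) (hbe : Commute b e)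
    (hzb : Commute (hmap u v z (0, 0, 1)) b) (hze : Commute (hmap u v z (0, 0, 1)) e)
    (hf : ∀ p, hmap u v z (nm p) * b ∈ D)
    (hnb : ∀ p, p ≠ ![0, 0] → ¬ Commute (hmap u v z (nm p) * b) b ∧
      ¬ Commute (hmap u v z (nm p) * b) e) : e = b := by
  set ψ := hmap u v z with hψ
  have hbb := h.mul_self hb
  have hee := h.mul_self he
  set w := b * e with hw
  have hwb : w * b = e := by rw [hw, hbe.eq, mul_assoc, hbb, mul_one]
  have hbw : b * w = e := by rw [hw]; exact tt_cancel_left h.ttg.1 hb e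
  have hw2 : w * w = 1 := by rw [hw, hbe.symm.mul_mul_mul_comm, hbb, hee, one_mul]
  have hzw : ∀ k : ZMod 3, Commute (ψ (0, 0, k)) w := by
    intro k
    have h0 : ψ (0, 0, 0) = 1 := hone
    have h2 : ψ (0, 0, 2) = ψ (0, 0, 1) * ψ (0, 0, 1) := by rw [hmul, hm_centre_pow.1]
    rcases (show k = 0 ∨ k = 1 ∨ k = 2 by revert k; decide) with rfl | rfl | rfl
    · rw [h0]; exact Commute.one_left w
    · exact hzb.mul_right hze
    · rw [h2]; exact (hzb.mul_right hze).mul_left (hzb.mul_right hze)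
  let X : (Fin 2 → ZMod 3) → G := fun q => ψ (q 0, q 1, 0) * w * (ψ (q 0, q 1, 0))⁻¹
  have hkey : ∀ x, ψ x * w * (ψ x)⁻¹ = X ![x.1, x.2.1] := by
    intro x
    have e1 : ψ x = ψ (x.1, x.2.1, 0) * ψ (0, 0, x.2.2) := by rw [hmul, hm_split]
    show _ = ψ (x.1, x.2.1, 0) * w * (ψ (x.1, x.2.1, 0))⁻¹
    rw [e1, show ψ (x.1, x.2.1, 0) * ψ (0, 0, x.2.2) * w *
        (ψ (x.1, x.2.1, 0) * ψ (0, 0, x.2.2))⁻¹ =
      ψ (x.1, x.2.1, 0) * (ψ (0, 0, x.2.2) * w * (ψ (0, 0, x.2.2))⁻¹) * (ψ (x.1, x.2.1, 0))⁻¹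
      by group, (hzw x.2.2).eq, mul_inv_cancel_right]
  have hline : ∀ q p : Fin 2 → ZMod 3, p ≠ ![0, 0] → X q * X (q + p) * X (q + p + p) = 1 := by
    intro q p hp
    obtain ⟨n1, n2⟩ := hnb p hp
    set r := ψ (nm p) with hr
    set b' := r * b with hb'
    have hb'D : b' ∈ D := hf p
    have hrb : r = b' * b := by rw [hb', tt_cancel_right h.ttg.1 hb]
    have br1 : b' * b * b' = b * b' * b := h.braid hb'D hb n1
    have br2 : b' * e * b' = e * b' * e := h.braid hb'D he n2
    have hb'2 := h.mul_self hb'D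
    have hri : r⁻¹ = b * b' := by rw [hrb, mul_inv_rev, h.inv_eq hb, h.inv_eq hb'D]
    have hrr : r * r = b * b' := by
      calc r * r = (b' * b * b') * b := by rw [hrb]; simp only [mul_assoc]
        _ = b * b' * b * b := by rw [br1]
        _ = b * b' := by rw [mul_assoc (b * b'), hbb, mul_one]
    have main : w * (r * w * r⁻¹) * (r * r * w * (r * r)⁻¹) = 1 := by
      have e1 : r * w * r⁻¹ = b' * w * b' := by
        calc r * w * r⁻¹ = b' * (b * w) * b * b' := by rw [hri, hrb]; simp only [mul_assoc]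
          _ = b' * (e * b) * b' := by rw [hbw]; simp only [mul_assoc]
          _ = _ := by rw [← hbe.eq]
      have e2 : r * r * w * (r * r)⁻¹ = b * b' * w * b' * b := by
        rw [hrr, mul_inv_rev, h.inv_eq hb, h.inv_eq hb'D]; simp only [mul_assoc]
      rw [e1, e2]
      calc w * (b' * w * b') * (b * b' * w * b' * b)
          = w * b' * w * (b' * b * b') * w * b' * b := by simp only [mul_assoc]
        _ = w * b' * w * (b * b' * b) * w * b' * b := by rw [br1]
        _ = w * b' * (w * b) * b' * (b * w) * b' * b := by simp only [mul_assoc]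
        _ = w * (b' * (e * b' * e) * b') * b := by rw [hwb, hbw]; simp only [mul_assoc]
        _ = w * (b' * (b' * e * b') * b') * b := by rw [br2]
        _ = w * e * b := by
            simp only [mul_assoc, tt_cancel_left h.ttg.1 hb'D]
        _ = 1 := by rw [hw, mul_assoc b e e, hee, mul_one, hbb]
    set P := ψ (q 0, q 1, 0) with hP
    have c1 : X (q + p) = P * (r * w * r⁻¹) * P⁻¹ := by
      rw [show P * (r * w * r⁻¹) * P⁻¹ = (P * r) * w * (P * r)⁻¹ by group, hP, hr, hmul, hkey]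
      congr 1
      funext i; fin_cases i <;> simp [hm, nm]
    have c2 : X (q + p + p) = P * (r * r * w * (r * r)⁻¹) * P⁻¹ := by
      rw [show P * (r * r * w * (r * r)⁻¹) * P⁻¹ = (P * (r * r)) * w * (P * (r * r))⁻¹ by group,
        hP, hr, hmul, hmul, hkey]
      congr 1
      funext i; fin_cases i <;> simp [hm, nm, add_assoc]
    calc X q * X (q + p) * X (q + p + p)
        = P * w * P⁻¹ * (P * (r * w * r⁻¹) * P⁻¹) * (P * (r * r * w * (r * r)⁻¹) * P⁻¹) := by
          rw [c1, c2]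
      _ = P * (w * (r * w * r⁻¹) * (r * r * w * (r * r)⁻¹)) * P⁻¹ := by group
      _ = 1 := by rw [main, mul_one, mul_inv_cancel]
  have hX2 : ∀ q, X q * X q = 1 := fun q => by
    show ψ (q 0, q 1, 0) * w * (ψ (q 0, q 1, 0))⁻¹ * (ψ (q 0, q 1, 0) * w * _) = 1
    rw [show ψ (q 0, q 1, 0) * w * (ψ (q 0, q 1, 0))⁻¹ *
      (ψ (q 0, q 1, 0) * w * (ψ (q 0, q 1, 0))⁻¹) =
      ψ (q 0, q 1, 0) * (w * w) * (ψ (q 0, q 1, 0))⁻¹ by group, hw2, mul_one, mul_inv_cancel]
  have hcomm : ∀ q q', Commute (X q) (X q') := by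
    intro q q'
    by_cases hqq : q' - q = ![0, 0]
    · rw [show q' = q by
        rw [← sub_eq_zero, hqq]; funext i; fin_cases i <;> rfl]
    have h1 := hline q (q' - q) hqq
    rw [add_sub_cancel] at h1
    set C := X (q' + (q' - q))
    have hC : C = X q' * X q := by
      rw [eq_inv_of_mul_eq_one_right h1, mul_inv_rev,
        inv_eq_of_mul_eq_one_right (hX2 q), inv_eq_of_mul_eq_one_right (hX2 q')]
    have hC2 : C = C⁻¹ := (inv_eq_of_mul_eq_one_right (hX2 _)).symm
    show X q * X q' = X q' * X q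
    rw [← hC, hC2, hC, mul_inv_rev, inv_eq_of_mul_eq_one_right (hX2 q),
      inv_eq_of_mul_eq_one_right (hX2 q')]
  have L : ∀ q p : Fin 2 → ZMod 3, p ≠ ![0, 0] → ∀ q' q'', q + p = q' → q + p + p = q'' →
      X q * X q' * X q'' = 1 := by
    rintro q p hp _ _ rfl rfl; exact hline q p hp
  have two : ∀ A B C : G, A * A = 1 → A * B * C = 1 → B * C = A := fun A B C hA hh => by
    calc B * C = A * A * B * C := by rw [hA, one_mul]
      _ = A * (A * B * C) := by simp only [mul_assoc]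
      _ = A := by rw [hh, mul_one]
  have l1 := two _ _ _ (hX2 _) (L ![0, 0] ![0, 1] (by decide) ![0, 1] ![0, 2] (by decide) (by decide))
  have l2 := two _ _ _ (hX2 _) (L ![0, 0] ![1, 1] (by decide) ![1, 1] ![2, 2] (by decide) (by decide))
  have l3 := two _ _ _ (hX2 _) (L ![0, 0] ![1, 2] (by decide) ![1, 2] ![2, 1] (by decide) (by decide))
  have m1 := L ![0, 1] ![1, 0] (by decide) ![1, 1] ![2, 1] (by decide) (by decide)
  have m2 := L ![0, 2] ![1, 0] (by decide) ![1, 2] ![2, 2] (by decide) (by decide)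
  have hA : X ![0, 0] = 1 := by
    calc X ![0, 0] = X ![0, 0] * X ![0, 0] * X ![0, 0] := by rw [hX2, one_mul]
      _ = (X ![0, 1] * X ![0, 2]) * (X ![1, 1] * X ![2, 2]) * (X ![2, 1] * X ![1, 2]) := by
          rw [(hcomm ![2, 1] ![1, 2]).eq, l1, l2, l3]
      _ = X ![0, 1] * (X ![0, 2] * X ![1, 1]) * (X ![2, 2] * X ![2, 1]) * X ![1, 2] := by
          simp only [mul_assoc]
      _ = X ![0, 1] * (X ![1, 1] * X ![0, 2]) * (X ![2, 1] * X ![2, 2]) * X ![1, 2] := by
          rw [(hcomm ![0, 2] ![1, 1]).eq, (hcomm ![2, 2] ![2, 1]).eq]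
      _ = X ![0, 1] * X ![1, 1] * (X ![0, 2] * X ![2, 1]) * (X ![2, 2] * X ![1, 2]) := by
          simp only [mul_assoc]
      _ = X ![0, 1] * X ![1, 1] * (X ![2, 1] * X ![0, 2]) * (X ![1, 2] * X ![2, 2]) := by
          rw [(hcomm ![0, 2] ![2, 1]).eq, (hcomm ![2, 2] ![1, 2]).eq]
      _ = (X ![0, 1] * X ![1, 1] * X ![2, 1]) * (X ![0, 2] * X ![1, 2] * X ![2, 2]) := by
          simp only [mul_assoc]
      _ = 1 := by rw [m1, m2, one_mul]
  have hw1 : w = 1 := by
    have : X ![0, 0] = w := by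
      show ψ (0, 0, 0) * w * (ψ (0, 0, 0))⁻¹ = w
      rw [hone, one_mul, inv_one, mul_one]
    rw [← this, hA]
  rw [← hwb, hw1, one_mul]

theorem not_sixteen_eight : ¬ HasParams D 16 8 := by
  classical
  intro hp
  obtain ⟨a, ha, -⟩ := h.noncomm
  obtain ⟨b, hb⟩ := h.nonempty a ha
  have hblk : ∀ d ∈ nbr D a, (blk D a d).ncard = 16 := fun d hd => by
    obtain ⟨h1, h2⟩ := h.ln_insert ha hd
    have := hp.line a ha d hd
    rw [h1, Set.ncard_insert_of_notMem h2] at this
    omega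
  have hdeg := hp.deg a ha
  obtain ⟨b1, hb1, hb1'⟩ := Set.exists_mem_notMem_of_ncard_lt_ncard
    (show (blk D a b).ncard < (nbr D a).ncard by rw [hblk b hb, hdeg]; norm_num) (Set.toFinite _)
  have n1 : ¬ Commute b b1 := fun hc => hb1' ⟨hb1, hc.symm⟩
  have hb3 : b * b1 * b ∈ nbr D a := by
    have h1 := nbr_conj h.ttg b hb1
    rw [h.inv_eq hb.1] at h1
    rwa [show b * a * b = a by rw [← hb.2.2.eq, mul_assoc, h.mul_self hb.1, mul_one]] at h1
  obtain ⟨b2, hb2, hb2'⟩ : ∃ b2 ∈ nbr D a, b2 ∉ blk D a b ∪ blk D a b1 ∪ blk D a (b * b1 * b) := by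
    refine Set.exists_mem_notMem_of_ncard_lt_ncard ?_ (Set.toFinite _)
    have h1 := Set.ncard_union_le (blk D a b ∪ blk D a b1) (blk D a (b * b1 * b))
    have h2 := Set.ncard_union_le (blk D a b) (blk D a b1)
    rw [hblk b hb, hblk b1 hb1] at h2
    rw [hblk _ hb3] at h1
    rw [hdeg]
    omega
  simp only [Set.mem_union, not_or] at hb2'
  obtain ⟨u, v, z₀, hmul, hone, hzb, hx10, hx01, hfD, hfn, hfx⟩ :=
    exists_nine_heis (D := D) h.ttg.1 (fun p hp' q hq => h.conj_mem hp' hq) hb.1 hb1.1 hb2.1 n1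
      (fun hc => hb2'.1.1 ⟨hb2, hc.symm⟩) (fun hc => hb2'.1.2 ⟨hb2, hc.symm⟩)
      (fun hc => hb2'.2 ⟨hb2, hc.symm⟩)
  set ψ := hmap u v z₀ with hψ
  set f : (Fin 2 → ZMod 3) → G := fun p => ψ (nm p) * b with hfdef
  have hu : u = ψ (1, 0, 0) := by simp [hψ, hmap, ZMod.val_one]
  have hv : v = ψ (0, 1, 0) := by simp [hψ, hmap, ZMod.val_one]
  have hz₀ : z₀ = ψ (0, 0, 1) := by simp [hψ, hmap, ZMod.val_one]
  set z := ψ (0, 0, 1) with hzdef
  have hua : Commute a u := by
    have : u = b1 * b := by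
      rw [← hx10, show nm ![1, 0] = (1, 0, 0) by decide, ← hu, tt_cancel_right h.ttg.1 hb.1]
    rw [this]; exact hb1.2.2.mul_right hb.2.2
  have hva : Commute a v := by
    have : v = b2 * b := by
      rw [← hx01, show nm ![0, 1] = (0, 1, 0) by decide, ← hv, tt_cancel_right h.ttg.1 hb.1]
    rw [this]; exact hb2.2.2.mul_right hb.2.2
  have hza : Commute a z := by
    have e1 : v * u = z * (u * v) := by
      rw [hu, hv, hzdef, hmul, hmul, hmul]
      congr 1
    have e2 : z = v * u * (u * v)⁻¹ := by rw [e1, mul_inv_cancel_right]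
    rw [e2]
    exact (hva.mul_right hua).mul_right (hua.mul_right hva).inv_right
  have hψa : ∀ x, Commute a (ψ x) := fun x =>
    ((hz₀ ▸ hza : Commute a z₀).pow_right _).mul_right ((hua.pow_right _).mul_right (hva.pow_right _))
  have hf0 : f ![0, 0] = b := by
    show ψ (nm ![0, 0]) * b = b
    rw [show nm ![0, 0] = (0, 0, 0) by decide, hone, one_mul]
  have hfa : ∀ p, f p ∈ nbr D a := by
    intro p
    refine ⟨hfD p, fun eq => ?_, (hψa _).mul_right hb.2.2⟩
    obtain ⟨q, hq⟩ : ∃ q, q ≠ p := exists_ne p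
    exact hfn q p hq (by
      rw [show ψ (nm p) * b = a from eq]
      exact ((hψa _).mul_right hb.2.2).symm)
  have hcomz : ∀ x, Commute z (ψ x) := fun x => by
    show z * ψ x = ψ x * z
    rw [hzdef, hmul, hmul, hm_central]
  have hzf : ∀ p, Commute z (f p) := fun p => (hcomz _).mul_right hzb
  have hfuniq : ∀ p q, Commute (f p) (f q) → p = q := fun p q hc => by
    by_contra hne; exact hfn p q hne hc
  have hcover : ∀ d ∈ nbr D a, ∃ q, Commute d (f q) := by
    set U := Finset.univ.biUnion fun q => (blk D a (f q)).toFinite.toFinset with hU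
    have hsub : U ⊆ (Set.toFinite (nbr D a)).toFinset := by
      intro d hd
      simp only [hU, Finset.mem_biUnion, Finset.mem_univ, true_and, Set.Finite.mem_toFinset] at hd
      obtain ⟨q, hd⟩ := hd
      exact (Set.Finite.mem_toFinset _).2 hd.1
    have hcard : U.card = 144 := by
      rw [hU, Finset.card_biUnion]
      · simp only [← Set.ncard_eq_toFinset_card, hblk _ (hfa _), Finset.sum_const, smul_eq_mul,
          Finset.card_univ, Fintype.card_pi, ZMod.card, Finset.prod_const, Fintype.card_fin]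
        norm_num
      · intro p _ q _ hne
        simp only [Function.onFun, Finset.disjoint_left, Set.Finite.mem_toFinset]
        intro d hd1 hd2
        exact hne (hfuniq p q (h.trans a ha d hd1.1 (f q) (hfa q) (f p) (hfa p) hd2.2 hd1.2.symm))
    have heq := Finset.eq_of_subset_of_card_le hsub
      (by rw [hcard, ← Set.ncard_eq_toFinset_card, hdeg])
    intro d hd
    have : d ∈ U := heq ▸ (Set.Finite.mem_toFinset _).2 hd
    simp only [hU, Finset.mem_biUnion, Finset.mem_univ, true_and, Set.Finite.mem_toFinset] at this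
    obtain ⟨q, hq⟩ := this
    exact ⟨q, hq.2⟩
  by_cases hcase : ∃ e ∈ blk D a b, e ≠ b ∧ Commute z e
  · obtain ⟨e, he, hne, hze⟩ := hcase
    refine hne (h.plane_rigid hmul hone hb.1 he.1.1 he.2.symm hzb hze hfD fun p hp0 => ?_)
    have h1 : ¬ Commute (f p) b := fun hc => hp0 (hfuniq p ![0, 0] (hf0.symm ▸ hc))
    exact ⟨h1, fun hc => h1 (h.trans a ha e he.1 b hb (f p) (hfa p) he.2 hc)⟩
  push Not at hcase
  have hfix : ∀ d ∈ nbr D a, Commute z d → ∃ q, d = f q := by
    intro d hd hzd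
    obtain ⟨q, hq⟩ := hcover d hd
    refine ⟨q, by_contra fun hne => ?_⟩
    set g := f (-q) with hg
    have hgq : g * f q * g = b := by
      rw [hg, ← hf0]
      have := hfx q (-q)
      rw [show -q - -q = ![0, 0] by funext i; fin_cases i <;> simp] at this
      exact this
    have hgd : g * d * g ∈ nbr D a := by
      have h1 := nbr_conj h.ttg g hd
      rw [h.inv_eq (hfa _).1] at h1
      rwa [show g * a * g = a by
        rw [← (hfa (-q)).2.2.eq, mul_assoc, h.mul_self (hfa _).1, mul_one]] at h1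
    have hgb : Commute (g * d * g) b := by
      rw [← hgq]
      have := (commute_conj_iff' (g := g) (a := d) (b := f q)).2 hq
      rwa [h.inv_eq (hfa (-q)).1] at this
    refine hcase (g * d * g) ⟨hgd, hgb⟩ (fun eq => hne ?_) (((hzf _).mul_right hzd).mul_right (hzf _))
    have hcc := congrArg (fun w => g * w * g) (eq.trans hgq.symm)
    simpa only [hg, mul_assoc, tt_cancel_left h.ttg.1 (hfa (-q)).1, h.mul_self (hfa (-q)).1,
      mul_one] using hcc
  set H : Set G := {d | d ∈ D ∧ ∀ q, Commute d (f q)} with hH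
  have haH : a ∈ H := ⟨ha, fun q => (hfa q).2.2⟩
  have hHuniq : ∀ p ∈ H, ∀ q ∈ H, Commute p q → p = q := by
    intro p hp' q hq hc
    by_contra hne
    have hqn : q ∈ nbr D p := ⟨hq.1, Ne.symm hne, hc⟩
    exact (by decide : (![0, 0] : Fin 2 → ZMod 3) ≠ ![1, 0]) (hfuniq _ _
      (h.clique hp'.1 hqn ⟨(hfa _).1, (hp'.2 _).symm, (hq.2 _).symm⟩
        ⟨(hfa _).1, (hp'.2 _).symm, (hq.2 _).symm⟩))
  have hHP : ∀ q, f q ∉ H := fun q hh => by
    obtain ⟨p, hp'⟩ : ∃ p, p ≠ q := exists_ne q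
    exact hp' (hfuniq p q (hh.2 p).symm)
  have hHcl : ∀ p ∈ H, ∀ q ∈ H, p * q * p ∈ H := fun p hp' q hq =>
    ⟨h.conj_mem hp'.1 hq.1, fun r => ((hp'.2 r).mul_left (hq.2 r)).mul_left (hp'.2 r)⟩
  obtain ⟨j, hj⟩ := FischerCore.ncard_widthOne h.ttg.1 (W := H) (fun d hd => hd.1) ⟨a, haH⟩ hHcl
    hHuniq
  -- the other members commuting with the plane look like `a`
  have hHnbr : ∀ c ∈ H, ∀ d ∈ nbr D c, ∃ q, Commute d (f q) := by
    intro c hc d hd
    by_cases hca : c = a
    · exact hcover d (hca ▸ hd)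
    have hnc : ¬ Commute a c := fun hh => hca (hHuniq a haH c hc hh).symm
    set g := a * c * a with hg
    have hgH := hHcl a haH c hc
    have hgc : g * c * g = a := by
      rw [hg, h.braid ha hc.1 hnc]
      calc c * a * c * c * (c * a * c) = c * a * ((c * c) * c) * a * c := by simp only [mul_assoc]
        _ = c * (a * c * a) * c := by rw [h.mul_self hc.1, one_mul]; simp only [mul_assoc]
        _ = c * (c * a * c) * c := by rw [h.braid ha hc.1 hnc]
        _ = a := by simp only [mul_assoc, tt_cancel_left h.ttg.1 hc.1, h.mul_self hc.1, mul_one]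
    have h1 : g * d * g ∈ nbr D a := by
      have := nbr_conj h.ttg g hd
      rwa [h.inv_eq hgH.1, hgc] at this
    obtain ⟨q, hq⟩ := hcover _ h1
    refine ⟨q, ?_⟩
    have h2 := (commute_conj_iff' (g := g) (a := d) (b := f q))
    rw [h.inv_eq hgH.1, show g * f q * g = f q by
      rw [(hgH.2 q).eq, mul_assoc, h.mul_self hgH.1, mul_one]] at h2
    exact h2.1 hq
  have hzH : ∀ c ∈ H, Commute z c := by
    intro c hc
    have hb' := hc.2 ![0, 0]
    rw [hf0] at hb'
    have hcu : Commute c u := by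
      have : u = f ![1, 0] * b := by
        show u = ψ (nm ![1, 0]) * b * b
        rw [tt_cancel_right h.ttg.1 hb.1, show nm ![1, 0] = (1, 0, 0) by decide, ← hu]
      rw [this]; exact (hc.2 _).mul_right hb'
    have hcv : Commute c v := by
      have : v = f ![0, 1] * b := by
        show v = ψ (nm ![0, 1]) * b * b
        rw [tt_cancel_right h.ttg.1 hb.1, show nm ![0, 1] = (0, 1, 0) by decide, ← hv]
      rw [this]; exact (hc.2 _).mul_right hb'
    have e1 : v * u = z * (u * v) := by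
      rw [hu, hv, hzdef, hmul, hmul, hmul]
      congr 1
    have e2 : z = v * u * (u * v)⁻¹ := by rw [e1, mul_inv_cancel_right]
    rw [e2]
    exact ((hcv.mul_right hcu).mul_right (hcu.mul_right hcv).inv_right).symm
  have hcj : ∀ p, Commute z p → z * p * z⁻¹ = p := fun p hc => by
    rw [hc.eq, mul_inv_cancel_right]
  have hF : ∀ d ∈ D, Commute z d → (∃ q, d = f q) ∨ d ∈ H := by
    intro d hd hzd
    by_cases hda : d = a
    · exact Or.inr (hda ▸ haH)
    by_cases hac : Commute a d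
    · exact Or.inl (hfix d ⟨hd, hda, hac⟩ hzd)
    refine Or.inr ⟨hd, fun q => ?_⟩
    obtain ⟨c, hcL, hdc⟩ := h.exists_proj ha (hfa q) hd
    have hdL : d ∉ ln D a (f q) := fun hh => hac hh.2.1.symm
    have hzc : Commute z c := by
      have hc' : z * c * z⁻¹ ∈ ln D a (f q) := by
        have : z * c * z⁻¹ ∈ conjImg z (ln D a (f q)) := ⟨c, hcL, rfl⟩
        rwa [← ln_conj h.ttg, hcj a hza.symm, hcj _ (hzf q)] at this
      have h1 := h.unique_proj ha (hfa q) hc' hcL hd hdL (by
        have := (commute_conj_iff' (g := z) (a := d) (b := c)).2 hdc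
        rwa [hcj d hzd] at this) hdc
      show z * c = c * z
      exact mul_inv_eq_iff_eq_mul.1 h1
    obtain ⟨q', hq'⟩ := hfix c ⟨hcL.1, fun eq => hac (eq ▸ hdc).symm, hcL.2.1.symm⟩ hzc
    rw [hq'] at hcL hdc
    rwa [hfuniq q' q hcL.2.2] at hdc
  set hn := H.ncard with hhn
  have hfixed : fixedMem D z = Set.range f ∪ H := by
    ext d
    constructor
    · rintro ⟨hd, h1⟩
      rcases hF d hd (mul_inv_eq_iff_eq_mul.1 h1) with ⟨q, rfl⟩ | hh
      · exact Or.inl ⟨q, rfl⟩
      · exact Or.inr hh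
    · rintro (⟨q, rfl⟩ | hd)
      · exact ⟨(hfa q).1, hcj _ (hzf q)⟩
      · exact ⟨hd.1, hcj _ (hzH d hd)⟩
  have hHne : ∀ c ∈ H, ∀ q, f q ∈ nbr D c := fun c hc q =>
    ⟨(hfa q).1, fun eq => hHP q (eq.symm ▸ hc), hc.2 q⟩
  have hpts : ∀ c ∈ H, ∀ q, ∀ d ∈ ln D c (f q), Commute z d → d = c ∨ d = f q := by
    intro c hc q d hd hzd
    rcases hF d hd.1 hzd with ⟨q', rfl⟩ | hh
    · exact Or.inr (congrArg f (hfuniq q' q hd.2.2))
    · exact Or.inl (hHuniq d hh c hc hd.2.1)
  let HF : Finset G := (Set.toFinite H).toFinset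
  let pairs := HF ×ˢ (Finset.univ : Finset (Fin 2 → ZMod 3))
  let piece : G × (Fin 2 → ZMod 3) → Finset G :=
    fun cq => (Set.toFinite (ln D cq.1 (f cq.2) \ {cq.1, f cq.2})).toFinset
  have hmoved : movedMem D z = ↑(pairs.biUnion piece) := by
    ext d
    simp only [Finset.coe_biUnion, pairs, piece, HF, Set.mem_iUnion, Finset.mem_coe,
      Finset.mem_product, Finset.mem_univ, and_true, Set.Finite.mem_toFinset, Set.mem_sdiff,
      Set.mem_insert_iff, Set.mem_singleton_iff, exists_prop, Prod.exists, not_or]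
    constructor
    · rintro ⟨hd, h1, h2⟩
      set d1 := z * d * z⁻¹ with hd1
      have hd1D : d1 ∈ D := h.ttg.2.1 z d hd
      have hnN : d1 ∈ nbr D d := ⟨hd1D, h1, h2.symm⟩
      have hsame : ∀ p, Commute z p → Commute p d → Commute p d1 := fun p hzp hpd => by
        have := (commute_conj_iff' (g := z) (a := p) (b := d)).2 hpd
        rwa [hcj p hzp] at this
      have hz3 : z * (z * z) = 1 := by
        rw [hzdef, hmul, hmul, hm_centre_pow.1, hm_centre_pow.2, hone]
      have hzi : z⁻¹ = z * z := inv_eq_of_mul_eq_one_right hz3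
      have hinv' : ∀ p ∈ ln D d d1, z * p * z⁻¹ ∈ ln D d d1 := by
        intro p hp'
        have hp1 : z * p * z⁻¹ ∈ ln D (z * d * z⁻¹) (z * d1 * z⁻¹) := by
          rw [ln_conj h.ttg]; exact ⟨p, hp', rfl⟩
        have h3 : z * d1 * z⁻¹ = z⁻¹ * d * z := by
          rw [hd1, hzi]
          simp only [mul_assoc]
          rw [hz3]
          simp only [mul_one, ← mul_assoc]
        have hd2 : z * d1 * z⁻¹ ∈ ln D d d1 := by
          refine ⟨h.ttg.2.1 z d1 hd1D, ?_, (commute_conj_iff').2 h2⟩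
          rw [h3]
          have := (commute_conj_iff' (g := z⁻¹) (a := d) (b := z * d * z⁻¹)).2 h2.symm
          simpa [mul_assoc] using this
        obtain ⟨-, hd1L⟩ := h.self_mem hd hnN
        rw [h.ln_eq hd hnN hd1L hd2 (fun eq => h1 (by
          have := congrArg (fun w => z⁻¹ * w * z) eq
          simpa [hd1, mul_assoc] using this.symm))] at hp1
        exact hp1
      have hnd : ∀ p, p ∈ ln D d d1 → Commute z p → p ≠ d := by
        rintro p - hzp rfl
        exact h1 (hcj p hzp)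
      have hproj : ∀ c ∈ D, Commute z c → ∃ c', c' ∈ ln D d d1 ∧ Commute z c' ∧ Commute c c' := by
        intro c hc hzc
        by_cases hcN : c ∈ ln D d d1
        · exact ⟨c, hcN, hzc, Commute.refl c⟩
        obtain ⟨c', hc', hcc⟩ := h.exists_proj hd hnN hc
        refine ⟨c', hc', ?_, hcc⟩
        have h4 := h.unique_proj hd hnN (hinv' c' hc') hc' hc hcN (by
          have := (commute_conj_iff' (g := z) (a := c) (b := c')).2 hcc
          rwa [hcj c hzc] at this) hcc
        exact mul_inv_eq_iff_eq_mul.1 h4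
      obtain ⟨c0, hc0, hzc0, -⟩ := hproj a ha hza.symm
      obtain ⟨c, hc, q, hcN, hqN⟩ : ∃ c ∈ H, ∃ q, c ∈ ln D d d1 ∧ f q ∈ ln D d d1 := by
        rcases hF c0 hc0.1 hzc0 with ⟨q, rfl⟩ | hh
        · obtain ⟨q', hq'⟩ : ∃ q', q' ≠ q := exists_ne q
          obtain ⟨c', hc', hzc', hcc'⟩ := hproj (f q') (hfa q').1 (hzf q')
          rcases hF c' hc'.1 hzc' with ⟨q'', rfl⟩ | hh'
          · have e1 := hfuniq q' q'' hcc'
            subst e1
            exact absurd (hfuniq _ _ (h.clique hd hnN hc' hc0)) hq'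
          · exact ⟨c', hh', q, hc', hc0⟩
        · obtain ⟨q, hq⟩ := hHnbr c0 hh d ⟨hd, (hnd c0 hc0 hzc0).symm, hc0.2.1⟩
          exact ⟨c0, hh, q, hc0, (hfa q).1, hq.symm, hsame _ (hzf q) hq.symm⟩
      refine ⟨c, q, hc, ?_, fun eq => hnd c hcN (hzH c hc) eq.symm,
        fun eq => hnd _ hqN (hzf q) eq.symm⟩
      rw [h.ln_eq hd hnN hcN hqN (hHne c hc q).2.1.symm]
      exact (h.self_mem hd hnN).1
    · rintro ⟨c, q, hc, hd, hdc, hdq⟩
      refine ⟨hd.1, fun eq => ?_, ?_⟩
      · rcases hpts c hc q d hd (mul_inv_eq_iff_eq_mul.1 eq) with h1 | h1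
        exacts [hdc h1, hdq h1]
      · refine h.clique hc.1 (hHne c hc q) ?_ hd
        have h1 : z * d * z⁻¹ ∈ conjImg z (ln D c (f q)) := ⟨d, hd, rfl⟩
        rwa [← ln_conj h.ttg, hcj c (hzH c hc), hcj _ (hzf q)] at h1
  have hmcard : (movedMem D z).ncard = hn * 135 := by
    have hsz : ∀ cq ∈ pairs, (piece cq).card = 15 := by
      rintro ⟨c, q⟩ hcq
      simp only [pairs, HF, Finset.mem_product, Set.Finite.mem_toFinset] at hcq
      have hsub : ({c, f q} : Set G) ⊆ ln D c (f q) := by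
        rintro p (rfl | rfl)
        · exact (h.self_mem hcq.1.1 (hHne _ hcq.1 q)).1
        · exact (h.self_mem hcq.1.1 (hHne _ hcq.1 q)).2
      simp only [piece, ← Set.ncard_eq_toFinset_card]
      rw [Set.ncard_sdiff hsub (Set.toFinite _), hp.line c hcq.1.1 _ (hHne c hcq.1 q),
        Set.ncard_pair (hHne c hcq.1 q).2.1.symm]
    rw [hmoved, Set.ncard_coe_finset, Finset.card_biUnion, Finset.sum_congr rfl hsz,
      Finset.sum_const, smul_eq_mul, Finset.card_product]
    · simp only [HF, ← Set.ncard_eq_toFinset_card, Finset.card_univ, Fintype.card_pi, ZMod.card,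
        Finset.prod_const, Fintype.card_fin]
      rw [← hhn]; ring
    · rintro ⟨c, q⟩ hcq ⟨c', q'⟩ hcq' hne
      simp only [pairs, HF, Finset.coe_product, Set.mem_prod, Finset.mem_coe,
        Set.Finite.mem_toFinset] at hcq hcq'
      simp only [Function.onFun, piece, Finset.disjoint_left, Set.Finite.mem_toFinset,
        Set.mem_sdiff, Set.mem_insert_iff, Set.mem_singleton_iff, not_or]
      rintro d ⟨hd, hdc, hdq⟩ ⟨hd', hdc', hdq'⟩
      have hzd : ¬ Commute z d := fun hzd => by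
        rcases hpts c hcq.1 q d hd hzd with h1 | h1
        exacts [hdc h1, hdq h1]
      have hd1 : z * d * z⁻¹ ≠ d := fun eq => hzd (mul_inv_eq_iff_eq_mul.1 eq)
      have hmem : ∀ c ∈ H, ∀ q, d ∈ ln D c (f q) → z * d * z⁻¹ ∈ ln D c (f q) := by
        intro c hc q hd
        have h1 : z * d * z⁻¹ ∈ conjImg z (ln D c (f q)) := ⟨d, hd, rfl⟩
        rwa [← ln_conj h.ttg, hcj c (hzH c hc), hcj _ (hzf q)] at h1
      have hL : ln D c (f q) = ln D c' (f q') := by
        rw [← h.ln_eq hcq.1.1 (hHne c hcq.1 q) hd (hmem c hcq.1 q hd) hd1.symm,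
          h.ln_eq hcq'.1.1 (hHne c' hcq'.1 q') hd' (hmem c' hcq'.1 q' hd') hd1.symm]
      obtain ⟨s1, s2⟩ := h.self_mem hcq.1.1 (hHne c hcq.1 q)
      rw [hL] at s1 s2
      exact hne (Prod.ext (hHuniq c hcq.1 c' hcq'.1 s1.2.1) (hfuniq q q' s2.2.2))
  have hfcard : (fixedMem D z).ncard = 9 + hn := by
    rw [hfixed, Set.ncard_union_eq (by
      rw [Set.disjoint_left]; rintro _ ⟨q, rfl⟩; exact hHP q) (Set.toFinite _) (Set.toFinite _),
      Set.ncard_range_of_injective (fun p q hpq => hfuniq p q (by rw [hpq]))]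
    simp [Fintype.card_pi, hhn]
  have hvz : cval D 16 8 z = 144 * (hn : ℤ) - 72 := by
    rw [cval, hfcard, hmcard]; push_cast; ring
  let vv : Fin 3 → ℤ := ![19584, 144 * (hn : ℤ) - 72, -72]
  have hval : ∀ x, cval D 16 8 (ψ x) = vv (heisKind x) := by
    intro x
    simp only [heisKind]
    by_cases hx : x.1 = 0 ∧ x.2.1 = 0
    · rw [if_pos hx]
      have ex : x = (0, 0, x.2.2) := Prod.ext hx.1 (Prod.ext hx.2 rfl)
      rcases (show x.2.2 = 0 ∨ x.2.2 = 1 ∨ x.2.2 = 2 by
        generalize x.2.2 = k; revert k; decide) with hk | hk | hk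
      · rw [if_pos hk, ex, hk, hone, h.cval_one hp]
        simp [vv]
      · rw [if_neg (by rw [hk]; decide), ex, hk]
        simpa [vv] using hvz
      · rw [if_neg (by rw [hk]; decide), ex, hk]
        have : ψ (0, 0, 2) = z⁻¹ := by
          refine eq_inv_of_mul_eq_one_right ?_
          rw [hzdef, hmul, hm_centre_pow.2, hone]
        rw [this, cval_inv]
        simpa [vv] using hvz
    · rw [if_neg hx]
      obtain ⟨y, hy⟩ := hm_noncentral x hx
      set p : Fin 2 → ZMod 3 := ![x.1, x.2.1] with hp'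
      have hconj : ψ x = ψ y * ψ (nm p) * (ψ y)⁻¹ := by
        rw [hmul, hy, ← hmul, mul_inv_cancel_right]
      have hpne : p ≠ ![0, 0] := fun eq => hx ⟨by simpa [hp'] using congrFun eq 0,
        by simpa [hp'] using congrFun eq 1⟩
      rw [hconj, cval_conj h.ttg,
        show ψ (nm p) = f p * b from (tt_cancel_right h.ttg.1 hb.1 _).symm,
        h.cval_three hp (hfa p).1 hb.1 (fun hc => hpne (hfuniq p _ (hf0.symm ▸ hc)))]
      simp [vv]
  have h1 := h.cval_sum_dvd hp hm ψ hm_bijective (fun i j => (hmul i j).symm)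
  simp only [hval] at h1
  rw [← Finset.sum_fiberwise' Finset.univ heisKind vv] at h1
  simp only [Finset.sum_const, heis_fibres, Fin.sum_univ_three, vv, Matrix.cons_val_zero,
    Matrix.cons_val_one, Matrix.cons_val, nsmul_eq_mul, Nat.cast_ofNat,
    Fintype.card_prod, ZMod.card] at h1
  norm_num at h1
  have h9 : hn % 9 = 6 := by omega
  rw [hj] at h9
  rcases j with - | j
  · norm_num at h9
  rcases j with - | j
  · norm_num at h9
  · rw [pow_add, pow_one, pow_add, pow_one] at h9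
    omega

end IsGQ

end CfsgLib.FischerGQ
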